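import Mathlib
import Cfsg.Prelude.Def_SolvableStructure
import Cfsg.Agent.S0542
import Cfsg.Agent.S0582
import Cfsg.Agent.Lib.Helper4.Conj
import Cfsg.Agent.Lib.Helper4.Card
import Cfsg.Agent.Lib.Lead.Hall

set_option autoImplicit false

open scoped Pointwise

namespace Cfsg.Agent.Lib.Helper4.HallSys

universe u

open Cfsg.Agent.Lib.Helper4.Conj Cfsg.Agent.Lib.Helper4.Card

variable {G : Type u} [Group G]

theorem index_inf_of_coprime [Finite G] (A B : Subgroup G) (h : (A.index).Coprime B.index) :
    (A ⊓ B).index = A.index * B.index := by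
  have h1 : A.index ∣ (A ⊓ B).index := Subgroup.index_dvd_of_le inf_le_left
  have h2 : B.index ∣ (A ⊓ B).index := Subgroup.index_dvd_of_le inf_le_right
  have h3 := Nat.Coprime.mul_dvd_of_dvd_of_dvd h h1 h2
  have hpos : 0 < (A ⊓ B).index := Nat.pos_of_ne_zero Subgroup.index_ne_zero_of_finite
  exact Nat.le_antisymm Subgroup.index_inf_le (Nat.le_of_dvd hpos h3)

/-- subgroups of coprime index factorize the group -/
theorem exists_mul_of_coprime_index [Finite G] (A B : Subgroup G)
    (h : (A.index).Coprime B.index) (g : G) : ∃ a ∈ A, ∃ b ∈ B, g = a * b := by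
  have h1 := card_mul_set A B
  have h2 := index_inf_of_coprime A B h
  have hA := Subgroup.index_mul_card A
  have hB := Subgroup.index_mul_card B
  have hAB := Subgroup.index_mul_card (A ⊓ B)
  have hcard : Nat.card ((A : Set G) * (B : Set G) : Set G) = Nat.card G := by
    rw [h2] at hAB
    have hg : 0 < Nat.card G := Nat.card_pos
    have e : Nat.card ((A : Set G) * (B : Set G) : Set G) * Nat.card G =
        Nat.card G * Nat.card G := by
      calc Nat.card ((A : Set G) * (B : Set G) : Set G) * Nat.card G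
          = Nat.card ((A : Set G) * (B : Set G) : Set G) *
              (A.index * B.index * Nat.card ↥(A ⊓ B)) := by rw [hAB]
        _ = (Nat.card ((A : Set G) * (B : Set G) : Set G) * Nat.card ↥(A ⊓ B)) *
              (A.index * B.index) := by ring
        _ = (Nat.card A * Nat.card B) * (A.index * B.index) := by rw [h1]
        _ = (A.index * Nat.card A) * (B.index * Nat.card B) := by ring
        _ = Nat.card G * Nat.card G := by rw [hA, hB]
    exact Nat.eq_of_mul_eq_mul_right hg e
  have huniv : ((A : Set G) * (B : Set G) : Set G) = Set.univ := by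
    apply Set.eq_of_subset_of_ncard_le (Set.subset_univ _) _ (Set.toFinite _)
    rw [Set.ncard_univ, ← hcard, Nat.card_coe_set_eq]
  have hg : g ∈ ((A : Set G) * (B : Set G) : Set G) := by rw [huniv]; exact Set.mem_univ g
  obtain ⟨a, ha, b, hb, rfl⟩ := Set.mem_mul.mp hg
  exact ⟨a, ha, b, hb, rfl⟩

theorem exists_mul_of_coprime_relIndex [Finite G] (N A B : Subgroup G)
    (h : (A.relIndex N).Coprime (B.relIndex N)) {x : G} (hx : x ∈ N) :
    ∃ a ∈ A, ∃ b ∈ B, x = a * b := by
  obtain ⟨a, ha, b, hb, hab⟩ :=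
    exists_mul_of_coprime_index (A.subgroupOf N) (B.subgroupOf N) h ⟨x, hx⟩
  exact ⟨a, ha, b, hb, congrArg Subtype.val hab⟩

theorem index_conj_smul [Finite G] (g : G) (H : Subgroup G) :
    (MulAut.conj g • H).index = H.index := by
  have h1 := Subgroup.index_mul_card (MulAut.conj g • H)
  have h2 := Subgroup.index_mul_card H
  rw [card_conj_smul] at h1
  exact Nat.eq_of_mul_eq_mul_right Nat.card_pos (h1.trans h2.symm)

theorem conj_smul_self_of_mem {h : G} {H : Subgroup G} (hh : h ∈ H) : MulAut.conj h • H = H :=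
  mem_normalizer_iff_conj_smul_eq.mp (Subgroup.le_normalizer hh)

theorem conj_smul_sup_eq (N : Subgroup G) {n : G} (hn : n ∈ N) (H : Subgroup G) :
    MulAut.conj n • H ⊔ N = H ⊔ N := by
  apply le_antisymm
  · apply sup_le _ le_sup_right
    intro y hy
    rw [mem_conj_smul] at hy
    have e : y = n * (n⁻¹ * y * n) * n⁻¹ := by group
    rw [e]
    exact Subgroup.mul_mem _ (Subgroup.mul_mem _ (Subgroup.mem_sup_right hn)
      (Subgroup.mem_sup_left hy)) (Subgroup.inv_mem _ (Subgroup.mem_sup_right hn))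
  · apply sup_le _ le_sup_right
    intro k hk
    have e : k = n⁻¹ * (n * k * n⁻¹) * n := by group
    rw [e]
    exact Subgroup.mul_mem _ (Subgroup.mul_mem _ (Subgroup.inv_mem _ (Subgroup.mem_sup_right hn))
      (Subgroup.mem_sup_left (conj_mem_conj_smul hk))) (Subgroup.mem_sup_right hn)

theorem card_coprime_index [Finite G] {K : Nat.Primes → Subgroup G}
    (hK : Cfsg.IsComplementSystem K) (p : Nat.Primes) :
    (Nat.card (K p)).Coprime (K p).index := by
  rw [hK p]
  apply Nat.Coprime.pow_right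
  rw [Nat.coprime_comm, Nat.Prime.coprime_iff_not_dvd p.2]
  intro hdvd
  have h1 := Subgroup.index_mul_card (K p)
  rw [hK p] at h1
  have h2 : (p : ℕ) ^ ((Nat.card G).factorization p + 1) ∣ Nat.card G := by
    rw [pow_succ]
    exact (Nat.mul_dvd_mul_left _ hdvd).trans (dvd_of_eq h1)
  exact Nat.pow_succ_factorization_not_dvd Nat.card_pos.ne' p.2 h2

/-- two Hall subgroups of the same index with the same product with a normal subgroup `N`
are conjugate under `N` -/
theorem conj_of_sup_eq_hall [Finite G] [Group.IsSolvable G] (N : Subgroup G) [N.Normal]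
    (H₁ H₂ : Subgroup G) (hidx : H₁.index = H₂.index)
    (hcop : (Nat.card H₁).Coprime H₁.index) (hsup : H₁ ⊔ N = H₂ ⊔ N) :
    ∃ n ∈ N, MulAut.conj n • H₁ = H₂ := by
  obtain ⟨M, hM⟩ : ∃ M, M = H₁ ⊔ N := ⟨_, rfl⟩
  have h1M : H₁ ≤ M := hM ▸ le_sup_left
  have h2M : H₂ ≤ M := by rw [hM, hsup]; exact le_sup_left
  have hcard : Nat.card H₁ = Nat.card H₂ := by
    have e1 := Subgroup.index_mul_card H₁
    have e2 := Subgroup.index_mul_card H₂
    rw [hidx, ← e2] at e1
    exact Nat.eq_of_mul_eq_mul_left (Nat.pos_of_ne_zero Subgroup.index_ne_zero_of_finite) e1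
  have hc1 : Nat.card (H₁.subgroupOf M) = Nat.card H₁ := by
    rw [card_subgroupOf_eq, inf_eq_left.mpr h1M]
  have hc2 : Nat.card (H₂.subgroupOf M) = Nat.card H₁ := by
    rw [card_subgroupOf_eq, inf_eq_left.mpr h2M, hcard]
  have hMcard : Nat.card M = Nat.card H₁ * H₁.relIndex M := by
    have h3 := Subgroup.index_mul_card (H₁.subgroupOf M)
    rw [hc1] at h3
    rw [← h3, mul_comm]; rfl
  have hcop' : (Nat.card H₁).Coprime (H₁.relIndex M) :=
    Nat.Coprime.coprime_dvd_right (Dvd.intro _ (Subgroup.relIndex_mul_index h1M)) hcop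
  obtain ⟨x, hx⟩ := Cfsg.Agent.Lib.Lead.Hall.hall_conj (G := M) _ _ hMcard hcop'
    (H₁.subgroupOf M) (H₂.subgroupOf M) hc1 hc2
  have h3 : MulAut.conj (x : G) • H₁ = H₂ :=
    Cfsg.Agent.S0582.conj_of_subgroupOf M H₁ H₂ h1M h2M x hx
  have hxM : (x : G) ∈ N ⊔ H₁ := by rw [sup_comm, ← hM]; exact x.2
  rw [← SetLike.mem_coe, Subgroup.normal_mul] at hxM
  obtain ⟨n, hn, h, hh, hnh⟩ := Set.mem_mul.mp hxM
  refine ⟨n, hn, ?_⟩
  rw [← h3, ← hnh, ← conj_smul_smul, conj_smul_self_of_mem hh]

/-- inductive step for simultaneous conjugacy of complement systems under a normal subgroup -/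
theorem rel_conj_aux [Finite G] [Group.IsSolvable G] (N : Subgroup G) [hN : N.Normal]
    (K L : Nat.Primes → Subgroup G) (hK : Cfsg.IsComplementSystem K)
    (hL : Cfsg.IsComplementSystem L) (hKL : ∀ p, K p ⊔ N = L p ⊔ N) (S : Finset ℕ) :
    ∃ n ∈ N, ∃ T : Subgroup G,
      (∀ p : Nat.Primes, (p : ℕ) ∈ S → MulAut.conj n • K p = L p) ∧
      (∀ p : Nat.Primes, (p : ℕ) ∈ S → T ≤ L p) ∧
      (∀ p : Nat.Primes, (p : ℕ) ∉ S → (T.index).Coprime p) := by
  classical
  induction S using Finset.induction_on with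
  | empty =>
    refine ⟨1, N.one_mem, ⊤, ?_, ?_, ?_⟩
    · intro p hp; exact absurd hp (Finset.notMem_empty _)
    · intro p hp; exact absurd hp (Finset.notMem_empty _)
    · intro p _; rw [Subgroup.index_top]; exact Nat.coprime_one_left _
  | insert q S hq ih =>
    obtain ⟨n, hn, T, h1, h2, h3⟩ := ih
    by_cases hqp : q.Prime
    · obtain ⟨p, hp⟩ : ∃ p : Nat.Primes, (p : ℕ) = q := ⟨⟨q, hqp⟩, rfl⟩
      have hpS : (p : ℕ) ∉ S := hp ▸ hq
      have hKp_idx : (MulAut.conj n • K p).index = (L p).index := by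
        rw [index_conj_smul, hK p, hL p]
      have hKpcop : (Nat.card ↥(MulAut.conj n • K p)).Coprime (MulAut.conj n • K p).index := by
        rw [index_conj_smul, card_conj_smul]
        exact card_coprime_index hK p
      have hsup : MulAut.conj n • K p ⊔ N = L p ⊔ N := by
        rw [← hKL p]; exact conj_smul_sup_eq N hn (K p)
      obtain ⟨n', hn', hn'c⟩ := conj_of_sup_eq_hall N _ _ hKp_idx hKpcop hsup
      have hcopr : ((N ⊓ T).relIndex N).Coprime ((N ⊓ (MulAut.conj n • K p)).relIndex N) := by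
        rw [Subgroup.inf_relIndex_left, Subgroup.inf_relIndex_left]
        have d1 : T.relIndex N ∣ T.index :=
          Cfsg.Agent.S0542.relIndex_dvd_index_of_normal_right T N
        have d2 : (MulAut.conj n • K p).relIndex N ∣ (MulAut.conj n • K p).index :=
          Cfsg.Agent.S0542.relIndex_dvd_index_of_normal_right _ N
        rw [index_conj_smul, hK p] at d2
        exact Nat.Coprime.coprime_dvd_left d1
          (Nat.Coprime.coprime_dvd_right d2 (Nat.Coprime.pow_right _ (h3 p hpS)))
      obtain ⟨a, ha, b, hb, hab⟩ := exists_mul_of_coprime_relIndex N (N ⊓ T)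
        (N ⊓ (MulAut.conj n • K p)) hcopr hn'
      obtain ⟨haN, haT⟩ := Subgroup.mem_inf.mp ha
      obtain ⟨hbN, hbK⟩ := Subgroup.mem_inf.mp hb
      refine ⟨a * n, N.mul_mem haN hn, T ⊓ L p, ?_, ?_, ?_⟩
      · intro r hr
        rw [Finset.mem_insert] at hr
        rw [← conj_smul_smul]
        rcases hr with hr | hr
        · have hrp : r = p := Subtype.ext (hr.trans hp.symm)
          rw [hrp, ← hn'c, hab, ← conj_smul_smul, conj_smul_self_of_mem hbK]
        · rw [h1 r hr]
          exact conj_smul_self_of_mem (h2 r hr haT)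
      · intro r hr
        rw [Finset.mem_insert] at hr
        rcases hr with hr | hr
        · have hrp : r = p := Subtype.ext (hr.trans hp.symm)
          rw [hrp]; exact inf_le_right
        · exact inf_le_left.trans (h2 r hr)
      · intro r hr
        rw [Finset.mem_insert, not_or] at hr
        have hcop0 : (T.index).Coprime (L p).index := by
          rw [hL p]; exact Nat.Coprime.pow_right _ (h3 p hpS)
        rw [index_inf_of_coprime T (L p) hcop0, hL p]
        apply Nat.Coprime.mul_left
        · exact h3 r hr.2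
        · apply Nat.Coprime.pow_left
          exact (Nat.coprime_primes p.2 r.2).mpr (fun h => hr.1 (h ▸ hp))
    · refine ⟨n, hn, T, ?_, ?_, ?_⟩
      · intro r hr
        rw [Finset.mem_insert] at hr
        rcases hr with hr | hr
        · exact absurd (hr ▸ r.2) hqp
        · exact h1 r hr
      · intro r hr
        rw [Finset.mem_insert] at hr
        rcases hr with hr | hr
        · exact absurd (hr ▸ r.2) hqp
        · exact h2 r hr
      · intro r hr
        rw [Finset.mem_insert, not_or] at hr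
        exact h3 r hr.2

theorem eq_top_of_not_dvd [Finite G] {K : Nat.Primes → Subgroup G}
    (hK : Cfsg.IsComplementSystem K) (p : Nat.Primes) (hp : ¬ (p : ℕ) ∣ Nat.card G) :
    K p = ⊤ := by
  rw [← Subgroup.index_eq_one, hK p, Nat.factorization_eq_zero_of_not_dvd hp, pow_zero]

/-- complement systems with the same images modulo a normal subgroup `N` are simultaneously
conjugate under `N` -/
theorem rel_conj [Finite G] [Group.IsSolvable G] (N : Subgroup G) [hN : N.Normal]
    (K L : Nat.Primes → Subgroup G) (hK : Cfsg.IsComplementSystem K)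
    (hL : Cfsg.IsComplementSystem L) (hKL : ∀ p, K p ⊔ N = L p ⊔ N) :
    ∃ n ∈ N, ∀ p : Nat.Primes, MulAut.conj n • K p = L p := by
  obtain ⟨n, hn, T, h1, -, -⟩ := rel_conj_aux N K L hK hL hKL (Nat.card G).primeFactors
  refine ⟨n, hn, fun p => ?_⟩
  by_cases hp : (p : ℕ) ∣ Nat.card G
  · exact h1 p (Nat.mem_primeFactors.mpr ⟨p.2, hp, Nat.card_pos.ne'⟩)
  · rw [eq_top_of_not_dvd hK p hp, eq_top_of_not_dvd hL p hp]
    exact conj_smul_self_of_mem (Subgroup.mem_top n)

end Cfsg.Agent.Lib.Helper4.HallSys
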