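import Mathlib
import Cfsg.Agent.Lib.Helper4.SL2Rep

/-!
# The conjugates of a transvection-like element under a normal `p'`-subgroup

`conj_main`: in the setting of `SL2Rep` (`T : K →* End M` faithful, `(a - 1) M ≤ ⟨w₁⟩`,
`a ^ p = 1`, `N` of exponent prime to `p` normalized by `a`, `x ∈ N` not centralizing `a`,
`p ∈ {2, 3}`), every `N`-conjugate of `a` is one of `a`, `b = a^x`, `b a b⁻¹`, `b⁻¹ a b`;
and for `p = 3`, `(a b)^3 ≠ 1`.
-/

set_option autoImplicit false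

namespace Cfsg.Agent.Lib.Helper4.SL2Conj

open Cfsg.Agent.Lib.Helper4.SL2Rep

universe u v

section

variable {p : ℕ} [Fact p.Prime] {M : Type v} [AddCommGroup M] [Module (ZMod p) M]
  {K : Type u} [Group K] (T : K →* Module.End (ZMod p) M)

omit [Fact p.Prime] in
theorem sq_eq_one [Fact p.Prime] (hp23 : p = 2 ∨ p = 3) (x : ZMod p) (hx : x ≠ 0) : x ^ 2 = 1 := by
  have h1 := ZMod.pow_card_sub_one_eq_one hx
  have h2 : p - 1 = 1 ∨ p - 1 = 2 := by omega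
  rcases h2 with h | h
  · rw [h, pow_one] at h1
    rw [h1, one_pow]
  · rw [h] at h1
    exact h1

theorem alpha_ne' (hT : ∀ e, T e = 1 → e = 1) (a b : K) (w₁ w₂ : M)
    (hCa : ∀ m, ∃ k : ZMod p, T a m - m = k • w₁) (hCb : ∀ m, ∃ k : ZMod p, T b m - m = k • w₂)
    (ha₁ : T a w₁ = w₁) (hb₂ : T b w₂ = w₂)
    (hw₂ : w₂ ≠ 0) (r : ℕ) (hr : r.Coprime p) (hd : (b * a⁻¹) ^ r = 1) (hab : a ≠ b) :
    T a w₂ ≠ w₂ := by
  intro ha₂
  have hp : p.Prime := Fact.out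
  obtain ⟨β, hβ⟩ := hCb w₁
  have hai₁ : T a⁻¹ w₁ = w₁ := by
    have h := T_inv_apply T a w₁
    rwa [ha₁] at h
  have hai₂ : T a⁻¹ w₂ = w₂ := by
    have h := T_inv_apply T a w₂
    rwa [ha₂] at h
  have hb₁ : T b w₁ = w₁ + β • w₂ := by rw [← hβ]; abel
  have hd₁ : T (b * a⁻¹) w₁ = w₁ + β • w₂ := by
    rw [map_mul, Module.End.mul_apply, hai₁, hb₁]
  have hd₂ : T (b * a⁻¹) w₂ = w₂ := by
    rw [map_mul, Module.End.mul_apply, hai₂, hb₂]
  have hspd : ∀ m : M, ∃ c₀ c₁ : ZMod p, T (b * a⁻¹) m - m = c₀ • w₁ + c₁ • w₂ := by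
    intro m
    obtain ⟨k₁, hk₁⟩ := hCa (T a⁻¹ m)
    obtain ⟨k₂, hk₂⟩ := hCb (T a⁻¹ m)
    rw [T_apply_inv] at hk₁
    refine ⟨-k₁, k₂, ?_⟩
    have h1 : T (b * a⁻¹) m - m = (T b (T a⁻¹ m) - T a⁻¹ m) - (m - T a⁻¹ m) := by
      rw [map_mul, Module.End.mul_apply]; abel
    rw [h1, hk₁, hk₂, neg_smul]; abel
  have hpow : ∀ n : ℕ, T ((b * a⁻¹) ^ n) w₁ = w₁ + ((n : ZMod p) * β) • w₂ := by
    intro n
    induction n with
    | zero =>
      rw [pow_zero, map_one, Module.End.one_apply, Nat.cast_zero, zero_mul, zero_smul, add_zero]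
    | succ n ih =>
      rw [pow_succ', map_mul, Module.End.mul_apply, ih, map_add, map_smul, hd₁, hd₂,
        Nat.cast_succ, add_mul, one_mul, add_smul]
      abel
  have h1 := hpow r
  rw [hd, map_one, Module.End.one_apply] at h1
  have h2 : ((r : ZMod p) * β) • w₂ = 0 := by
    have h3 : w₁ + ((r : ZMod p) * β) • w₂ = w₁ + 0 := by rw [add_zero]; exact h1.symm
    exact add_left_cancel h3
  have h4 : (r : ZMod p) * β = 0 := by
    rcases smul_eq_zero.mp h2 with h5 | h5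
    · exact h5
    · exact absurd h5 hw₂
  have hr0 : (r : ZMod p) ≠ 0 := by
    intro h5
    have h6 : p ∣ r := (ZMod.natCast_eq_zero_iff r p).mp h5
    have h7 : p = 1 := Nat.Coprime.eq_one_of_dvd hr.symm h6
    exact hp.one_lt.ne' h7
  have hβ0 : β = 0 := by
    rcases mul_eq_zero.mp h4 with h5 | h5
    · exact absurd h5 hr0
    · exact h5
  rw [hβ0, zero_smul, add_zero] at hd₁
  have h8 : T ((b * a⁻¹) ^ p) = 1 := quad_pow T w₁ w₂ (b * a⁻¹) hd₁ hd₂ hspd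
  have h9 : (b * a⁻¹) ^ p = 1 := hT _ h8
  have h10 : b * a⁻¹ = 1 := eq_one_of_pow_coprime hr hd h9
  apply hab
  exact (mul_inv_eq_one.mp h10).symm

theorem conj_main (hT : ∀ e, T e = 1 → e = 1) (a : K) (ha : a ^ p = 1) (N : Subgroup K) (r : ℕ)
    (hr : r.Coprime p) (hNr : ∀ q ∈ N, q ^ r = 1) (hNa : ∀ q ∈ N, a * q * a⁻¹ ∈ N) (w₁ : M)
    (hw₁ : w₁ ≠ 0) (hCa : ∀ m, ∃ k : ZMod p, T a m - m = k • w₁) (x : K) (hx : x ∈ N)
    (hxa : x * a * x⁻¹ ≠ a) (hp23 : p = 2 ∨ p = 3) :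
    (∀ y ∈ N, y * a * y⁻¹ = a ∨ y * a * y⁻¹ = x * a * x⁻¹ ∨
      y * a * y⁻¹ = (x * a * x⁻¹) * a * (x * a * x⁻¹)⁻¹ ∨
      y * a * y⁻¹ = (x * a * x⁻¹)⁻¹ * a * (x * a * x⁻¹)) ∧
    (p = 3 → (a * (x * a * x⁻¹)) ^ 3 ≠ 1) := by
  have hp : p.Prime := Fact.out
  have ha₁ : T a w₁ = w₁ := by
    obtain ⟨k, hk⟩ := hCa w₁
    exact fix_of_pow T a ha w₁ k hk
  have hNa' := conj_inv_mem N a hp.pos ha hNa
  have hCC : ∀ (y : K) (m : M), ∃ k : ZMod p, T (y * a * y⁻¹) m - m = k • T y w₁ := by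
    intro y m
    obtain ⟨k, hk⟩ := hCa (T y⁻¹ m)
    refine ⟨k, ?_⟩
    have h1 : T (y * a * y⁻¹) m - m = T y (T a (T y⁻¹ m) - T y⁻¹ m) := by
      rw [map_mul, map_mul, Module.End.mul_apply, Module.End.mul_apply, map_sub, T_apply_inv]
    rw [h1, hk, map_smul]
  have hfixc : ∀ y : K, T (y * a * y⁻¹) (T y w₁) = T y w₁ := by
    intro y
    rw [map_mul, map_mul, Module.End.mul_apply, Module.End.mul_apply, T_inv_apply, ha₁]
  have hne0 : ∀ y : K, T y w₁ ≠ 0 := by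
    intro y h
    apply hw₁
    have h1 := T_inv_apply T y w₁
    rw [h, map_zero] at h1
    exact h1.symm
  have hmemN : ∀ y ∈ N, ∀ z ∈ N, (z * a * z⁻¹) * (y * a * y⁻¹)⁻¹ ∈ N := by
    intro y hy z hz
    have h1 : (z * a * z⁻¹) * (y * a * y⁻¹)⁻¹ = z * (a * (z⁻¹ * y) * a⁻¹) * y⁻¹ := by group
    rw [h1]
    exact N.mul_mem (N.mul_mem hz (hNa _ (N.mul_mem (N.inv_mem hz) hy))) (N.inv_mem hy)
  have hPL : ∀ (c d y z : K), y ∈ N → z ∈ N → c = y * a * y⁻¹ → d = z * a * z⁻¹ → c ≠ d →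
      T c (T z w₁) ≠ T z w₁ := by
    intro c d y z hy hz hc hd hcd
    rw [hc]
    rw [hc, hd] at hcd
    exact alpha_ne' T hT (y * a * y⁻¹) (z * a * z⁻¹) (T y w₁) (T z w₁) (hCC y) (hCC z) (hfixc y)
      (hfixc z) (hne0 z) r hr (hNr _ (hmemN y hy z hz)) hcd
  obtain ⟨b, hbdef⟩ : ∃ b : K, b = x * a * x⁻¹ := ⟨_, rfl⟩
  rw [← hbdef]
  obtain ⟨w₂, hw₂def⟩ : ∃ w₂ : M, w₂ = T x w₁ := ⟨_, rfl⟩
  have h1N : (1 : K) ∈ N := N.one_mem
  have ha1 : a = 1 * a * 1⁻¹ := by group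
  have hba : b ≠ a := by rw [hbdef]; exact hxa
  obtain ⟨β, hβ⟩ := hCC x w₁
  rw [← hbdef, ← hw₂def] at hβ
  have hb₂ : T b w₂ = w₂ := by rw [hbdef, hw₂def]; exact hfixc x
  have hT1 : T 1 w₁ = w₁ := by rw [map_one, Module.End.one_apply]
  have hβ0 : β ≠ 0 := by
    intro h0
    have h1 : T b w₁ = w₁ := by
      rw [h0, zero_smul] at hβ
      exact sub_eq_zero.mp hβ
    have h2 := hPL b a x 1 hx h1N hbdef ha1 hba
    rw [hT1] at h2
    exact h2 h1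
  obtain ⟨α, hα⟩ := hCa w₂
  have hα0 : α ≠ 0 := by
    intro h0
    have h1 : T a w₂ = w₂ := by
      rw [h0, zero_smul] at hα
      exact sub_eq_zero.mp hα
    have h2 := hPL a b 1 x h1N hx ha1 hbdef hba.symm
    rw [← hw₂def] at h2
    exact h2 h1
  have ha₂ : T a w₂ = w₂ + α • w₁ := by rw [← hα]; abel
  have hb₁ : T b w₁ = w₁ + β • w₂ := by rw [← hβ]; abel
  have hind := indep T a w₁ w₂ hw₁ α hα0 ha₁ ha₂
  have hbi₁ : T b⁻¹ w₁ = w₁ - β • w₂ := by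
    have h1 : T b (w₁ - β • w₂) = w₁ := by
      rw [map_sub, map_smul, hb₁, hb₂]; abel
    have h2 := T_inv_apply T b (w₁ - β • w₂)
    rw [h1] at h2
    exact h2
  have hai₁ : T a⁻¹ w₁ = w₁ := by
    have h := T_inv_apply T a w₁
    rwa [ha₁] at h
  obtain ⟨z₃, hz₃def⟩ : ∃ z₃ : K, z₃ = b * a⁻¹ := ⟨_, rfl⟩
  obtain ⟨z₄, hz₄def⟩ : ∃ z₄ : K, z₄ = b⁻¹ * a := ⟨_, rfl⟩
  have hz₃N : z₃ ∈ N := by
    have h1 : z₃ = x * (a * x⁻¹ * a⁻¹) := by rw [hz₃def, hbdef]; group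
    rw [h1]
    exact N.mul_mem hx (hNa _ (N.inv_mem hx))
  have hz₄N : z₄ ∈ N := by
    have h1 : z₄ = x * (a⁻¹ * x⁻¹ * a) := by rw [hz₄def, hbdef]; group
    rw [h1]
    exact N.mul_mem hx (hNa' _ (N.inv_mem hx))
  have hz₃c : b * a * b⁻¹ = z₃ * a * z₃⁻¹ := by rw [hz₃def]; group
  have hz₄c : b⁻¹ * a * b = z₄ * a * z₄⁻¹ := by rw [hz₄def]; group
  have hz₃w : T z₃ w₁ = w₁ + β • w₂ := by
    rw [hz₃def, map_mul, Module.End.mul_apply, hai₁, hb₁]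
  have hz₄w : T z₄ w₁ = w₁ - β • w₂ := by
    rw [hz₄def, map_mul, Module.End.mul_apply, ha₁, hbi₁]
  refine ⟨?_, ?_⟩
  · intro y hy
    by_cases hca : y * a * y⁻¹ = a
    · exact Or.inl hca
    by_cases hcb : y * a * y⁻¹ = b
    · exact Or.inr (Or.inl hcb)
    right; right
    obtain ⟨s, hs⟩ := hCC y w₁
    obtain ⟨t, ht⟩ := hCC y w₂
    have hs0 : s ≠ 0 := by
      intro h0
      have h1 : T (y * a * y⁻¹) w₁ = w₁ := by
        rw [h0, zero_smul] at hs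
        exact sub_eq_zero.mp hs
      have h2 := hPL (y * a * y⁻¹) a y 1 hy h1N rfl ha1 hca
      rw [hT1] at h2
      exact h2 h1
    have ht0 : t ≠ 0 := by
      intro h0
      have h1 : T (y * a * y⁻¹) w₂ = w₂ := by
        rw [h0, zero_smul] at ht
        exact sub_eq_zero.mp ht
      have h2 := hPL (y * a * y⁻¹) b y x hy hx rfl hbdef hcb
      rw [← hw₂def] at h2
      exact h2 h1
    have hprod : (s + β * t) * (s - β * t) = 0 := by
      have h1 := sq_eq_one hp23 s hs0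
      have h2 := sq_eq_one hp23 t ht0
      have h3 := sq_eq_one hp23 β hβ0
      linear_combination h1 - β ^ 2 * h2 - h3
    have hplus : T (y * a * y⁻¹) (w₁ + β • w₂) - (w₁ + β • w₂) = (s + β * t) • T y w₁ := by
      have h1 : T (y * a * y⁻¹) (w₁ + β • w₂) - (w₁ + β • w₂) =
          (T (y * a * y⁻¹) w₁ - w₁) + β • (T (y * a * y⁻¹) w₂ - w₂) := by
        rw [map_add, map_smul, smul_sub]; abel
      rw [h1, hs, ht, smul_smul, ← add_smul]
    have hminus : T (y * a * y⁻¹) (w₁ - β • w₂) - (w₁ - β • w₂) = (s - β * t) • T y w₁ := by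
      have h1 : T (y * a * y⁻¹) (w₁ - β • w₂) - (w₁ - β • w₂) =
          (T (y * a * y⁻¹) w₁ - w₁) - β • (T (y * a * y⁻¹) w₂ - w₂) := by
        rw [map_sub, map_smul, smul_sub]; abel
      rw [h1, hs, ht, smul_smul, ← sub_smul]
    rcases mul_eq_zero.mp hprod with h | h
    · left
      by_contra hne
      have h2 := hPL (y * a * y⁻¹) (b * a * b⁻¹) y z₃ hy hz₃N rfl hz₃c hne
      rw [hz₃w] at h2
      apply h2
      rw [h, zero_smul] at hplus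
      exact sub_eq_zero.mp hplus
    · right
      by_contra hne
      have h2 := hPL (y * a * y⁻¹) (b⁻¹ * a * b) y z₄ hy hz₄N rfl hz₄c hne
      rw [hz₄w] at h2
      apply h2
      rw [h, zero_smul] at hminus
      exact sub_eq_zero.mp hminus
  · intro hp3 hpow
    have h3 : ((3 : ℕ) : ZMod p) = 0 :=
      (ZMod.natCast_eq_zero_iff 3 p).mpr (Dvd.intro 1 (by omega))
    have h3' : (3 : ZMod p) = 0 := by exact_mod_cast h3
    have hX : ∀ c₁ c₂ : ZMod p, T (a * b) (c₁ • w₁ + c₂ • w₂) =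
        (c₁ * (1 + α * β) + c₂ * α) • w₁ + (c₁ * β + c₂) • w₂ := by
      intro c₁ c₂
      simp only [map_mul, Module.End.mul_apply, map_add, map_smul, hb₁, hb₂, ha₁, ha₂]
      module
    have hind2 : ∀ c₁ c₂ d₁ d₂ : ZMod p, c₁ • w₁ + c₂ • w₂ = d₁ • w₁ + d₂ • w₂ → c₂ = d₂ := by
      intro c₁ c₂ d₁ d₂ h
      have h2 : (c₁ - d₁) • w₁ + (c₂ - d₂) • w₂ = 0 := by
        rw [sub_smul, sub_smul]
        have h5 : c₁ • w₁ - d₁ • w₁ + (c₂ • w₂ - d₂ • w₂) =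
            (c₁ • w₁ + c₂ • w₂) - (d₁ • w₁ + d₂ • w₂) := by abel
        rw [h5, h, sub_self]
      exact sub_eq_zero.mp (hind _ _ h2).2
    have h0 : w₂ = (0 : ZMod p) • w₁ + (1 : ZMod p) • w₂ := by rw [zero_smul, one_smul, zero_add]
    have h4 : T ((a * b) ^ 3) w₂ = w₂ := by rw [hpow, map_one, Module.End.one_apply]
    have h5 : T ((a * b) ^ 3) w₂ = T (a * b) (T (a * b) (T (a * b) w₂)) := by
      rw [pow_succ, pow_succ, pow_one, map_mul, map_mul, Module.End.mul_apply,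
        Module.End.mul_apply]
    rw [h5] at h4
    have h6 : T (a * b) (T (a * b) (T (a * b) ((0 : ZMod p) • w₁ + (1 : ZMod p) • w₂))) =
        (0 : ZMod p) • w₁ + (1 : ZMod p) • w₂ := by
      rw [← h0]; exact h4
    rw [hX, hX, hX] at h6
    have h7 := hind2 _ _ _ _ h6
    have h8 : (α * β) ^ 2 = 0 := by linear_combination h7 - (α * β) * h3'
    have h9 : α * β = 0 := (pow_eq_zero_iff (two_ne_zero)).mp h8
    rcases mul_eq_zero.mp h9 with h | h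
    · exact hα0 h
    · exact hβ0 h

end

end Cfsg.Agent.Lib.Helper4.SL2Conj
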