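import Mathlib
import Cfsg.Agent.Lib.Helper4.SL2Rep
import Cfsg.Agent.Lib.Helper4.SL2Conj

/-!
# The `SL₂(p)` generated by a transvection and a conjugate is a direct factor

Abstract linear version of the statement that, in a faithful group generated by transvections
whose `p'`-core `N` is self-centralizing, the subgroup `L = ⟨a, a^x⟩` (`x ∈ N`) splits off:
every transvection of the group lies in `L` times the pointwise stabilizer of the plane
`⟨w₁, x w₁⟩`, and that stabilizer centralizes `L`.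
-/

set_option autoImplicit false

namespace Cfsg.Agent.Lib.Helper4.SL2Fac

open Cfsg.Agent.Lib.Helper4.SL2Rep

universe u v

theorem no_eig {p : ℕ} [Fact p.Prime] (hp23 : p = 2 ∨ p = 3) (α β l₁ l₂ μ μ' : ZMod p)
    (hα : α ≠ 0) (hβ : β ≠ 0) (hl : ¬ (l₁ = 0 ∧ l₂ = 0))
    (e1 : l₁ + β * l₂ = μ * l₁) (e2 : -α * l₁ + (1 - α * β) * l₂ = μ * l₂)
    (e3 : (1 - α * β) * l₁ + β * l₂ = μ' * l₁) (e4 : -α * l₁ + l₂ = μ' * l₂) : False := by
  by_cases h1 : l₁ = 0
  · have h2 : l₂ ≠ 0 := fun h => hl ⟨h1, h⟩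
    have h3 : β * l₂ = 0 := by rw [h1] at e1; linear_combination e1
    rcases mul_eq_zero.mp h3 with h | h
    · exact hβ h
    · exact h2 h
  · by_cases h2 : l₂ = 0
    · have h3 : α * l₁ = 0 := by rw [h2] at e2; linear_combination -e2
      rcases mul_eq_zero.mp h3 with h | h
      · exact hα h
      · exact h1 h
    · have hc : α * β ≠ 0 := mul_ne_zero hα hβ
      have d1 : (α * β - (μ - μ')) * l₁ = 0 := by linear_combination e1 - e3
      have d2 : (α * β + (μ - μ')) * l₂ = 0 := by linear_combination e4 - e2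
      have k1 : α * β - (μ - μ') = 0 := by
        rcases mul_eq_zero.mp d1 with h | h
        · exact h
        · exact absurd h h1
      have k2 : α * β + (μ - μ') = 0 := by
        rcases mul_eq_zero.mp d2 with h | h
        · exact h
        · exact absurd h h2
      have h20 : (2 : ZMod p) = 0 := by
        have h : (2 : ZMod p) * (α * β) = 0 := by linear_combination k1 + k2
        rcases mul_eq_zero.mp h with h' | h'
        · exact h'
        · exact absurd h' hc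
      have q : ((μ - 1) * (μ' - 1) + α * β) * (l₁ * l₂) = 0 := by
        linear_combination (-(μ' - 1) * l₂) * e1 - (β * l₂) * e4
      have q' : (μ - 1) * (μ' - 1) + α * β = 0 := by
        rcases mul_eq_zero.mp q with h | h
        · exact h
        · exact absurd h (mul_ne_zero h1 h2)
      rcases hp23 with hp | hp
      · subst hp
        have hc1 : α * β = 1 := by
          have := ZMod.pow_card_sub_one_eq_one hc
          simpa using this
        have hμ2 : μ ^ 2 = μ := ZMod.pow_card μ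
        have h10 : (1 : ZMod 2) = 0 := by
          linear_combination q' - (1 - μ) * h20 - hμ2 + (μ - 2) * hc1 - (μ - 1) * k1
        exact one_ne_zero h10
      · subst hp
        have h3 : ((2 : ℕ) : ZMod 3) = 0 := by exact_mod_cast h20
        have h4 : 3 ∣ 2 := (ZMod.natCast_eq_zero_iff 2 3).mp h3
        omega

section

variable {p : ℕ} [Fact p.Prime] {M : Type v} [AddCommGroup M] [Module (ZMod p) M]
  {K : Type u} [Group K] (T : K →* Module.End (ZMod p) M)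

theorem tv_conj (a : K) (w₁ : M) (hCa : ∀ m, ∃ k : ZMod p, T a m - m = k • w₁) (y : K) (m : M) :
    ∃ k : ZMod p, T (y * a * y⁻¹) m - m = k • T y w₁ := by
  obtain ⟨k, hk⟩ := hCa (T y⁻¹ m)
  refine ⟨k, ?_⟩
  have h1 : T (y * a * y⁻¹) m - m = T y (T a (T y⁻¹ m) - T y⁻¹ m) := by
    rw [map_mul, map_mul, Module.End.mul_apply, Module.End.mul_apply, map_sub, T_apply_inv]
  rw [h1, hk, map_smul]

/-- the matrix representation attached to the basis `w₁, w₂` computes the action -/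
theorem act_rep (a b : K) (hgen : Subgroup.closure ({a, b} : Set K) = ⊤) (w₁ w₂ : M)
    (α β : ZMod p) (ha₁ : T a w₁ = w₁) (ha₂ : T a w₂ = w₂ + α • w₁)
    (hb₁ : T b w₁ = w₁ + β • w₂) (hb₂ : T b w₂ = w₂)
    (ρ : K →* Matrix.SpecialLinearGroup (Fin 2) (ZMod p))
    (hρa : (ρ a).1 = !![1, α; 0, 1]) (hρb : (ρ b).1 = !![1, 0; β, 1]) (e : K) :
    T e w₁ = (ρ e).1 0 0 • w₁ + (ρ e).1 1 0 • w₂ ∧
    T e w₂ = (ρ e).1 0 1 • w₁ + (ρ e).1 1 1 • w₂ := by
  have he : e ∈ Subgroup.closure ({a, b} : Set K) := by rw [hgen]; exact Subgroup.mem_top e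
  induction he using Subgroup.closure_induction with
  | mem y hy =>
    rcases hy with hy | hy
    · have hy' : y = a := hy
      rw [hy', hρa, ha₁, ha₂]
      have e00 : (!![1, α; 0, 1] : Matrix (Fin 2) (Fin 2) (ZMod p)) 0 0 = 1 := by simp
      have e10 : (!![1, α; 0, 1] : Matrix (Fin 2) (Fin 2) (ZMod p)) 1 0 = 0 := by simp
      have e01 : (!![1, α; 0, 1] : Matrix (Fin 2) (Fin 2) (ZMod p)) 0 1 = α := by simp
      have e11 : (!![1, α; 0, 1] : Matrix (Fin 2) (Fin 2) (ZMod p)) 1 1 = 1 := by simp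
      rw [e00, e10, e01, e11]
      constructor
      · module
      · module
    · have hy' : y = b := hy
      rw [hy', hρb, hb₁, hb₂]
      have e00 : (!![1, 0; β, 1] : Matrix (Fin 2) (Fin 2) (ZMod p)) 0 0 = 1 := by simp
      have e10 : (!![1, 0; β, 1] : Matrix (Fin 2) (Fin 2) (ZMod p)) 1 0 = β := by simp
      have e01 : (!![1, 0; β, 1] : Matrix (Fin 2) (Fin 2) (ZMod p)) 0 1 = 0 := by simp
      have e11 : (!![1, 0; β, 1] : Matrix (Fin 2) (Fin 2) (ZMod p)) 1 1 = 1 := by simp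
      rw [e00, e10, e01, e11]
      constructor
      · module
      · module
  | one =>
    rw [map_one, map_one, Module.End.one_apply, Module.End.one_apply,
      Matrix.SpecialLinearGroup.coe_one]
    have e00 : (1 : Matrix (Fin 2) (Fin 2) (ZMod p)) 0 0 = 1 := by simp
    have e10 : (1 : Matrix (Fin 2) (Fin 2) (ZMod p)) 1 0 = 0 := by simp
    have e01 : (1 : Matrix (Fin 2) (Fin 2) (ZMod p)) 0 1 = 0 := by simp
    have e11 : (1 : Matrix (Fin 2) (Fin 2) (ZMod p)) 1 1 = 1 := by simp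
    rw [e00, e10, e01, e11]
    constructor
    · module
    · module
  | mul y z _ _ ihy ihz =>
    obtain ⟨y1, y2⟩ := ihy
    obtain ⟨z1, z2⟩ := ihz
    have hm : (ρ (y * z)).1 = (ρ y).1 * (ρ z).1 := by
      rw [map_mul, Matrix.SpecialLinearGroup.coe_mul]
    have e00 : (ρ (y * z)).1 0 0 = (ρ y).1 0 0 * (ρ z).1 0 0 + (ρ y).1 0 1 * (ρ z).1 1 0 := by
      rw [hm, Matrix.mul_apply, Fin.sum_univ_two]
    have e10 : (ρ (y * z)).1 1 0 = (ρ y).1 1 0 * (ρ z).1 0 0 + (ρ y).1 1 1 * (ρ z).1 1 0 := by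
      rw [hm, Matrix.mul_apply, Fin.sum_univ_two]
    have e01 : (ρ (y * z)).1 0 1 = (ρ y).1 0 0 * (ρ z).1 0 1 + (ρ y).1 0 1 * (ρ z).1 1 1 := by
      rw [hm, Matrix.mul_apply, Fin.sum_univ_two]
    have e11 : (ρ (y * z)).1 1 1 = (ρ y).1 1 0 * (ρ z).1 0 1 + (ρ y).1 1 1 * (ρ z).1 1 1 := by
      rw [hm, Matrix.mul_apply, Fin.sum_univ_two]
    rw [e00, e10, e01, e11]
    constructor
    · rw [map_mul, Module.End.mul_apply, z1, map_add, map_smul, map_smul, y1, y2]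
      module
    · rw [map_mul, Module.End.mul_apply, z2, map_add, map_smul, map_smul, y1, y2]
      module
  | inv y _ ih =>
    obtain ⟨y1, y2⟩ := ih
    have hdet : (ρ y).1 0 0 * (ρ y).1 1 1 - (ρ y).1 0 1 * (ρ y).1 1 0 = 1 := by
      rw [← Matrix.det_fin_two]; exact (ρ y).2
    have hi : (ρ y⁻¹).1 = !![(ρ y).1 1 1, -(ρ y).1 0 1; -(ρ y).1 1 0, (ρ y).1 0 0] := by
      rw [map_inv ρ y, Matrix.SpecialLinearGroup.coe_inv, Matrix.adjugate_fin_two]
    have e00 : (ρ y⁻¹).1 0 0 = (ρ y).1 1 1 := by rw [hi]; simp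
    have e10 : (ρ y⁻¹).1 1 0 = -(ρ y).1 1 0 := by rw [hi]; simp
    have e01 : (ρ y⁻¹).1 0 1 = -(ρ y).1 0 1 := by rw [hi]; simp
    have e11 : (ρ y⁻¹).1 1 1 = (ρ y).1 0 0 := by rw [hi]; simp
    rw [e00, e10, e01, e11]
    constructor
    · have h : T y ((ρ y).1 1 1 • w₁ + (-(ρ y).1 1 0) • w₂) = w₁ := by
        rw [map_add, map_smul, map_smul, y1, y2]
        calc (ρ y).1 1 1 • ((ρ y).1 0 0 • w₁ + (ρ y).1 1 0 • w₂) +
              (-(ρ y).1 1 0) • ((ρ y).1 0 1 • w₁ + (ρ y).1 1 1 • w₂)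
            = ((ρ y).1 0 0 * (ρ y).1 1 1 - (ρ y).1 0 1 * (ρ y).1 1 0) • w₁ := by module
          _ = w₁ := by rw [hdet, one_smul]
      have h' := T_inv_apply T y ((ρ y).1 1 1 • w₁ + (-(ρ y).1 1 0) • w₂)
      rw [h] at h'
      exact h'
    · have h : T y ((-(ρ y).1 0 1) • w₁ + (ρ y).1 0 0 • w₂) = w₂ := by
        rw [map_add, map_smul, map_smul, y1, y2]
        calc (-(ρ y).1 0 1) • ((ρ y).1 0 0 • w₁ + (ρ y).1 1 0 • w₂) +
              (ρ y).1 0 0 • ((ρ y).1 0 1 • w₁ + (ρ y).1 1 1 • w₂)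
            = ((ρ y).1 0 0 * (ρ y).1 1 1 - (ρ y).1 0 1 * (ρ y).1 1 0) • w₂ := by module
          _ = w₂ := by rw [hdet, one_smul]
      have h' := T_inv_apply T y ((-(ρ y).1 0 1) • w₁ + (ρ y).1 0 0 • w₂)
      rw [h] at h'
      exact h'

/-- an element fixing the plane `⟨w₁, w₂⟩` pointwise and moving everything into it is trivial -/
theorem stab [Finite K] (hT : ∀ e, T e = 1 → e = 1) (N : Subgroup K) [hNn : N.Normal]
    (hNc : (Nat.card N).Coprime p) (hCN : Subgroup.centralizer (N : Set K) ≤ N)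
    (w₁ w₂ : M)
    (hNW : ∀ y ∈ N, T y w₁ ∈ Submodule.span (ZMod p) ({w₁, w₂} : Set M) ∧
      T y w₂ ∈ Submodule.span (ZMod p) ({w₁, w₂} : Set M))
    (h : K) (h1 : T h w₁ = w₁) (h2 : T h w₂ = w₂)
    (hm : ∀ m, T h m - m ∈ Submodule.span (ZMod p) ({w₁, w₂} : Set M)) : h = 1 := by
  obtain ⟨W, hWdef⟩ : ∃ W : Submodule (ZMod p) M, W = Submodule.span (ZMod p) {w₁, w₂} :=
    ⟨_, rfl⟩
  rw [← hWdef] at hNW hm
  have hfixW : ∀ g : K, T g w₁ = w₁ → T g w₂ = w₂ → ∀ m ∈ W, T g m = m := by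
    intro g g1 g2 m hmW
    rw [hWdef] at hmW
    obtain ⟨c₀, c₁, rfl⟩ := Submodule.mem_span_pair.mp hmW
    rw [map_add, map_smul, map_smul, g1, g2]
  have hNWall : ∀ y ∈ N, ∀ m ∈ W, T y m ∈ W := by
    intro y hy m hmW
    have hmW' := hmW
    rw [hWdef] at hmW'
    obtain ⟨c₀, c₁, rfl⟩ := Submodule.mem_span_pair.mp hmW'
    rw [map_add, map_smul, map_smul]
    exact W.add_mem (W.smul_mem _ (hNW y hy).1) (W.smul_mem _ (hNW y hy).2)
  obtain ⟨S, hS⟩ : ∃ S : Subgroup K, ∀ g : K, g ∈ S ↔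
      (T g w₁ = w₁ ∧ T g w₂ = w₂ ∧ ∀ m, T g m - m ∈ W) := by
    refine ⟨{ carrier := {g | T g w₁ = w₁ ∧ T g w₂ = w₂ ∧ ∀ m, T g m - m ∈ W}
              mul_mem' := ?_
              one_mem' := ?_
              inv_mem' := ?_ }, fun g => Iff.rfl⟩
    · rintro g g' ⟨g1, g2, g3⟩ ⟨g1', g2', g3'⟩
      refine ⟨?_, ?_, ?_⟩
      · rw [map_mul, Module.End.mul_apply, g1', g1]
      · rw [map_mul, Module.End.mul_apply, g2', g2]
      · intro m
        have e : T (g * g') m - m = (T g m - m) + T g (T g' m - m) := by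
          rw [map_mul, Module.End.mul_apply, map_sub]; abel
        rw [e, hfixW g g1 g2 _ (g3' m)]
        exact W.add_mem (g3 m) (g3' m)
    · refine ⟨?_, ?_, ?_⟩
      · rw [map_one, Module.End.one_apply]
      · rw [map_one, Module.End.one_apply]
      · intro m
        rw [map_one, Module.End.one_apply, sub_self]
        exact W.zero_mem
    · rintro g ⟨g1, g2, g3⟩
      refine ⟨?_, ?_, ?_⟩
      · have := T_inv_apply T g w₁
        rw [g1] at this
        exact this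
      · have := T_inv_apply T g w₂
        rw [g2] at this
        exact this
      · intro m
        have e := g3 (T g⁻¹ m)
        rw [T_apply_inv] at e
        have e' : T g⁻¹ m - m = -(m - T g⁻¹ m) := by abel
        rw [e']
        exact W.neg_mem e
  have hSconj : ∀ y ∈ N, ∀ g ∈ S, y * g * y⁻¹ ∈ S := by
    intro y hy g hg
    obtain ⟨g1, g2, g3⟩ := (hS g).mp hg
    have hyi : y⁻¹ ∈ N := N.inv_mem hy
    rw [hS]
    refine ⟨?_, ?_, ?_⟩
    · rw [map_mul, map_mul, Module.End.mul_apply, Module.End.mul_apply,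
        hfixW g g1 g2 _ (hNW y⁻¹ hyi).1, T_apply_inv]
    · rw [map_mul, map_mul, Module.End.mul_apply, Module.End.mul_apply,
        hfixW g g1 g2 _ (hNW y⁻¹ hyi).2, T_apply_inv]
    · intro m
      have e : T (y * g * y⁻¹) m - m = T y (T g (T y⁻¹ m) - T y⁻¹ m) := by
        rw [map_mul, map_mul, Module.End.mul_apply, Module.End.mul_apply, map_sub, T_apply_inv]
      rw [e]
      exact hNWall y hy _ (g3 _)
  have hSp : ∀ g ∈ S, g ^ p = 1 := by
    intro g hg
    obtain ⟨g1, g2, g3⟩ := (hS g).mp hg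
    apply hT
    refine quad_pow T w₁ w₂ g g1 g2 ?_
    intro m
    have h3 := g3 m
    rw [hWdef] at h3
    obtain ⟨c₀, c₁, hc⟩ := Submodule.mem_span_pair.mp h3
    exact ⟨c₀, c₁, hc.symm⟩
  have hNr : ∀ q ∈ N, q ^ Nat.card N = 1 := by
    intro q hq
    have h3 : (⟨q, hq⟩ : ↥N) ^ Nat.card N = 1 := pow_card_eq_one'
    exact congrArg Subtype.val h3
  have hhS : h ∈ S := (hS h).mpr ⟨h1, h2, hm⟩
  have hcent : h ∈ Subgroup.centralizer (N : Set K) := by
    rw [Subgroup.mem_centralizer_iff]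
    intro y hy
    have hz : y * h * y⁻¹ * h⁻¹ ∈ S := S.mul_mem (hSconj y hy h hhS) (S.inv_mem hhS)
    have hzN : y * h * y⁻¹ * h⁻¹ ∈ N := by
      have e : y * h * y⁻¹ * h⁻¹ = y * (h * y⁻¹ * h⁻¹) := by group
      rw [e]
      exact N.mul_mem hy (hNn.conj_mem _ (N.inv_mem hy) h)
    have hz1 : y * h * y⁻¹ * h⁻¹ = 1 :=
      eq_one_of_pow_coprime hNc (hNr _ hzN) (hSp _ hz)
    calc y * h = (y * h * y⁻¹ * h⁻¹) * (h * y) := by group
      _ = h * y := by rw [hz1, one_mul]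
  exact eq_one_of_pow_coprime hNc (hNr h (hCN hcent)) (hSp h hhS)


/-- **Main abstract lemma**: the subgroup generated by a transvection `a` and its conjugate under a
non-centralizing element `x` of the self-centralizing normal `p'`-subgroup `N` is a direct
factor, in the sense recorded by the six conclusions. -/
theorem fac_main [Finite K] (hT : ∀ e, T e = 1 → e = 1) (N : Subgroup K) [hNn : N.Normal]
    (hNc : (Nat.card N).Coprime p) (hCN : Subgroup.centralizer (N : Set K) ≤ N)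
    (a : K) (ha : a ^ p = 1) (w₁ : M) (hw₁ : w₁ ≠ 0)
    (hCa : ∀ m, ∃ k : ZMod p, T a m - m = k • w₁)
    (x : K) (hx : x ∈ N) (hxa : x * a * x⁻¹ ≠ a) :
    (∀ c₀ c₁ : ZMod p, c₀ • w₁ + c₁ • T x w₁ = 0 → c₀ = 0 ∧ c₁ = 0) ∧
    (∀ e ∈ Subgroup.closure ({a, x * a * x⁻¹} : Set K), ∀ m,
      ∃ c₀ c₁ : ZMod p, T e m - m = c₀ • w₁ + c₁ • T x w₁) ∧
    (∀ c₀ c₁ : ZMod p, T a (c₀ • w₁ + c₁ • T x w₁) = c₀ • w₁ + c₁ • T x w₁ →
      T (x * a * x⁻¹) (c₀ • w₁ + c₁ • T x w₁) = c₀ • w₁ + c₁ • T x w₁ → c₀ = 0 ∧ c₁ = 0) ∧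
    (∀ m, ∃ c₀ c₁ : ZMod p,
      T a (m - (c₀ • w₁ + c₁ • T x w₁)) = m - (c₀ • w₁ + c₁ • T x w₁) ∧
      T (x * a * x⁻¹) (m - (c₀ • w₁ + c₁ • T x w₁)) = m - (c₀ • w₁ + c₁ • T x w₁)) ∧
    (∀ d : K, T d w₁ = w₁ → T d (T x w₁) = T x w₁ →
      d * a = a * d ∧ d * (x * a * x⁻¹) = (x * a * x⁻¹) * d) ∧
    (∀ (g : K) (w : M), g ^ p = 1 → w ≠ 0 → (∀ m, ∃ k : ZMod p, T g m - m = k • w) →
      ∃ e ∈ Subgroup.closure ({a, x * a * x⁻¹} : Set K),
        T (e⁻¹ * g) w₁ = w₁ ∧ T (e⁻¹ * g) (T x w₁) = T x w₁) := by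
  have hp : p.Prime := Fact.out
  obtain ⟨b, hbdef⟩ : ∃ b : K, b = x * a * x⁻¹ := ⟨_, rfl⟩
  obtain ⟨w₂, hw₂def⟩ : ∃ w₂ : M, w₂ = T x w₁ := ⟨_, rfl⟩
  rw [← hbdef, ← hw₂def]
  obtain ⟨L, hLdef⟩ : ∃ L : Subgroup K, L = Subgroup.closure ({a, b} : Set K) := ⟨_, rfl⟩
  rw [← hLdef]
  have haL : a ∈ L := by rw [hLdef]; exact Subgroup.subset_closure (by simp)
  have hbL : b ∈ L := by rw [hLdef]; exact Subgroup.subset_closure (by simp)
  have hb : b ^ p = 1 := by rw [hbdef, conj_pow, ha, mul_one, mul_inv_cancel]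
  have hab : a ≠ b := by
    intro h
    apply hxa
    rw [← hbdef]
    exact h.symm
  have ha1 : a ≠ 1 := by
    intro h
    apply hxa
    rw [h, mul_one, mul_inv_cancel]
  have hw₂ : w₂ ≠ 0 := by
    intro h
    apply hw₁
    have h1 := T_inv_apply T x w₁
    rw [← hw₂def, h, map_zero] at h1
    exact h1.symm
  have hCb : ∀ m, ∃ k : ZMod p, T b m - m = k • w₂ := by
    intro m
    rw [hbdef, hw₂def]
    exact tv_conj T a w₁ hCa x m
  have hNr : ∀ q ∈ N, q ^ Nat.card N = 1 := by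
    intro q hq
    have h3 : (⟨q, hq⟩ : ↥N) ^ Nat.card N = 1 := pow_card_eq_one'
    exact congrArg Subtype.val h3
  have hNa : ∀ q ∈ N, a * q * a⁻¹ ∈ N := fun q hq => hNn.conj_mem q hq a
  have hsN : b * a⁻¹ ∈ N := by
    have e : b * a⁻¹ = x * (a * x⁻¹ * a⁻¹) := by rw [hbdef]; group
    rw [e]
    exact N.mul_mem hx (hNa _ (N.inv_mem hx))
  -- the representation of `L`
  obtain ⟨TL, hTLdef⟩ : ∃ TL : ↥L →* Module.End (ZMod p) M, ∀ e : ↥L, TL e = T (e : K) :=
    ⟨T.comp L.subtype, fun _ => rfl⟩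
  have hTL : ∀ e : ↥L, TL e = 1 → e = 1 := by
    intro e he
    rw [hTLdef] at he
    exact Subtype.ext (hT _ he)
  obtain ⟨a', ha'⟩ : ∃ a' : ↥L, (a' : K) = a := ⟨⟨a, haL⟩, rfl⟩
  obtain ⟨b', hb'⟩ : ∃ b' : ↥L, (b' : K) = b := ⟨⟨b, hbL⟩, rfl⟩
  have hgen : Subgroup.closure ({a', b'} : Set ↥L) = ⊤ := by
    apply Subgroup.map_injective L.subtype_injective
    rw [MonoidHom.map_closure, Set.image_pair, ← MonoidHom.range_eq_map, Subgroup.range_subtype]
    show Subgroup.closure {(a' : K), (b' : K)} = L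
    rw [ha', hb']
    exact hLdef.symm
  have hap' : a' ^ p = 1 := by
    apply Subtype.ext
    show (a' : K) ^ p = 1
    rw [ha', ha]
  have hbp' : b' ^ p = 1 := by
    apply Subtype.ext
    show (b' : K) ^ p = 1
    rw [hb', hb]
  have hab' : a' ≠ b' := by
    intro h
    apply hab
    rw [← ha', ← hb', h]
  have hCa' : ∀ m, ∃ k : ZMod p, TL a' m - m = k • w₁ := by
    intro m
    rw [hTLdef, ha']
    exact hCa m
  have hCb' : ∀ m, ∃ k : ZMod p, TL b' m - m = k • w₂ := by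
    intro m
    rw [hTLdef, hb']
    exact hCb m
  have hNr' : ∀ q ∈ N.subgroupOf L, q ^ Nat.card N = 1 := by
    intro q hq
    apply Subtype.ext
    show (q : K) ^ Nat.card N = 1
    exact hNr _ (Subgroup.mem_subgroupOf.mp hq)
  have hNa' : ∀ q ∈ N.subgroupOf L, a' * q * a'⁻¹ ∈ N.subgroupOf L := by
    intro q hq
    rw [Subgroup.mem_subgroupOf] at hq ⊢
    show (a' : K) * (q : K) * (a' : K)⁻¹ ∈ N
    rw [ha']
    exact hNa _ hq
  have hd' : b' * a'⁻¹ ∈ N.subgroupOf L := by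
    rw [Subgroup.mem_subgroupOf]
    show (b' : K) * (a' : K)⁻¹ ∈ N
    rw [hb', ha']
    exact hsN
  obtain ⟨hp23, hiso, hind, hspL, hfaithL⟩ :=
    lin_main TL hTL a' b' hgen hap' hbp' hab' w₁ w₂ hw₁ hw₂ hCa' hCb' (N.subgroupOf L)
      (Nat.card N) hNc hNr' hNa' hd'
  have hsp : ∀ e ∈ L, ∀ m, ∃ c₀ c₁ : ZMod p, T e m - m = c₀ • w₁ + c₁ • w₂ := by
    intro e he m
    have h1 := hspL ⟨e, he⟩ m
    rw [hTLdef] at h1
    exact h1
  have hfaith : ∀ e ∈ L, T e w₁ = w₁ → T e w₂ = w₂ → e = 1 := by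
    intro e he h1 h2
    have h3 := hfaithL ⟨e, he⟩ (by rw [hTLdef]; exact h1) (by rw [hTLdef]; exact h2)
    exact congrArg Subtype.val h3
  have ha₁ : T a w₁ = w₁ := by
    obtain ⟨k, hk⟩ := hCa w₁
    exact fix_of_pow T a ha w₁ k hk
  have hb₂ : T b w₂ = w₂ := by
    obtain ⟨k, hk⟩ := hCb w₂
    exact fix_of_pow T b hb w₂ k hk
  obtain ⟨α, hα⟩ := hCa w₂
  obtain ⟨β, hβ⟩ := hCb w₁
  have ha₂ : T a w₂ = w₂ + α • w₁ := by rw [← hα]; abel
  have hb₁ : T b w₁ = w₁ + β • w₂ := by rw [← hβ]; abel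
  have hα0 : α ≠ 0 := by
    intro h0
    apply ha1
    refine hfaith a haL ha₁ ?_
    rw [ha₂, h0, zero_smul, add_zero]
  have hβ0 : β ≠ 0 := by
    intro h0
    have hb1 : b = 1 := by
      refine hfaith b hbL ?_ hb₂
      rw [hb₁, h0, zero_smul, add_zero]
    apply ha1
    rw [hbdef] at hb1
    calc a = x⁻¹ * (x * a * x⁻¹) * x := by group
      _ = 1 := by rw [hb1]; group
  -- the plane `W`
  obtain ⟨W, hWdef⟩ : ∃ W : Submodule (ZMod p) M, W = Submodule.span (ZMod p) {w₁, w₂} :=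
    ⟨_, rfl⟩
  have hw₁W : w₁ ∈ W := by rw [hWdef]; exact Submodule.subset_span (by simp)
  have hw₂W : w₂ ∈ W := by rw [hWdef]; exact Submodule.subset_span (by simp)
  have hWmem : ∀ m, m ∈ W ↔ ∃ c₀ c₁ : ZMod p, c₀ • w₁ + c₁ • w₂ = m := by
    intro m
    rw [hWdef]
    exact Submodule.mem_span_pair
  have hspW : ∀ e ∈ L, ∀ m, T e m - m ∈ W := by
    intro e he m
    obtain ⟨c₀, c₁, hc⟩ := hsp e he m
    exact (hWmem _).mpr ⟨c₀, c₁, hc.symm⟩
  have hLW : ∀ e ∈ L, ∀ m ∈ W, T e m ∈ W := by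
    intro e he m hm
    have h1 := W.add_mem (hspW e he m) hm
    rwa [sub_add_cancel] at h1
  -- `N` normalizes `L`
  obtain ⟨hC1, -⟩ := Cfsg.Agent.Lib.Helper4.SL2Conj.conj_main T hT a ha N (Nat.card N) hNc hNr hNa
    w₁ hw₁ hCa x hx hxa hp23
  rw [← hbdef] at hC1
  have hconjL : ∀ y ∈ N, y * a * y⁻¹ ∈ L := by
    intro y hy
    rcases hC1 y hy with h | h | h | h
    · rw [h]; exact haL
    · rw [h]; exact hbL
    · rw [h]; exact L.mul_mem (L.mul_mem hbL haL) (L.inv_mem hbL)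
    · rw [h]; exact L.mul_mem (L.mul_mem (L.inv_mem hbL) haL) hbL
  have hconjLb : ∀ y ∈ N, y * b * y⁻¹ ∈ L := by
    intro y hy
    have e : y * b * y⁻¹ = (y * x) * a * (y * x)⁻¹ := by rw [hbdef]; group
    rw [e]
    exact hconjL _ (N.mul_mem hy hx)
  have hNW : ∀ y ∈ N, T y w₁ ∈ W ∧ T y w₂ ∈ W := by
    intro y hy
    constructor
    · have h1 := hspW _ (hconjL y hy) (T y w₂)
      have e : T (y * a * y⁻¹) (T y w₂) - T y w₂ = α • T y w₁ := by
        rw [map_mul, map_mul, Module.End.mul_apply, Module.End.mul_apply, T_inv_apply, ha₂,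
          map_add, map_smul]
        abel
      rw [e] at h1
      have h2 := W.smul_mem α⁻¹ h1
      rwa [inv_smul_smul₀ hα0] at h2
    · have h1 := hspW _ (hconjLb y hy) (T y w₁)
      have e : T (y * b * y⁻¹) (T y w₁) - T y w₁ = β • T y w₂ := by
        rw [map_mul, map_mul, Module.End.mul_apply, Module.End.mul_apply, T_inv_apply, hb₁,
          map_add, map_smul]
        abel
      rw [e] at h1
      have h2 := W.smul_mem β⁻¹ h1
      rwa [inv_smul_smul₀ hβ0] at h2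
  have hstab : ∀ h : K, T h w₁ = w₁ → T h w₂ = w₂ → (∀ m, T h m - m ∈ W) → h = 1 := by
    intro h h1 h2 h3
    rw [hWdef] at h3
    exact stab T hT N hNc hCN w₁ w₂ (by rw [← hWdef]; exact hNW) h h1 h2 h3
  have hfixW : ∀ g : K, T g w₁ = w₁ → T g w₂ = w₂ → ∀ m ∈ W, T g m = m := by
    intro g g1 g2 m hm
    obtain ⟨c₀, c₁, rfl⟩ := (hWmem m).mp hm
    rw [map_add, map_smul, map_smul, g1, g2]
  have hcomm : ∀ d : K, T d w₁ = w₁ → T d w₂ = w₂ → ∀ e ∈ L, d * e = e * d := by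
    intro d d1 d2 e he
    have di1 : T d⁻¹ w₁ = w₁ := by
      have h0 := T_inv_apply T d w₁
      rwa [d1] at h0
    have di2 : T d⁻¹ w₂ = w₂ := by
      have h0 := T_inv_apply T d w₂
      rwa [d2] at h0
    have hei : e⁻¹ ∈ L := L.inv_mem he
    have hz : d * e * d⁻¹ * e⁻¹ = 1 := by
      apply hstab
      · rw [map_mul, map_mul, map_mul, Module.End.mul_apply, Module.End.mul_apply,
          Module.End.mul_apply, hfixW d⁻¹ di1 di2 _ (hLW e⁻¹ hei w₁ hw₁W), T_apply_inv, d1]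
      · rw [map_mul, map_mul, map_mul, Module.End.mul_apply, Module.End.mul_apply,
          Module.End.mul_apply, hfixW d⁻¹ di1 di2 _ (hLW e⁻¹ hei w₂ hw₂W), T_apply_inv, d2]
      · intro m
        have e1 : T (d * e * d⁻¹ * e⁻¹) m - m =
            (T e⁻¹ m - m) + (T e (T d⁻¹ (T e⁻¹ m)) - T d⁻¹ (T e⁻¹ m)) := by
          have h1 : T d (T e (T d⁻¹ (T e⁻¹ m))) =
              T d (T d⁻¹ (T e⁻¹ m)) + T d (T e (T d⁻¹ (T e⁻¹ m)) - T d⁻¹ (T e⁻¹ m)) := by
            rw [← map_add]; congr 1; abel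
          rw [map_mul, map_mul, map_mul, Module.End.mul_apply, Module.End.mul_apply,
            Module.End.mul_apply, h1, T_apply_inv,
            hfixW d d1 d2 _ (hspW e he (T d⁻¹ (T e⁻¹ m)))]
          abel
        rw [e1]
        exact W.add_mem (hspW e⁻¹ hei m) (hspW e he _)
    calc d * e = (d * e * d⁻¹ * e⁻¹) * (e * d) := by group
      _ = e * d := by rw [hz, one_mul]
  have h4 : ∀ c₀ c₁ : ZMod p, T a (c₀ • w₁ + c₁ • w₂) = c₀ • w₁ + c₁ • w₂ →
      T b (c₀ • w₁ + c₁ • w₂) = c₀ • w₁ + c₁ • w₂ → c₀ = 0 ∧ c₁ = 0 := by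
    intro c₀ c₁ h1 h2
    rw [map_add, map_smul, map_smul, ha₁, ha₂] at h1
    rw [map_add, map_smul, map_smul, hb₁, hb₂] at h2
    have k1 : (c₁ * α) • w₁ = 0 := by
      calc (c₁ * α) • w₁ = (c₀ • w₁ + c₁ • (w₂ + α • w₁)) - (c₀ • w₁ + c₁ • w₂) := by module
        _ = 0 := sub_eq_zero.mpr h1
    have k2 : (c₀ * β) • w₂ = 0 := by
      calc (c₀ * β) • w₂ = (c₀ • (w₁ + β • w₂) + c₁ • w₂) - (c₀ • w₁ + c₁ • w₂) := by module
        _ = 0 := sub_eq_zero.mpr h2
    constructor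
    · rcases smul_eq_zero.mp k2 with h | h
      · rcases mul_eq_zero.mp h with h' | h'
        · exact h'
        · exact absurd h' hβ0
      · exact absurd h hw₂
    · rcases smul_eq_zero.mp k1 with h | h
      · rcases mul_eq_zero.mp h with h' | h'
        · exact h'
        · exact absurd h' hα0
      · exact absurd h hw₁
  have h5 : ∀ m, ∃ c₀ c₁ : ZMod p,
      T a (m - (c₀ • w₁ + c₁ • w₂)) = m - (c₀ • w₁ + c₁ • w₂) ∧
      T b (m - (c₀ • w₁ + c₁ • w₂)) = m - (c₀ • w₁ + c₁ • w₂) := by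
    intro m
    obtain ⟨k, hk⟩ := hCa m
    obtain ⟨l, hl⟩ := hCb m
    have hTa : T a m = m + k • w₁ := by rw [← hk]; abel
    have hTb : T b m = m + l • w₂ := by rw [← hl]; abel
    refine ⟨l * β⁻¹, k * α⁻¹, ?_, ?_⟩
    · rw [map_sub, map_add, map_smul, map_smul, ha₁, ha₂, hTa]
      have hc : (k * α⁻¹ * α) • w₁ = k • w₁ := by rw [inv_mul_cancel_right₀ hα0]
      calc m + k • w₁ - ((l * β⁻¹) • w₁ + (k * α⁻¹) • (w₂ + α • w₁))
          = m + k • w₁ - (k * α⁻¹ * α) • w₁ - ((l * β⁻¹) • w₁ + (k * α⁻¹) • w₂) := by module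
        _ = m - ((l * β⁻¹) • w₁ + (k * α⁻¹) • w₂) := by rw [hc]; abel
    · rw [map_sub, map_add, map_smul, map_smul, hb₁, hb₂, hTb]
      have hc : (l * β⁻¹ * β) • w₂ = l • w₂ := by rw [inv_mul_cancel_right₀ hβ0]
      calc m + l • w₂ - ((l * β⁻¹) • (w₁ + β • w₂) + (k * α⁻¹) • w₂)
          = m + l • w₂ - (l * β⁻¹ * β) • w₂ - ((l * β⁻¹) • w₁ + (k * α⁻¹) • w₂) := by module
        _ = m - ((l * β⁻¹) • w₁ + (k * α⁻¹) • w₂) := by rw [hc]; abel
  -- the matrix representation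
  obtain ⟨ρ, hρa, hρb, hρker⟩ := rep_exists TL a' b' hgen hap' hbp' w₁ w₂ α β
    (by rw [hTLdef, ha']; exact ha₁) (by rw [hTLdef, ha']; exact ha₂)
    (by rw [hTLdef, hb']; exact hb₁) (by rw [hTLdef, hb']; exact hb₂) hind
  have hρinj : Function.Injective ρ := by
    rw [injective_iff_map_eq_one]
    intro e he
    obtain ⟨h1, h2⟩ := (hρker e).mp he
    exact hfaithL e h1 h2
  obtain ⟨φ⟩ := hiso
  have hρsurj : Function.Surjective ρ :=
    (Finite.injective_iff_surjective_of_equiv φ.toEquiv).mp hρinj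
  have hact : ∀ e : ↥L, T (e : K) w₁ = (ρ e).1 0 0 • w₁ + (ρ e).1 1 0 • w₂ ∧
      T (e : K) w₂ = (ρ e).1 0 1 • w₁ + (ρ e).1 1 1 • w₂ := by
    intro e
    have h0 := act_rep TL a' b' hgen w₁ w₂ α β
      (by rw [hTLdef, ha']; exact ha₁) (by rw [hTLdef, ha']; exact ha₂)
      (by rw [hTLdef, hb']; exact hb₁) (by rw [hTLdef, hb']; exact hb₂) ρ hρa hρb e
    rw [hTLdef] at h0
    exact h0
  have h8 : ∀ (g : K) (ws : M), g ^ p = 1 → ws ≠ 0 →
      (∀ m, ∃ k : ZMod p, T g m - m = k • ws) →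
      ∃ e ∈ L, T (e⁻¹ * g) w₁ = w₁ ∧ T (e⁻¹ * g) w₂ = w₂ := by
    intro g ws hg hws hCg
    have hgfix : T g ws = ws := by
      obtain ⟨k, hk⟩ := hCg ws
      exact fix_of_pow T g hg ws k hk
    obtain ⟨l₁, hl₁⟩ := hCg w₁
    obtain ⟨l₂, hl₂⟩ := hCg w₂
    have hg₁ : T g w₁ = w₁ + l₁ • ws := by rw [← hl₁]; abel
    have hg₂ : T g w₂ = w₂ + l₂ • ws := by rw [← hl₂]; abel
    by_cases hA : l₁ = 0 ∧ l₂ = 0
    · refine ⟨1, L.one_mem, ?_, ?_⟩
      · rw [inv_one, one_mul, hg₁, hA.1, zero_smul, add_zero]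
      · rw [inv_one, one_mul, hg₂, hA.2, zero_smul, add_zero]
    · have hwsW : ws ∈ W := by
        by_contra hnot
        have hgiws : T g⁻¹ ws = ws := by
          have h0 := T_inv_apply T g ws
          rwa [hgfix] at h0
        have hgi₁ : T g⁻¹ w₁ = w₁ - l₁ • ws := by
          have h0 := T_inv_apply T g w₁
          rw [hg₁, map_add, map_smul, hgiws] at h0
          exact eq_sub_of_add_eq h0
        have hgi₂ : T g⁻¹ w₂ = w₂ - l₂ • ws := by
          have h0 := T_inv_apply T g w₂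
          rw [hg₂, map_add, map_smul, hgiws] at h0
          exact eq_sub_of_add_eq h0
        have hcoef : ∀ c : ZMod p, c • ws ∈ W → c = 0 := by
          intro c hc
          by_contra hc0
          apply hnot
          have h0 := W.smul_mem c⁻¹ hc
          rwa [inv_smul_smul₀ hc0] at h0
        have heig : ∀ s' ∈ N, s' ∈ L → ∀ p₁ p₂ q₁ q₂ : ZMod p, T s' w₁ = p₁ • w₁ + p₂ • w₂ →
            T s' w₂ = q₁ • w₁ + q₂ • w₂ →
            ∃ μ : ZMod p, p₁ * l₁ + p₂ * l₂ = μ * l₁ ∧ q₁ * l₁ + q₂ * l₂ = μ * l₂ := by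
          intro s' hs'N hs'L p₁ p₂ q₁ q₂ hs₁ hs₂
          have hyN : g * s' * g⁻¹ ∈ N := hNn.conj_mem s' hs'N g
          obtain ⟨ν, hν⟩ := hCg (T s' ws)
          have hν' : T g (T s' ws) = T s' ws + ν • ws := by rw [← hν]; abel
          have hω : T s' ws - ws ∈ W := hspW s' hs'L ws
          refine ⟨1 + ν, ?_, ?_⟩
          · have h1 := (hNW _ hyN).1
            have e : T (g * s' * g⁻¹) w₁ = (p₁ • w₁ + p₂ • w₂ - l₁ • (T s' ws - ws)) +
                (p₁ * l₁ + p₂ * l₂ - (1 + ν) * l₁) • ws := by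
              rw [map_mul, map_mul, Module.End.mul_apply, Module.End.mul_apply, hgi₁, map_sub,
                map_smul, hs₁, map_sub, map_add, map_smul, map_smul, map_smul, hg₁, hg₂, hν']
              module
            rw [e] at h1
            have h2 : p₁ • w₁ + p₂ • w₂ - l₁ • (T s' ws - ws) ∈ W :=
              W.sub_mem (W.add_mem (W.smul_mem _ hw₁W) (W.smul_mem _ hw₂W)) (W.smul_mem _ hω)
            have h3 := (W.add_mem_iff_right h2).mp h1
            exact sub_eq_zero.mp (hcoef _ h3)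
          · have h1 := (hNW _ hyN).2
            have e : T (g * s' * g⁻¹) w₂ = (q₁ • w₁ + q₂ • w₂ - l₂ • (T s' ws - ws)) +
                (q₁ * l₁ + q₂ * l₂ - (1 + ν) * l₂) • ws := by
              rw [map_mul, map_mul, Module.End.mul_apply, Module.End.mul_apply, hgi₂, map_sub,
                map_smul, hs₂, map_sub, map_add, map_smul, map_smul, map_smul, hg₁, hg₂, hν']
              module
            rw [e] at h1
            have h2 : q₁ • w₁ + q₂ • w₂ - l₂ • (T s' ws - ws) ∈ W :=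
              W.sub_mem (W.add_mem (W.smul_mem _ hw₁W) (W.smul_mem _ hw₂W)) (W.smul_mem _ hω)
            have h3 := (W.add_mem_iff_right h2).mp h1
            exact sub_eq_zero.mp (hcoef _ h3)
        have hai₁ : T a⁻¹ w₁ = w₁ := by
          have h0 := T_inv_apply T a w₁
          rwa [ha₁] at h0
        have hai₂ : T a⁻¹ w₂ = w₂ - α • w₁ := by
          have h0 := T_inv_apply T a w₂
          rw [ha₂, map_add, map_smul, hai₁] at h0
          exact eq_sub_of_add_eq h0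
        have hs₁ : T (b * a⁻¹) w₁ = (1 : ZMod p) • w₁ + β • w₂ := by
          rw [map_mul, Module.End.mul_apply, hai₁, hb₁, one_smul]
        have hs₂ : T (b * a⁻¹) w₂ = (-α) • w₁ + (1 - α * β) • w₂ := by
          rw [map_mul, Module.End.mul_apply, hai₂, map_sub, map_smul, hb₂, hb₁]
          module
        have ht₁ : T (a⁻¹ * b) w₁ = (1 - α * β) • w₁ + β • w₂ := by
          rw [map_mul, Module.End.mul_apply, hb₁, map_add, map_smul, hai₁, hai₂]
          module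
        have ht₂ : T (a⁻¹ * b) w₂ = (-α) • w₁ + (1 : ZMod p) • w₂ := by
          rw [map_mul, Module.End.mul_apply, hb₂, hai₂]
          module
        have htN : a⁻¹ * b ∈ N := by
          have e : a⁻¹ * b = a⁻¹ * (b * a⁻¹) * a⁻¹⁻¹ := by group
          rw [e]
          exact hNn.conj_mem _ hsN a⁻¹
        obtain ⟨μ, e1, e2⟩ := heig _ hsN (L.mul_mem hbL (L.inv_mem haL)) _ _ _ _ hs₁ hs₂
        obtain ⟨μ', e3, e4⟩ := heig _ htN (L.mul_mem (L.inv_mem haL) hbL) _ _ _ _ ht₁ ht₂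
        exact no_eig hp23 α β l₁ l₂ μ μ' hα0 hβ0 hA (by linear_combination e1)
          (by linear_combination e2) (by linear_combination e3) (by linear_combination e4)
      obtain ⟨d₀, d₁, hd⟩ := (hWmem ws).mp hwsW
      have hdl : d₀ * l₁ + d₁ * l₂ = 0 := by
        have h1 : (d₀ * l₁ + d₁ * l₂) • ws = 0 := by
          have h2 := hgfix
          rw [← hd] at h2
          rw [map_add, map_smul, map_smul, hg₁, hg₂] at h2
          calc (d₀ * l₁ + d₁ * l₂) • ws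
              = (d₀ • (w₁ + l₁ • ws) + d₁ • (w₂ + l₂ • ws)) - (d₀ • w₁ + d₁ • w₂) := by module
            _ = 0 := sub_eq_zero.mpr h2
        rcases smul_eq_zero.mp h1 with h | h
        · exact h
        · exact absurd h hws
      have hdet : Matrix.det (!![1 + d₀ * l₁, d₀ * l₂; d₁ * l₁, 1 + d₁ * l₂] :
          Matrix (Fin 2) (Fin 2) (ZMod p)) = 1 := by
        rw [Matrix.det_fin_two_of]
        linear_combination hdl
      obtain ⟨e, he⟩ := hρsurj ⟨_, hdet⟩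
      obtain ⟨he1, he2⟩ := hact e
      rw [he] at he1 he2
      have he1' : T (e : K) w₁ = (1 + d₀ * l₁) • w₁ + (d₁ * l₁) • w₂ := he1
      have he2' : T (e : K) w₂ = (d₀ * l₂) • w₁ + (1 + d₁ * l₂) • w₂ := he2
      refine ⟨(e : K), e.2, ?_, ?_⟩
      · have h1 : T g w₁ = T (e : K) w₁ := by
          rw [he1', hg₁, ← hd]; module
        rw [map_mul, Module.End.mul_apply, h1, T_inv_apply]
      · have h2 : T g w₂ = T (e : K) w₂ := by
          rw [he2', hg₂, ← hd]; module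
        rw [map_mul, Module.End.mul_apply, h2, T_inv_apply]
  refine ⟨hind, hsp, h4, h5, ?_, h8⟩
  intro d d1 d2
  exact ⟨hcomm d d1 d2 a haL, hcomm d d1 d2 b hbL⟩

end

end Cfsg.Agent.Lib.Helper4.SL2Fac
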