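import Mathlib
import Cfsg.Agent.S0611
import Cfsg.Agent.S0612
import Cfsg.Agent.S0616
import Cfsg.Agent.S0617
import Cfsg.Agent.S2301
import Cfsg.Agent.Lib.Helper4.Conj
import Cfsg.Agent.Lib.Helper4.Offender
import Cfsg.Agent.Lib.Helper4.Thompson
import Cfsg.Agent.Lib.Helper9.Cores

/-!
# Coprime action on the components of the failure-of-factorization structure (helper4)

In the setting of the structure theorem S0617 (`V`, `H` inside a finite group, `H` faithful on `V`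
and generated by best offenders), the components are the subgroups `E = [Q, A] A`, `A` a minimal
nontrivially acting best offender.  This file shows that conjugation by elements normalizing `V`
and `H` permutes the components (`comp_conj`), that a `q`-element (`q ≠ 2, 3`) normalizing a
component centralizes it (`stab_cent`), that every element of a component is, modulo the
centralizer of its plane, a fixed point of a `q`-group of such elements (`diag`), and the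
resulting generation statement `core`.
-/

set_option autoImplicit false

open Cfsg
open scoped commutatorElement Pointwise

namespace Cfsg.Agent.Lib.Helper4.FFCore

open Cfsg.Agent.Lib.Helper4.Conj

universe u

variable {G : Type u} [Group G]

theorem norm_conj_mem {N : Subgroup G} {x z : G} (hx : x ∈ Subgroup.normalizer (N : Set G)) :
    x⁻¹ * z * x ∈ N ↔ z ∈ N :=
  ((Subgroup.mem_normalizer_iff''.mp hx) z).symm

theorem norm_conj_mem' {N : Subgroup G} {x z : G} (hx : x ∈ Subgroup.normalizer (N : Set G)) :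
    x * z * x⁻¹ ∈ N ↔ z ∈ N :=
  ((Subgroup.mem_normalizer_iff.mp hx) z).symm

theorem c_eq_of_norm {N : Subgroup G} {x : G} (hx : x ∈ Subgroup.normalizer (N : Set G)) :
    MulAut.conj x • N = N := mem_normalizer_iff_conj_smul_eq.mp hx

theorem c_inv_c (x : G) (B : Subgroup G) : MulAut.conj x⁻¹ • MulAut.conj x • B = B := by
  rw [conj_smul_smul, inv_mul_cancel, conj_one_smul]

theorem c_c_inv (x : G) (B : Subgroup G) : MulAut.conj x • MulAut.conj x⁻¹ • B = B := by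
  rw [conj_smul_smul, mul_inv_cancel, conj_one_smul]

theorem c_mono (x : G) {A B : Subgroup G} (h : A ≤ B) :
    MulAut.conj x • A ≤ MulAut.conj x • B := by
  intro z hz
  rw [mem_conj_smul] at hz ⊢
  exact h hz

theorem c_comm (x : G) (A B : Subgroup G) :
    MulAut.conj x • ⁅A, B⁆ = ⁅MulAut.conj x • A, MulAut.conj x • B⁆ :=
  Subgroup.map_commutator A B (MulAut.conj x).toMonoidHom

theorem mem_cent_c {x z : G} {B : Subgroup G} :
    z ∈ Subgroup.centralizer ((MulAut.conj x • B : Subgroup G) : Set G) ↔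
      x⁻¹ * z * x ∈ Subgroup.centralizer (B : Set G) := by
  rw [Subgroup.mem_centralizer_iff, Subgroup.mem_centralizer_iff]
  constructor
  · intro h b hb
    have h1 := h (x * b * x⁻¹) (conj_mem_conj_smul hb)
    calc b * (x⁻¹ * z * x) = x⁻¹ * ((x * b * x⁻¹) * z) * x := by group
      _ = x⁻¹ * (z * (x * b * x⁻¹)) * x := by rw [h1]
      _ = x⁻¹ * z * x * b := by group
  · intro h y hy
    rw [SetLike.mem_coe, mem_conj_smul] at hy
    have h1 := h _ hy
    calc y * z = x * ((x⁻¹ * y * x) * (x⁻¹ * z * x)) * x⁻¹ := by group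
      _ = x * ((x⁻¹ * z * x) * (x⁻¹ * y * x)) * x⁻¹ := by rw [h1]
      _ = z * y := by group

theorem c_inf_cent {V : Subgroup G} {x : G} (hx : x ∈ Subgroup.normalizer (V : Set G))
    (B : Subgroup G) :
    MulAut.conj x • (V ⊓ Subgroup.centralizer (B : Set G)) =
      V ⊓ Subgroup.centralizer ((MulAut.conj x • B : Subgroup G) : Set G) := by
  ext z
  rw [mem_conj_smul, Subgroup.mem_inf, Subgroup.mem_inf, norm_conj_mem hx, mem_cent_c]

theorem card_inf_cent_c {V : Subgroup G} {x : G} (hx : x ∈ Subgroup.normalizer (V : Set G))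
    (B : Subgroup G) :
    Nat.card ↥(V ⊓ Subgroup.centralizer ((MulAut.conj x • B : Subgroup G) : Set G)) =
      Nat.card ↥(V ⊓ Subgroup.centralizer (B : Set G)) := by
  rw [← c_inf_cent hx B, card_conj_smul]

theorem cent_of_conj {V : Subgroup G} {x z : G} (hx : x ∈ Subgroup.normalizer (V : Set G))
    (h : x⁻¹ * z * x ∈ Subgroup.centralizer (V : Set G)) :
    z ∈ Subgroup.centralizer (V : Set G) := by
  have h1 : z ∈ Subgroup.centralizer ((MulAut.conj x • V : Subgroup G) : Set G) :=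
    mem_cent_c.mpr h
  rw [c_eq_of_norm hx] at h1
  exact h1

theorem bo_conj {p : ℕ} {V A : Subgroup G} {x : G}
    (hx : x ∈ Subgroup.normalizer (V : Set G)) (hA : IsBestOffenderOn p V A) :
    IsBestOffenderOn p V (MulAut.conj x • A) := by
  obtain ⟨h1, h2, h3⟩ := hA
  refine ⟨?_, ?_, ?_⟩
  · intro B hB
    have hB0 : MulAut.conj x⁻¹ • B ≤ A := by
      have := c_mono x⁻¹ hB
      rwa [c_inv_c] at this
    have h := h1 _ hB0
    have e1 : Nat.card ↥(MulAut.conj x⁻¹ • B) = Nat.card B := card_conj_smul _ _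
    have e2 : Nat.card ↥(V ⊓ Subgroup.centralizer ((MulAut.conj x⁻¹ • B : Subgroup G) : Set G)) =
        Nat.card ↥(V ⊓ Subgroup.centralizer (B : Set G)) :=
      card_inf_cent_c (Subgroup.inv_mem _ hx) B
    rw [e1, e2] at h
    rw [card_conj_smul, card_inf_cent_c hx A]
    exact h
  · rw [Subgroup.commutator_le]
    intro a ha b hb
    rw [mem_conj_smul] at ha hb
    apply cent_of_conj hx
    have h := h2 (Subgroup.commutator_mem_commutator ha hb)
    have e : x⁻¹ * ⁅a, b⁆ * x = ⁅x⁻¹ * a * x, x⁻¹ * b * x⁆ := by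
      simp only [commutatorElement_def]; group
    rw [e]; exact h
  · intro a ha
    rw [mem_conj_smul] at ha
    apply cent_of_conj hx
    have h := h3 _ ha
    have e : x⁻¹ * a ^ p * x = (x⁻¹ * a * x) ^ p := by
      have := conj_pow (i := p) (a := x⁻¹) (b := a)
      rw [inv_inv] at this
      exact this.symm
    rw [e]; exact h

theorem comm_c_ne_bot {V A : Subgroup G} {x : G} (hx : x ∈ Subgroup.normalizer (V : Set G))
    (h : ⁅V, A⁆ ≠ ⊥) : ⁅V, MulAut.conj x • A⁆ ≠ ⊥ := by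
  intro h0
  apply h
  have h1 : MulAut.conj x • ⁅V, A⁆ = ⊥ := by rw [c_comm, c_eq_of_norm hx, h0]
  have h2 := card_conj_smul x ⁅V, A⁆
  rw [h1, Subgroup.card_bot] at h2
  exact Subgroup.card_eq_one.mp h2.symm

theorem Qc_c [Finite G] (p : ℕ) {H : Subgroup G} {x : G}
    (hx : x ∈ Subgroup.normalizer (H : Set G)) :
    MulAut.conj x • ((pPrimeCore p ↥H).map H.subtype) = (pPrimeCore p ↥H).map H.subtype := by
  apply conj_smul_eq_of_le
  intro z hz
  rw [mem_conj_smul] at hz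
  obtain ⟨y, hy, hyz⟩ := hz
  obtain ⟨e, he⟩ : ∃ e : ↥H ≃* ↥H, ∀ h : ↥H, ((e h : ↥H) : G) = x * h * x⁻¹ :=
    ⟨{ toFun := fun h => ⟨x * h * x⁻¹, (norm_conj_mem' hx).mpr h.2⟩
       invFun := fun h => ⟨x⁻¹ * h * x, (norm_conj_mem hx).mpr h.2⟩
       left_inv := fun h => Subtype.ext (by
         show x⁻¹ * (x * (h : G) * x⁻¹) * x = h
         group)
       right_inv := fun h => Subtype.ext (by
         show x * (x⁻¹ * (h : G) * x) * x⁻¹ = h
         group)
       map_mul' := fun a b => Subtype.ext (by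
         show x * ((a : G) * b) * x⁻¹ = (x * a * x⁻¹) * (x * b * x⁻¹)
         group) }, fun h => rfl⟩
  have h1 := Cfsg.Agent.Lib.Helper9.pPrimeCore_map_equiv p e
  have h2 : e y ∈ (pPrimeCore p ↥H).map e.toMonoidHom := Subgroup.mem_map_of_mem _ hy
  rw [h1] at h2
  refine ⟨e y, h2, ?_⟩
  show ((e y : ↥H) : G) = z
  have hyz' : (y : G) = x⁻¹ * z * x := hyz
  rw [he, hyz']; group

/-- the components of the structure theorem -/
def Comp (p : ℕ) (V H E : Subgroup G) : Prop :=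
  ∃ A : Subgroup G, A ≤ H ∧ IsBestOffenderOn p V A ∧ ⁅V, A⁆ ≠ ⊥ ∧
    (∀ B : Subgroup G, B ≤ A → IsBestOffenderOn p V B → ⁅V, B⁆ ≠ ⊥ → B = A) ∧
    E = ⁅((pPrimeCore p ↥H).map H.subtype), A⁆ ⊔ A

/-- the hypotheses of the structure theorem -/
def Hyp (p : ℕ) (V H : Subgroup G) : Prop :=
  IsElementaryAbelian p V ∧ H ≤ Subgroup.normalizer (V : Set G) ∧
  H ⊓ Subgroup.centralizer (V : Set G) = ⊥ ∧
  Subgroup.centralizer (pPrimeCore p ↥H : Set ↥H) ≤ pPrimeCore p ↥H ∧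
  H = (⨆ A : {A : Subgroup G // A ≤ H ∧ IsBestOffenderOn p V A}, (A : Subgroup G)) ∧ H ≠ ⊥

theorem comp_conj [Finite G] {p : ℕ} {V H E : Subgroup G} {x : G}
    (hxV : x ∈ Subgroup.normalizer (V : Set G)) (hxH : x ∈ Subgroup.normalizer (H : Set G))
    (hE : Comp p V H E) : Comp p V H (MulAut.conj x • E) := by
  obtain ⟨A, hAH, hAbo, hAV, hAmin, rfl⟩ := hE
  refine ⟨MulAut.conj x • A, ?_, bo_conj hxV hAbo, comm_c_ne_bot hxV hAV, ?_, ?_⟩
  · have := c_mono x hAH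
    rwa [c_eq_of_norm hxH] at this
  · intro B hB hBbo hBV
    have hxV' : x⁻¹ ∈ Subgroup.normalizer (V : Set G) := Subgroup.inv_mem _ hxV
    have hB0 : MulAut.conj x⁻¹ • B ≤ A := by
      have := c_mono x⁻¹ hB
      rwa [c_inv_c] at this
    have h := hAmin _ hB0 (bo_conj hxV' hBbo) (comm_c_ne_bot hxV' hBV)
    rw [← h, c_c_inv]
  · have e1 : MulAut.conj x • (⁅((pPrimeCore p ↥H).map H.subtype), A⁆ ⊔ A) =
        MulAut.conj x • ⁅((pPrimeCore p ↥H).map H.subtype), A⁆ ⊔ MulAut.conj x • A :=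
      Subgroup.map_sup _ _ _
    rw [e1, c_comm, Qc_c p hxH]

section data

variable [Finite G] {p : ℕ} [Fact p.Prime] {V H E : Subgroup G}

theorem hyp_p23 (hh : Hyp p V H) : p = 2 ∨ p = 3 := by
  obtain ⟨hV, hHV, hf, hS1, hS3, hH1⟩ := hh
  exact (Cfsg.Agent.S0617.result V H hV hHV hf hS1 hS3 hH1).1

theorem comp_data (hh : Hyp p V H) (hE : Comp p V H E) :
    Nonempty (↥E ≃* Matrix.SpecialLinearGroup (Fin 2) (ZMod p)) ∧
      Nat.card ↥(⁅V, E⁆) = p ^ 2 ∧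
      ⁅V, E⁆ ⊓ (V ⊓ Subgroup.centralizer (E : Set G)) = ⊥ ∧
      ⁅V, E⁆ ⊔ (V ⊓ Subgroup.centralizer (E : Set G)) = V ∧
      ⁅E, H ⊓ Subgroup.centralizer ((⁅V, E⁆ : Subgroup G) : Set G)⁆ = ⊥ ∧
      E ⊓ (H ⊓ Subgroup.centralizer ((⁅V, E⁆ : Subgroup G) : Set G)) = ⊥ ∧
      E ⊔ (H ⊓ Subgroup.centralizer ((⁅V, E⁆ : Subgroup G) : Set G)) = H ∧
      ⁅V, H ⊓ Subgroup.centralizer ((⁅V, E⁆ : Subgroup G) : Set G)⁆ ≤
        V ⊓ Subgroup.centralizer (E : Set G) := by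
  obtain ⟨hV, hHV, hf, hS1, hS3, hH1⟩ := hh
  obtain ⟨A, hAH, hAbo, hAV, hAmin, rfl⟩ := hE
  exact (Cfsg.Agent.S0616.result V H hV hHV hf hS1 hS3 hH1 A hAH hAbo hAV hAmin).2

theorem comp_le (hh : Hyp p V H) (hE : Comp p V H E) : E ≤ H :=
  le_sup_left.trans (le_of_eq (comp_data hh hE).2.2.2.2.2.2.1)

theorem comp_comm (hh : Hyp p V H) (hE : Comp p V H E) :
    ∀ e ∈ E, ∀ d ∈ H ⊓ Subgroup.centralizer ((⁅V, E⁆ : Subgroup G) : Set G), e * d = d * e := by
  intro e he d hd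
  have hEC := Subgroup.commutator_eq_bot_iff_le_centralizer.mp (comp_data hh hE).2.2.2.2.1
  exact (Subgroup.mem_centralizer_iff.mp (hEC he) d hd).symm

theorem comp_norm (hh : Hyp p V H) (hE : Comp p V H E) :
    H ≤ Subgroup.normalizer (E : Set G) := by
  have hED := (comp_data hh hE).2.2.2.2.1
  have hEDs := (comp_data hh hE).2.2.2.2.2.2.1
  have hEC := Subgroup.commutator_eq_bot_iff_le_centralizer.mp hED
  have hDC := Subgroup.le_centralizer_iff.mp hEC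
  calc H = E ⊔ (H ⊓ Subgroup.centralizer ((⁅V, E⁆ : Subgroup G) : Set G)) := hEDs.symm
    _ ≤ Subgroup.normalizer (E : Set G) :=
      sup_le Subgroup.le_normalizer (hDC.trans (Subgroup.centralizer_le_normalizer _))

theorem comp_cross (hh : Hyp p V H) {E' : Subgroup G} (hE : Comp p V H E)
    (hE' : Comp p V H E') (hne : E' ≠ E) :
    E' ≤ H ⊓ Subgroup.centralizer ((⁅V, E⁆ : Subgroup G) : Set G) := by
  obtain ⟨hV, hHV, hf, hS1, hS3, hH1⟩ := hh
  obtain ⟨A, hAH, hAbo, hAV, hAmin, rfl⟩ := hE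
  obtain ⟨A', hAH', hAbo', hAV', hAmin', rfl⟩ := hE'
  exact (Cfsg.Agent.S0617.cross_aux V H hV hHV hf hS1 hS3 hH1 A hAH hAbo hAV hAmin
    A' hAH' hAbo' hAV' hAmin').resolve_left hne

theorem comp_sup (hh : Hyp p V H) :
    (⨆ E : {E : Subgroup G // Comp p V H E}, (E : Subgroup G)) = H := by
  obtain ⟨hV, hHV, hf, hS1, hS3, hH1⟩ := hh
  exact (Cfsg.Agent.S0617.result V H hV hHV hf hS1 hS3 hH1).2.2.2.1

theorem comp_V (hh : Hyp p V H) :
    (V ⊓ Subgroup.centralizer (H : Set G)) ⊔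
      (⨆ E : {E : Subgroup G // Comp p V H E}, ⁅V, (E : Subgroup G)⁆) = V := by
  obtain ⟨hV, hHV, hf, hS1, hS3, hH1⟩ := hh
  exact (Cfsg.Agent.S0617.result V H hV hHV hf hS1 hS3 hH1).2.2.2.2.2

theorem comp_card (hh : Hyp p V H) (hE : Comp p V H E) : 6 ∣ Nat.card E := by
  have hp : p.Prime := Fact.out
  haveI : NeZero p := ⟨hp.ne_zero⟩
  obtain ⟨φ⟩ := (comp_data hh hE).1
  have h1 : Nat.card E = Nat.card (Matrix.SpecialLinearGroup (Fin 2) (ZMod p)) :=
    Nat.card_congr φ.toEquiv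
  have h2 := Cfsg.Agent.S2301.card_SL2 (F := ZMod p)
  rw [ZMod.card] at h2
  rw [h1, h2]
  rcases hyp_p23 hh with rfl | rfl <;> decide

theorem comp_gen (hh : Hyp p V H) (hE : Comp p V H E) :
    ∃ A : Subgroup G, A ≤ E ∧ (∀ a ∈ A, a ^ p = 1) ∧
      ∀ N : Subgroup G, (∀ e ∈ E, ∀ a ∈ A, e * a * e⁻¹ ∈ N) → E ≤ N := by
  have hdata := comp_data hh hE
  have hcomm := comp_comm hh hE
  obtain ⟨hV, hHV, hf, hS1, hS3, hH1⟩ := hh
  obtain ⟨A, hAH, hAbo, hAV, hAmin, rfl⟩ := hE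
  obtain ⟨g, hgA, hg1, hgp, hAz, -⟩ :=
    Cfsg.Agent.S0616.tv_of_min V H hV hHV hf hS1 hS3 hH1 A hAH hAbo hAV hAmin
  refine ⟨A, le_sup_right, ?_, ?_⟩
  · intro a ha
    rw [hAz] at ha
    exact (Cfsg.Agent.Lib.Helper4.Thompson.elab_zpowers hgp).2 a ha
  · intro N hN
    have hAN : A ≤ N := by
      intro a ha
      have := hN 1 (Subgroup.one_mem _) a ha
      simpa using this
    refine sup_le ?_ hAN
    rw [Subgroup.commutator_le]
    intro q hq a ha
    have hqH : q ∈ H := Subgroup.map_subtype_le _ hq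
    have hqED : q ∈ (⁅((pPrimeCore p ↥H).map H.subtype), A⁆ ⊔ A) ⊔
        (H ⊓ Subgroup.centralizer
          ((⁅V, ⁅((pPrimeCore p ↥H).map H.subtype), A⁆ ⊔ A⁆ : Subgroup G) : Set G)) := by
      rw [hdata.2.2.2.2.2.2.1]; exact hqH
    obtain ⟨e, he, d, hd, rfl⟩ := Cfsg.Agent.S0617.mem_sup_of_comm hcomm hqED
    have haE : a ∈ ⁅((pPrimeCore p ↥H).map H.subtype), A⁆ ⊔ A :=
      (le_sup_right : A ≤ ⁅((pPrimeCore p ↥H).map H.subtype), A⁆ ⊔ A) ha
    have hda : a * d = d * a := hcomm a haE d hd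
    have e1 : ⁅e * d, a⁆ = (e * a * e⁻¹) * a⁻¹ := by
      rw [commutatorElement_def]
      calc e * d * a * (e * d)⁻¹ * a⁻¹ = e * (d * a) * d⁻¹ * e⁻¹ * a⁻¹ := by group
        _ = e * (a * d) * d⁻¹ * e⁻¹ * a⁻¹ := by rw [hda]
        _ = (e * a * e⁻¹) * a⁻¹ := by group
    rw [e1]
    exact N.mul_mem (hN e he a ha) (N.inv_mem (hAN ha))

end data

theorem q_dvd_false {q : ℕ} (hq : q.Prime) (h2 : q ≠ 2) (h3 : q ≠ 3) {n : ℕ}
    (hn : n = 2 ∨ n = 3 ∨ n = 6 ∨ n = 8) (hd : q ∣ n) : False := by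
  rcases hn with rfl | rfl | rfl | rfl
  · exact h2 ((Nat.prime_dvd_prime_iff_eq hq Nat.prime_two).mp hd)
  · exact h3 ((Nat.prime_dvd_prime_iff_eq hq Nat.prime_three).mp hd)
  · have h6 : q ∣ 2 * 3 := hd
    rcases (Nat.Prime.dvd_mul hq).mp h6 with h | h
    · exact h2 ((Nat.prime_dvd_prime_iff_eq hq Nat.prime_two).mp h)
    · exact h3 ((Nat.prime_dvd_prime_iff_eq hq Nat.prime_three).mp h)
  · have h8 : q ∣ 2 ^ 3 := hd
    exact h2 ((Nat.prime_dvd_prime_iff_eq hq Nat.prime_two).mp (hq.dvd_of_dvd_pow h8))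

/-- a `q`-element (`q ≠ 2, 3`) normalizing `V` and a component centralizes the component -/
theorem stab_cent [Finite G] {p q : ℕ} [Fact p.Prime] [Fact q.Prime] {V H E : Subgroup G}
    (hh : Hyp p V H) (hq2 : q ≠ 2) (hq3 : q ≠ 3)
    (hE : Comp p V H E) {x : G} (hxV : x ∈ Subgroup.normalizer (V : Set G))
    (hxq : ∃ k : ℕ, x ^ q ^ k = 1) (hxE : MulAut.conj x • E = E) :
    ∀ e ∈ E, x * e = e * x := by
  have hq : q.Prime := Fact.out
  have hp : p.Prime := Fact.out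
  have hp23 := hyp_p23 hh
  have hdata := comp_data hh hE
  have hEH := comp_le hh hE
  have hHV : H ≤ Subgroup.normalizer (V : Set G) := hh.2.1
  obtain ⟨W, hWdef⟩ : ∃ W : Subgroup G, W = ⁅V, E⁆ := ⟨_, rfl⟩
  have hWcard : Nat.card W = p ^ 2 := by rw [hWdef]; exact hdata.2.1
  have hxW : MulAut.conj x • W = W := by
    rw [hWdef, c_comm, c_eq_of_norm hxV, hxE]
  obtain ⟨T, hTdef⟩ : ∃ T : Subgroup G, T = Subgroup.zpowers x := ⟨_, rfl⟩
  have hTW : T ≤ Subgroup.normalizer (W : Set G) := by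
    rw [hTdef, Subgroup.zpowers_le]
    exact mem_normalizer_iff_conj_smul_eq.mpr hxW
  have hT : IsPGroup q ↥T := by
    obtain ⟨k, hk⟩ := hxq
    have h1 : orderOf x ∣ q ^ k := orderOf_dvd_of_pow_eq_one hk
    obtain ⟨j, -, hj⟩ := (Nat.dvd_prime_pow hq).mp h1
    apply IsPGroup.of_card (n := j)
    rw [hTdef, Nat.card_zpowers, hj]
  letI : MulAction ↥T ↥W :=
    { smul := fun t w => ⟨(t : G) * w * (t : G)⁻¹,
        (Subgroup.mem_normalizer_iff.mp (hTW t.2) w).mp w.2⟩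
      one_smul := fun w => Subtype.ext (by
        show (1 : G) * (w : G) * (1 : G)⁻¹ = w
        group)
      mul_smul := fun s t w => Subtype.ext (by
        show ((s : G) * t) * (w : G) * ((s : G) * t)⁻¹ = s * (t * w * (t : G)⁻¹) * (s : G)⁻¹
        group) }
  have hmod := hT.card_modEq_card_fixedPoints ↥W
  have hcard : Nat.card ↥(MulAction.fixedPoints ↥T ↥W) =
      Nat.card ↥(W ⊓ Subgroup.centralizer (T : Set G)) := by
    apply Nat.card_congr
    refine ⟨fun w => ⟨(w.1 : G), Subgroup.mem_inf.mpr ⟨w.1.2, ?_⟩⟩,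
      fun w => ⟨⟨w.1, (Subgroup.mem_inf.mp w.2).1⟩, ?_⟩, fun _ => rfl, fun _ => rfl⟩
    · rw [Subgroup.mem_centralizer_iff]
      intro t ht
      have h1 := MulAction.mem_fixedPoints.mp w.2 ⟨t, ht⟩
      have h2 : t * (w.1 : G) * t⁻¹ = (w.1 : G) := congrArg Subtype.val h1
      exact mul_inv_eq_iff_eq_mul.mp h2
    · rw [MulAction.mem_fixedPoints]
      intro t
      apply Subtype.ext
      show (t : G) * (w : G) * (t : G)⁻¹ = w
      have h1 := Subgroup.mem_centralizer_iff.mp (Subgroup.mem_inf.mp w.2).2 t t.2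
      rw [h1, mul_inv_cancel_right]
  have hFle : W ⊓ Subgroup.centralizer (T : Set G) ≤ W := inf_le_left
  have hFdvd : Nat.card ↥(W ⊓ Subgroup.centralizer (T : Set G)) ∣ p ^ 2 := by
    rw [← hWcard]; exact Subgroup.card_dvd_of_le hFle
  obtain ⟨j, hj2, hj⟩ := (Nat.dvd_prime_pow hp).mp hFdvd
  rw [hcard, hWcard, hj] at hmod
  have hj2' : j = 2 := by
    by_contra hjne
    have hjlt : j < 2 := lt_of_le_of_ne hj2 hjne
    rcases hp23 with rfl | rfl
    · interval_cases j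
      · exact q_dvd_false hq hq2 hq3 (Or.inr (Or.inl rfl))
          ((Nat.modEq_iff_dvd' (by norm_num)).mp hmod.symm)
      · exact q_dvd_false hq hq2 hq3 (Or.inl rfl)
          ((Nat.modEq_iff_dvd' (by norm_num)).mp hmod.symm)
    · interval_cases j
      · exact q_dvd_false hq hq2 hq3 (Or.inr (Or.inr (Or.inr rfl)))
          ((Nat.modEq_iff_dvd' (by norm_num)).mp hmod.symm)
      · exact q_dvd_false hq hq2 hq3 (Or.inr (Or.inr (Or.inl rfl)))
          ((Nat.modEq_iff_dvd' (by norm_num)).mp hmod.symm)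
  subst hj2'
  have hFW : W ⊓ Subgroup.centralizer (T : Set G) = W :=
    Subgroup.eq_of_le_of_card_ge hFle (le_of_eq (by rw [hj, hWcard]))
  have hxcW : ∀ w ∈ W, x * w = w * x := by
    intro w hw
    rw [← hFW] at hw
    exact Subgroup.mem_centralizer_iff.mp (Subgroup.mem_inf.mp hw).2 x
      (by rw [hTdef]; exact Subgroup.mem_zpowers x)
  have hEW : ∀ e ∈ E, ∀ w ∈ W, e⁻¹ * w * e ∈ W := by
    intro e he w hw
    have heV : e ∈ Subgroup.normalizer (V : Set G) := hHV (hEH he)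
    have h1 : MulAut.conj e • W = W := by
      rw [hWdef, c_comm, c_eq_of_norm heV, c_eq_of_norm (Subgroup.le_normalizer he)]
    rw [← h1] at hw
    exact mem_conj_smul.mp hw
  intro e he
  have hy : x * e * x⁻¹ * e⁻¹ ∈ E := by
    have h1 : x * e * x⁻¹ ∈ MulAut.conj x • E := conj_mem_conj_smul he
    rw [hxE] at h1
    exact E.mul_mem h1 (E.inv_mem he)
  have hyW : x * e * x⁻¹ * e⁻¹ ∈ Subgroup.centralizer (W : Set G) := by
    rw [Subgroup.mem_centralizer_iff]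
    intro w hw
    have hw1 := hEW e he w hw
    have c1 := hxcW _ hw1
    have c2 := hxcW w hw
    have c3 : (e⁻¹ * w * e) * x⁻¹ = x⁻¹ * (e⁻¹ * w * e) := by
      calc (e⁻¹ * w * e) * x⁻¹ = x⁻¹ * (x * (e⁻¹ * w * e)) * x⁻¹ := by group
        _ = x⁻¹ * ((e⁻¹ * w * e) * x) * x⁻¹ := by rw [c1]
        _ = x⁻¹ * (e⁻¹ * w * e) := by group
    calc w * (x * e * x⁻¹ * e⁻¹) = (w * x) * e * x⁻¹ * e⁻¹ := by group
      _ = (x * w) * e * x⁻¹ * e⁻¹ := by rw [c2]
      _ = x * e * ((e⁻¹ * w * e) * x⁻¹) * e⁻¹ := by group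
      _ = x * e * (x⁻¹ * (e⁻¹ * w * e)) * e⁻¹ := by rw [c3]
      _ = x * e * x⁻¹ * e⁻¹ * w := by group
  have hy1 : x * e * x⁻¹ * e⁻¹ = 1 := by
    have hmem : x * e * x⁻¹ * e⁻¹ ∈
        E ⊓ (H ⊓ Subgroup.centralizer ((⁅V, E⁆ : Subgroup G) : Set G)) := by
      refine Subgroup.mem_inf.mpr ⟨hy, Subgroup.mem_inf.mpr ⟨hEH hy, ?_⟩⟩
      rw [← hWdef]; exact hyW
    rw [hdata.2.2.2.2.2.1] at hmem
    exact Subgroup.mem_bot.mp hmem
  calc x * e = (x * e * x⁻¹ * e⁻¹) * (e * x) := by group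
    _ = e * x := by rw [hy1, one_mul]

theorem crt [Finite G] {p : ℕ} [Fact p.Prime] {V H : Subgroup G} (hh : Hyp p V H)
    (ε : Subgroup G → G) (hε : ∀ F, Comp p V H F → ε F ∈ F) :
    ∀ 𝔽 : Finset {F : Subgroup G // Comp p V H F}, ∃ c ∈ H,
      (∀ F ∈ 𝔽, (ε F.1)⁻¹ * c ∈
        H ⊓ Subgroup.centralizer ((⁅V, F.1⁆ : Subgroup G) : Set G)) ∧
      (∀ F : {F : Subgroup G // Comp p V H F}, F ∉ 𝔽 →
        c ∈ H ⊓ Subgroup.centralizer ((⁅V, F.1⁆ : Subgroup G) : Set G)) := by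
  classical
  intro 𝔽
  induction 𝔽 using Finset.induction_on with
  | empty =>
    exact ⟨1, H.one_mem, fun F hF => absurd hF (Finset.notMem_empty F),
      fun F _ => Subgroup.one_mem _⟩
  | insert F₀ 𝔽' hF₀ ih =>
    obtain ⟨c, hcH, hc1, hc2⟩ := ih
    have hε₀ : ε F₀.1 ∈ F₀.1 := hε _ F₀.2
    refine ⟨ε F₀.1 * c, H.mul_mem (comp_le hh F₀.2 hε₀) hcH, ?_, ?_⟩
    · intro F hF
      rcases Finset.mem_insert.mp hF with hFeq | hF'
      · rw [hFeq, inv_mul_cancel_left]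
        exact hc2 F₀ hF₀
      · have hne : F₀.1 ≠ F.1 := fun h => hF₀ (by rw [Subtype.ext h]; exact hF')
        have h1 : ε F₀.1 ∈ H ⊓ Subgroup.centralizer ((⁅V, F.1⁆ : Subgroup G) : Set G) :=
          comp_cross hh F.2 F₀.2 hne hε₀
        have h2 := hc1 F hF'
        have hcm : (ε F.1)⁻¹ * ε F₀.1 = ε F₀.1 * (ε F.1)⁻¹ :=
          comp_comm hh F.2 _ (Subgroup.inv_mem _ (hε _ F.2)) _ h1
        have e : (ε F.1)⁻¹ * (ε F₀.1 * c) = ε F₀.1 * ((ε F.1)⁻¹ * c) := by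
          calc (ε F.1)⁻¹ * (ε F₀.1 * c) = ((ε F.1)⁻¹ * ε F₀.1) * c := (mul_assoc _ _ _).symm
            _ = (ε F₀.1 * (ε F.1)⁻¹) * c := by rw [hcm]
            _ = ε F₀.1 * ((ε F.1)⁻¹ * c) := mul_assoc _ _ _
        rw [e]
        exact Subgroup.mul_mem _ h1 h2
    · intro F hF
      have hFne : F ≠ F₀ := fun h => hF (by rw [h]; exact Finset.mem_insert_self _ _)
      have hF' : F ∉ 𝔽' := fun h => hF (Finset.mem_insert_of_mem h)
      have hne : F₀.1 ≠ F.1 := fun h => hFne (Subtype.ext h.symm)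
      exact Subgroup.mul_mem _ (comp_cross hh F.2 F₀.2 hne hε₀) (hc2 F hF')

theorem uniq [Finite G] {p : ℕ} [Fact p.Prime] {V H : Subgroup G} (hh : Hyp p V H) {c c' : G}
    (hc : c ∈ H) (hc' : c' ∈ H)
    (h : ∀ F, Comp p V H F →
      c⁻¹ * c' ∈ Subgroup.centralizer ((⁅V, F⁆ : Subgroup G) : Set G)) :
    c = c' := by
  have hV6 := comp_V hh
  have hdH : c⁻¹ * c' ∈ H := H.mul_mem (H.inv_mem hc) hc'
  have hz : Subgroup.zpowers (c⁻¹ * c') ≤ H := Subgroup.zpowers_le.mpr hdH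
  have hle : V ≤ Subgroup.centralizer (Subgroup.zpowers (c⁻¹ * c') : Set G) := by
    rw [← hV6]
    refine sup_le ?_ (iSup_le fun F => ?_)
    · exact inf_le_right.trans (Subgroup.centralizer_le (SetLike.coe_subset_coe.mpr hz))
    · rw [Subgroup.le_centralizer_iff, Subgroup.zpowers_le]
      exact h F.1 F.2
  have hdC : c⁻¹ * c' ∈ Subgroup.centralizer (V : Set G) :=
    (Subgroup.le_centralizer_iff.mp hle) (Subgroup.mem_zpowers _)
  have hmem : c⁻¹ * c' ∈ H ⊓ Subgroup.centralizer (V : Set G) :=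
    Subgroup.mem_inf.mpr ⟨hdH, hdC⟩
  rw [hh.2.2.1] at hmem
  have h1 := Subgroup.mem_bot.mp hmem
  calc c = c * (c⁻¹ * c') := by rw [h1, mul_one]
    _ = c' := by group

/-- every element of a component is, modulo the centralizer of the plane of the component, a
fixed point of `Xb` -/
theorem diag [Finite G] {p q : ℕ} [Fact p.Prime] [Fact q.Prime] {V H Xb : Subgroup G}
    (hh : Hyp p V H) (hq2 : q ≠ 2) (hq3 : q ≠ 3)
    (hXV : Xb ≤ Subgroup.normalizer (V : Set G)) (hXH : Xb ≤ Subgroup.normalizer (H : Set G))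
    (hXq : ∀ x ∈ Xb, ∃ k : ℕ, x ^ q ^ k = 1)
    {E₁ : Subgroup G} (hE₁ : Comp p V H E₁) {e : G} (he : e ∈ E₁) :
    ∃ c ∈ H, (∀ x ∈ Xb, x * c = c * x) ∧
      e⁻¹ * c ∈ H ⊓ Subgroup.centralizer ((⁅V, E₁⁆ : Subgroup G) : Set G) := by
  classical
  have hstab : ∀ z ∈ Xb, MulAut.conj z • E₁ = E₁ → z * e = e * z := fun z hz hzE =>
    stab_cent hh hq2 hq3 hE₁ (hXV hz) (hXq z hz) hzE e he
  have hex : ∀ F : Subgroup G, ∃ g : G,
      (∀ y ∈ Xb, F = MulAut.conj y • E₁ → g = y * e * y⁻¹) ∧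
      ((∀ y ∈ Xb, F ≠ MulAut.conj y • E₁) → g = 1) := by
    intro F
    by_cases h : ∃ y ∈ Xb, F = MulAut.conj y • E₁
    · obtain ⟨y₀, hy₀, rfl⟩ := h
      refine ⟨y₀ * e * y₀⁻¹, ?_, ?_⟩
      · intro y hy hyE
        have hz : MulAut.conj (y₀⁻¹ * y) • E₁ = E₁ := by
          rw [← conj_smul_smul, ← hyE, c_inv_c]
        have hcomm := hstab _ (Xb.mul_mem (Xb.inv_mem hy₀) hy) hz
        have e1 : y * e * y⁻¹ = y₀ * e * y₀⁻¹ := by
          calc y * e * y⁻¹ = y₀ * ((y₀⁻¹ * y) * e) * (y₀⁻¹ * y)⁻¹ * y₀⁻¹ := by group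
            _ = y₀ * (e * (y₀⁻¹ * y)) * (y₀⁻¹ * y)⁻¹ * y₀⁻¹ := by rw [hcomm]
            _ = y₀ * e * y₀⁻¹ := by group
        exact e1.symm
      · intro hno
        exact absurd rfl (hno y₀ hy₀)
    · refine ⟨1, ?_, fun _ => rfl⟩
      intro y hy hyE
      exact absurd ⟨y, hy, hyE⟩ h
  choose ε hε2 hε0 using hex
  have hε : ∀ F, Comp p V H F → ε F ∈ F := by
    intro F _
    by_cases h : ∃ y ∈ Xb, F = MulAut.conj y • E₁
    · obtain ⟨y, hy, rfl⟩ := h
      rw [hε2 _ y hy rfl]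
      exact conj_mem_conj_smul he
    · push Not at h
      rw [hε0 F h]
      exact F.one_mem
  have hε3 : ∀ x ∈ Xb, ∀ F, ε (MulAut.conj x • F) = x * ε F * x⁻¹ := by
    intro x hx F
    by_cases h : ∃ y ∈ Xb, F = MulAut.conj y • E₁
    · obtain ⟨y, hy, rfl⟩ := h
      rw [hε2 (MulAut.conj x • MulAut.conj y • E₁) (x * y) (Xb.mul_mem hx hy)
        (conj_smul_smul x y E₁), hε2 _ y hy rfl]
      group
    · push Not at h
      have h' : ∀ y ∈ Xb, MulAut.conj x • F ≠ MulAut.conj y • E₁ := by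
        intro y hy hEq
        apply h (x⁻¹ * y) (Xb.mul_mem (Xb.inv_mem hx) hy)
        rw [← conj_smul_smul, ← hEq, c_inv_c]
      rw [hε0 _ h', hε0 F h]
      group
  haveI := Fintype.ofFinite {F : Subgroup G // Comp p V H F}
  obtain ⟨c, hcH, hc1, -⟩ := crt hh ε hε Finset.univ
  have hc1' : ∀ F, Comp p V H F →
      (ε F)⁻¹ * c ∈ H ⊓ Subgroup.centralizer ((⁅V, F⁆ : Subgroup G) : Set G) :=
    fun F hF => hc1 ⟨F, hF⟩ (Finset.mem_univ _)
  refine ⟨c, hcH, ?_, ?_⟩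
  · intro x hx
    have hxV := hXV hx
    have hxH := hXH hx
    have hc'H : x * c * x⁻¹ ∈ H := (norm_conj_mem' hxH).mpr hcH
    have huniq : c = x * c * x⁻¹ := by
      apply uniq hh hcH hc'H
      intro F hF
      have hF' : Comp p V H (MulAut.conj x⁻¹ • F) :=
        comp_conj (Subgroup.inv_mem _ hxV) (Subgroup.inv_mem _ hxH) hF
      have hFF' : MulAut.conj x • MulAut.conj x⁻¹ • F = F := c_c_inv x F
      have d1 := (Subgroup.mem_inf.mp (hc1' F hF)).2
      have d2 := (Subgroup.mem_inf.mp (hc1' _ hF')).2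
      have hε' : ε F = x * ε (MulAut.conj x⁻¹ • F) * x⁻¹ := by
        have := hε3 x hx (MulAut.conj x⁻¹ • F)
        rw [hFF'] at this
        exact this
      have d2' : x * ((ε (MulAut.conj x⁻¹ • F))⁻¹ * c) * x⁻¹ ∈
          Subgroup.centralizer ((⁅V, F⁆ : Subgroup G) : Set G) := by
        have hW : ⁅V, F⁆ = MulAut.conj x • ⁅V, MulAut.conj x⁻¹ • F⁆ := by
          rw [c_comm, c_eq_of_norm hxV, hFF']
        rw [hW, mem_cent_c]
        have e : x⁻¹ * (x * ((ε (MulAut.conj x⁻¹ • F))⁻¹ * c) * x⁻¹) * x =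
            (ε (MulAut.conj x⁻¹ • F))⁻¹ * c := by group
        rw [e]; exact d2
      have e : c⁻¹ * (x * c * x⁻¹) =
          ((ε F)⁻¹ * c)⁻¹ * (x * ((ε (MulAut.conj x⁻¹ • F))⁻¹ * c) * x⁻¹) := by
        rw [hε']; group
      rw [e]
      exact Subgroup.mul_mem _ (Subgroup.inv_mem _ d1) d2'
    calc x * c = (x * c * x⁻¹) * x := by group
      _ = c * x := by rw [← huniq]
  · have h1 := hc1' E₁ hE₁
    have h2 : ε E₁ = e := by
      have := hε2 E₁ 1 Xb.one_mem (conj_one_smul E₁).symm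
      simpa using this
    rw [h2] at h1
    exact h1

/-- the generation statement: a subgroup `M` containing the fixed points of `Xb` on `H` and a
Sylow `p`-subgroup of every component contains `H` -/
theorem core [Finite G] {p q : ℕ} [Fact p.Prime] [Fact q.Prime] {V H Xb M : Subgroup G}
    (hh : Hyp p V H) (hq2 : q ≠ 2) (hq3 : q ≠ 3)
    (hXV : Xb ≤ Subgroup.normalizer (V : Set G)) (hXH : Xb ≤ Subgroup.normalizer (H : Set G))
    (hXq : ∀ x ∈ Xb, ∃ k : ℕ, x ^ q ^ k = 1)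
    (hM1 : H ⊓ Subgroup.centralizer (Xb : Set G) ≤ M)
    (hM2 : ∀ E : Subgroup G, Comp p V H E →
      ∃ Q : Sylow p ↥E, ∀ y ∈ (Q : Subgroup ↥E), (y : G) ∈ M) :
    H ≤ M := by
  rw [← comp_sup hh]
  apply iSup_le
  rintro ⟨E, hE⟩
  show E ≤ M
  obtain ⟨A, hAE, hAp, hgen⟩ := comp_gen hh hE
  obtain ⟨Q, hQM⟩ := hM2 E hE
  apply hgen
  have hconj : ∀ e ∈ E, ∀ s ∈ E, s ∈ M → e * s * e⁻¹ ∈ M := by
    intro e he s hs hsM
    obtain ⟨c, hcH, hcX, hcd⟩ := diag hh hq2 hq3 hXV hXH hXq hE he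
    have hcM : c ∈ M := hM1 (Subgroup.mem_inf.mpr ⟨hcH, by
      rw [Subgroup.mem_centralizer_iff]; exact fun x hx => hcX x hx⟩)
    have hsd : s * (e⁻¹ * c) = (e⁻¹ * c) * s := comp_comm hh hE s hs _ hcd
    have e1 : e * s * e⁻¹ = c * s * c⁻¹ := by
      calc e * s * e⁻¹ = e * (s * (e⁻¹ * c)) * c⁻¹ := by group
        _ = e * ((e⁻¹ * c) * s) * c⁻¹ := by rw [hsd]
        _ = c * s * c⁻¹ := by group
    rw [e1]
    exact M.mul_mem (M.mul_mem hcM hsM) (M.inv_mem hcM)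
  have hPg : IsPGroup p ↥(A.subgroupOf E) := by
    intro g
    refine ⟨1, ?_⟩
    apply Subtype.ext
    apply Subtype.ext
    have := hAp _ (Subgroup.mem_subgroupOf.mp g.2)
    simpa using this
  obtain ⟨Q', hQ'⟩ := hPg.exists_le_sylow
  obtain ⟨e₀, rfl⟩ := MulAction.exists_smul_eq ↥E Q Q'
  intro e he a ha
  have haE : a ∈ E := hAE ha
  have h1 : (⟨a, haE⟩ : ↥E) ∈ ((e₀ • Q : Sylow p ↥E) : Subgroup ↥E) :=
    hQ' (Subgroup.mem_subgroupOf.mpr ha)
  rw [Sylow.coe_subgroup_smul, mem_conj_smul] at h1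
  have hsM : (e₀ : G)⁻¹ * a * (e₀ : G) ∈ M := hQM _ h1
  have hsE : (e₀ : G)⁻¹ * a * (e₀ : G) ∈ E :=
    E.mul_mem (E.mul_mem (E.inv_mem e₀.2) haE) e₀.2
  have h2 := hconj (e * e₀) (E.mul_mem he e₀.2) _ hsE hsM
  have e2 : e * (e₀ : G) * ((e₀ : G)⁻¹ * a * (e₀ : G)) * (e * (e₀ : G))⁻¹ = e * a * e⁻¹ := by
    group
  rw [e2] at h2
  exact h2

end Cfsg.Agent.Lib.Helper4.FFCore
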