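import Mathlib
import Cfsg.Agent.S0616
import Cfsg.Agent.S0617
import Cfsg.Agent.S0620
import Cfsg.Agent.Lib.Helper4.Conj
import Cfsg.Agent.Lib.Helper4.FFCore

/-!
# The diagonal plane of a coprime operator group in the failure-of-factorization structure (helper4)

In the setting of `FFCore` (`V`, `H` with the hypotheses of the structure theorem S0617 and a
`q`-group `Xb`, `q ≠ 2, 3`, normalizing `V` and `H`), the trace map of `Xb` on `V` carries the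
plane `[V, E]` of a component `E` injectively onto a plane `W` centralized by `Xb`, and the fixed
points of `Xb` on `H` induce `SL₂(p)` on `W` (`planeW`).
-/

set_option autoImplicit false

open Cfsg
open scoped commutatorElement Pointwise

namespace Cfsg.Agent.Lib.Helper4.FFCore2

open Cfsg.Agent.Lib.Helper4.Conj Cfsg.Agent.Lib.Helper4.FFCore

universe u

variable {G : Type u} [Group G]

/-- a `q`-element (`q ≠ 2, 3`) normalizing `V` and a component centralizes the plane of the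
component -/
theorem stab_centW [Finite G] {p q : ℕ} [Fact p.Prime] [Fact q.Prime] {V H E : Subgroup G}
    (hh : Hyp p V H) (hq2 : q ≠ 2) (hq3 : q ≠ 3)
    (hE : Comp p V H E) {x : G} (hxV : x ∈ Subgroup.normalizer (V : Set G))
    (hxq : ∃ k : ℕ, x ^ q ^ k = 1) (hxE : MulAut.conj x • E = E) :
    ∀ w ∈ ⁅V, E⁆, x * w = w * x := by
  have hq : q.Prime := Fact.out
  have hp : p.Prime := Fact.out
  have hp23 := hyp_p23 hh
  have hdata := comp_data hh hE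
  obtain ⟨W, hWdef⟩ : ∃ W : Subgroup G, W = ⁅V, E⁆ := ⟨_, rfl⟩
  have hWcard : Nat.card W = p ^ 2 := by rw [hWdef]; exact hdata.2.1
  have hxW : MulAut.conj x • W = W := by
    rw [hWdef, c_comm, c_eq_of_norm hxV, hxE]
  obtain ⟨T, hTdef⟩ : ∃ T : Subgroup G, T = Subgroup.zpowers x := ⟨_, rfl⟩
  have hTW : T ≤ Subgroup.normalizer (W : Set G) := by
    rw [hTdef, Subgroup.zpowers_le]
    exact mem_normalizer_iff_conj_smul_eq.mpr hxW
  have hT : IsPGroup q ↥T := by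
    obtain ⟨k, hk⟩ := hxq
    have h1 : orderOf x ∣ q ^ k := orderOf_dvd_of_pow_eq_one hk
    obtain ⟨j, -, hj⟩ := (Nat.dvd_prime_pow hq).mp h1
    apply IsPGroup.of_card (n := j)
    rw [hTdef, Nat.card_zpowers, hj]
  letI : MulAction ↥T ↥W :=
    { smul := fun t w => ⟨(t : G) * w * (t : G)⁻¹,
        (Subgroup.mem_normalizer_iff.mp (hTW t.2) w).mp w.2⟩
      one_smul := fun w => Subtype.ext (by
        show (1 : G) * (w : G) * (1 : G)⁻¹ = w
        group)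
      mul_smul := fun s t w => Subtype.ext (by
        show ((s : G) * t) * (w : G) * ((s : G) * t)⁻¹ = s * (t * w * (t : G)⁻¹) * (s : G)⁻¹
        group) }
  have hmod := hT.card_modEq_card_fixedPoints ↥W
  have hcard : Nat.card ↥(MulAction.fixedPoints ↥T ↥W) =
      Nat.card ↥(W ⊓ Subgroup.centralizer (T : Set G)) := by
    apply Nat.card_congr
    refine ⟨fun w => ⟨(w.1 : G), Subgroup.mem_inf.mpr ⟨w.1.2, ?_⟩⟩,
      fun w => ⟨⟨w.1, (Subgroup.mem_inf.mp w.2).1⟩, ?_⟩, fun _ => rfl, fun _ => rfl⟩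
    · rw [Subgroup.mem_centralizer_iff]
      intro t ht
      have h1 := MulAction.mem_fixedPoints.mp w.2 ⟨t, ht⟩
      have h2 : t * (w.1 : G) * t⁻¹ = (w.1 : G) := congrArg Subtype.val h1
      exact mul_inv_eq_iff_eq_mul.mp h2
    · rw [MulAction.mem_fixedPoints]
      intro t
      apply Subtype.ext
      show (t : G) * (w : G) * (t : G)⁻¹ = w
      have h1 := Subgroup.mem_centralizer_iff.mp (Subgroup.mem_inf.mp w.2).2 t t.2
      rw [h1, mul_inv_cancel_right]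
  have hFle : W ⊓ Subgroup.centralizer (T : Set G) ≤ W := inf_le_left
  have hFdvd : Nat.card ↥(W ⊓ Subgroup.centralizer (T : Set G)) ∣ p ^ 2 := by
    rw [← hWcard]; exact Subgroup.card_dvd_of_le hFle
  obtain ⟨j, hj2, hj⟩ := (Nat.dvd_prime_pow hp).mp hFdvd
  rw [hcard, hWcard, hj] at hmod
  have hj2' : j = 2 := by
    by_contra hjne
    have hjlt : j < 2 := lt_of_le_of_ne hj2 hjne
    rcases hp23 with rfl | rfl
    · interval_cases j
      · exact q_dvd_false hq hq2 hq3 (Or.inr (Or.inl rfl))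
          ((Nat.modEq_iff_dvd' (by norm_num)).mp hmod.symm)
      · exact q_dvd_false hq hq2 hq3 (Or.inl rfl)
          ((Nat.modEq_iff_dvd' (by norm_num)).mp hmod.symm)
    · interval_cases j
      · exact q_dvd_false hq hq2 hq3 (Or.inr (Or.inr (Or.inr rfl)))
          ((Nat.modEq_iff_dvd' (by norm_num)).mp hmod.symm)
      · exact q_dvd_false hq hq2 hq3 (Or.inr (Or.inr (Or.inl rfl)))
          ((Nat.modEq_iff_dvd' (by norm_num)).mp hmod.symm)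
  subst hj2'
  have hFW : W ⊓ Subgroup.centralizer (T : Set G) = W :=
    Subgroup.eq_of_le_of_card_ge hFle (le_of_eq (by rw [hj, hWcard]))
  intro w hw
  rw [← hWdef, ← hFW] at hw
  exact Subgroup.mem_centralizer_iff.mp (Subgroup.mem_inf.mp hw).2 x
    (by rw [hTdef]; exact Subgroup.mem_zpowers x)

open scoped IsMulCommutative in
/-- the trace map of `Xb` on the commutative subgroup `V` -/
theorem trace_exists [Finite G] {V Xb : Subgroup G} (hVc : IsMulCommutative ↥V)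
    (hXV : Xb ≤ Subgroup.normalizer (V : Set G)) :
    ∃ T : G → G, (∀ v ∈ V, T v ∈ V) ∧
      (∀ a ∈ V, ∀ b ∈ V, T (a * b) = T a * T b) ∧
      (∀ v ∈ V, ∀ y ∈ Xb, y * T v * y⁻¹ = T v) ∧
      (∀ c ∈ Subgroup.normalizer (V : Set G), (∀ x ∈ Xb, x * c = c * x) →
        ∀ v ∈ V, c * T v * c⁻¹ = T (c * v * c⁻¹)) ∧
      (∀ (St U : Subgroup G) (w : G), w ∈ V → (∀ x ∈ Xb, x ∈ St → x * w = w * x) →
        (∀ x ∈ Xb, x ∉ St → x * w * x⁻¹ ∈ U) →
        ∃ u ∈ U, T w = w ^ Nat.card ↥(St.subgroupOf Xb) * u) := by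
  classical
  haveI := hVc
  haveI := Fintype.ofFinite ↥Xb
  obtain ⟨κ, hκ⟩ : ∃ κ : ↥(Subgroup.normalizer (V : Set G)) → (↥V →* ↥V),
      ∀ (n : ↥(Subgroup.normalizer (V : Set G))) (v : ↥V),
        ((κ n v : ↥V) : G) = (n : G) * v * (n : G)⁻¹ :=
    ⟨fun n => (Cfsg.Agent.S0620.conjN V n).toMonoidHom, fun _ _ => rfl⟩
  obtain ⟨T₀, hT₀⟩ : ∃ T₀ : ↥V → ↥V,
      ∀ v, T₀ v = ∏ x : ↥Xb, κ ⟨(x : G), hXV x.2⟩ v := ⟨_, fun _ => rfl⟩
  obtain ⟨T, hT⟩ : ∃ T : G → G, ∀ (v : G) (h : v ∈ V), T v = ((T₀ ⟨v, h⟩ : ↥V) : G) :=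
    ⟨fun v => if h : v ∈ V then ((T₀ ⟨v, h⟩ : ↥V) : G) else 1, fun v h => dif_pos h⟩
  refine ⟨T, ?_, ?_, ?_, ?_, ?_⟩
  · intro v hv
    rw [hT v hv]
    exact (T₀ ⟨v, hv⟩).2
  · intro a ha b hb
    have key : T₀ ⟨a * b, V.mul_mem ha hb⟩ = T₀ ⟨a, ha⟩ * T₀ ⟨b, hb⟩ := by
      rw [hT₀, hT₀, hT₀]
      exact (Finset.prod_congr rfl
        (fun (x : ↥Xb) _ => map_mul (κ ⟨(x : G), hXV x.2⟩) ⟨a, ha⟩ ⟨b, hb⟩)).trans
        Finset.prod_mul_distrib
    rw [hT _ (V.mul_mem ha hb), hT a ha, hT b hb, key]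
    rfl
  · intro v hv y hy
    have key : κ ⟨y, hXV hy⟩ (T₀ ⟨v, hv⟩) = T₀ ⟨v, hv⟩ := by
      rw [hT₀]
      refine (map_prod (κ ⟨y, hXV hy⟩) _ _).trans ?_
      refine Fintype.prod_equiv (Equiv.mulLeft (⟨y, hy⟩ : ↥Xb)) _ _ (fun x => ?_)
      apply Subtype.ext
      rw [hκ, hκ, hκ]
      show y * ((x : G) * v * (x : G)⁻¹) * y⁻¹ = (y * (x : G)) * v * (y * (x : G))⁻¹
      group
    have h1 := congrArg Subtype.val key
    rw [hκ] at h1
    rw [hT v hv]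
    exact h1
  · intro c hc hcX v hv
    have hcv : c * v * c⁻¹ ∈ V := (norm_conj_mem' hc).mpr hv
    have key : κ ⟨c, hc⟩ (T₀ ⟨v, hv⟩) = T₀ ⟨c * v * c⁻¹, hcv⟩ := by
      rw [hT₀, hT₀]
      refine (map_prod (κ ⟨c, hc⟩) _ _).trans ?_
      apply Finset.prod_congr rfl
      intro x _
      apply Subtype.ext
      rw [hκ, hκ, hκ]
      show c * ((x : G) * v * (x : G)⁻¹) * c⁻¹ = (x : G) * (c * v * c⁻¹) * (x : G)⁻¹
      have h1 := hcX x x.2
      calc c * ((x : G) * v * (x : G)⁻¹) * c⁻¹ = (c * (x : G)) * v * (c * (x : G))⁻¹ := by group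
        _ = ((x : G) * c) * v * ((x : G) * c)⁻¹ := by rw [h1]
        _ = (x : G) * (c * v * c⁻¹) * (x : G)⁻¹ := by group
    have h1 := congrArg Subtype.val key
    rw [hκ] at h1
    rw [hT v hv, hT _ hcv]
    exact h1
  · intro St U w hw h1 h2
    obtain ⟨s, hs⟩ : ∃ s : Finset ↥Xb, ∀ x, x ∈ s ↔ (x : G) ∈ St :=
      ⟨Finset.univ.filter (fun x : ↥Xb => (x : G) ∈ St), fun x => by simp⟩
    have hcard : s.card = Nat.card ↥(St.subgroupOf Xb) := by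
      rw [← Nat.card_eq_finsetCard]
      exact Nat.card_congr (Equiv.subtypeEquivRight (fun x => hs x))
    have hsplit := Finset.prod_mul_prod_compl s (fun x : ↥Xb => κ ⟨(x : G), hXV x.2⟩ ⟨w, hw⟩)
    have hc : ∀ x ∈ s, κ ⟨(x : G), hXV x.2⟩ ⟨w, hw⟩ = (⟨w, hw⟩ : ↥V) := by
      intro x hx
      apply Subtype.ext
      rw [hκ]
      show (x : G) * w * (x : G)⁻¹ = w
      rw [h1 x x.2 ((hs x).mp hx), mul_inv_cancel_right]
    rw [Finset.prod_congr rfl hc, Finset.prod_const, hcard] at hsplit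
    have hB := Subgroup.prod_mem (U.subgroupOf V) (t := sᶜ)
      (f := fun x : ↥Xb => κ ⟨(x : G), hXV x.2⟩ ⟨w, hw⟩) (fun x hx => by
        rw [Subgroup.mem_subgroupOf, hκ]
        exact h2 x x.2 (fun h => Finset.mem_compl.mp hx ((hs x).mpr h)))
    refine ⟨_, Subgroup.mem_subgroupOf.mp hB, ?_⟩
    have e : T₀ ⟨w, hw⟩ = (⟨w, hw⟩ : ↥V) ^ Nat.card ↥(St.subgroupOf Xb) *
        ∏ x ∈ sᶜ, κ ⟨(x : G), hXV x.2⟩ ⟨w, hw⟩ := (hT₀ _).trans hsplit.symm
    rw [hT w hw, e]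
    rfl

/-- the diagonal plane: a plane `W ≤ V` of order `p ^ 2` centralized by `Xb` on which the fixed
points of `Xb` on `H` induce `SL₂(p)` -/
theorem planeW [Finite G] {p q : ℕ} [Fact p.Prime] [Fact q.Prime] {V H Xb D₀ : Subgroup G}
    (hh : Hyp p V H) (hq2 : q ≠ 2) (hq3 : q ≠ 3)
    (hXV : Xb ≤ Subgroup.normalizer (V : Set G)) (hXH : Xb ≤ Subgroup.normalizer (H : Set G))
    (hXq : ∀ x ∈ Xb, ∃ k : ℕ, x ^ q ^ k = 1)
    (hD₀def : D₀ = H ⊓ Subgroup.centralizer (Xb : Set G)) :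
    ∃ W : Subgroup G, W ≤ V ∧ Nat.card W = p ^ 2 ∧ (∀ w ∈ W, ∀ x ∈ Xb, x * w = w * x) ∧
      D₀ ≤ Subgroup.normalizer (W : Set G) ∧
      ∃ hn : ((Subgroup.centralizer (W : Set G)).subgroupOf D₀).Normal,
        Nonempty ((↥D₀ ⧸ (Subgroup.centralizer (W : Set G)).subgroupOf D₀)
            ≃* Matrix.SpecialLinearGroup (Fin 2) (ZMod p)) := by
  classical
  have hp : p.Prime := Fact.out
  have hq : q.Prime := Fact.out
  have hp23 := hyp_p23 hh
  have hqp : q ≠ p := by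
    rintro rfl
    rcases hp23 with h | h
    · exact hq2 h
    · exact hq3 h
  have hD₀ : ∀ c, c ∈ D₀ ↔ c ∈ H ∧ c ∈ Subgroup.centralizer (Xb : Set G) := by
    intro c
    rw [hD₀def]
    exact Subgroup.mem_inf
  obtain ⟨E, hE⟩ : ∃ E, Comp p V H E := by
    by_contra hno
    apply hh.2.2.2.2.2
    rw [← comp_sup hh, iSup_eq_bot]
    rintro ⟨E, hE⟩
    exact absurd ⟨E, hE⟩ hno
  have hdata := comp_data hh hE
  have hEH := comp_le hh hE
  have hHV : H ≤ Subgroup.normalizer (V : Set G) := hh.2.1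
  have hHE := comp_norm hh hE
  have hcomm := comp_comm hh hE
  obtain ⟨φ⟩ := hdata.1
  obtain ⟨D₁, hD₁def⟩ : ∃ D₁ : Subgroup G,
      D₁ = H ⊓ Subgroup.centralizer ((⁅V, E⁆ : Subgroup G) : Set G) := ⟨_, rfl⟩
  obtain ⟨W₁, hW₁def⟩ : ∃ W₁ : Subgroup G, W₁ = ⁅V, E⁆ := ⟨_, rfl⟩
  obtain ⟨U, hUdef⟩ : ∃ U : Subgroup G, U = V ⊓ Subgroup.centralizer (E : Set G) := ⟨_, rfl⟩
  rw [← hD₁def] at hcomm
  rw [← hD₁def, ← hW₁def, ← hUdef] at hdata
  have hW₁card : Nat.card W₁ = p ^ 2 := hdata.2.1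
  have hWU : W₁ ⊓ U = ⊥ := hdata.2.2.1
  have hW₁V : W₁ ≤ V := le_sup_left.trans (le_of_eq hdata.2.2.2.1)
  have hED : E ⊓ D₁ = ⊥ := hdata.2.2.2.2.2.1
  have hEDs : E ⊔ D₁ = H := hdata.2.2.2.2.2.2.1
  have hVD : ⁅V, D₁⁆ ≤ U := hdata.2.2.2.2.2.2.2
  have hVp : ∀ a ∈ V, a ^ p = 1 := hh.1.2
  have hstab : ∀ x ∈ Xb, x ∈ Subgroup.normalizer (E : Set G) → ∀ w ∈ W₁, x * w = w * x := by
    intro x hx hxE w hw
    rw [hW₁def] at hw
    exact stab_centW hh hq2 hq3 hE (hXV hx) (hXq x hx) (c_eq_of_norm hxE) w hw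
  have hoff : ∀ x ∈ Xb, x ∉ Subgroup.normalizer (E : Set G) → ∀ w ∈ W₁, x * w * x⁻¹ ∈ U := by
    intro x hx hxE w hw
    have hE' : Comp p V H (MulAut.conj x • E) := comp_conj (hXV hx) (hXH hx) hE
    have hne : MulAut.conj x • E ≠ E := fun h => hxE (mem_normalizer_iff_conj_smul_eq.mpr h)
    have h1 : MulAut.conj x • E ≤ D₁ := by rw [hD₁def]; exact comp_cross hh hE hE' hne
    have h2 : ⁅V, MulAut.conj x • E⁆ ≤ U := (Subgroup.commutator_mono le_rfl h1).trans hVD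
    have h3 : x * w * x⁻¹ ∈ MulAut.conj x • W₁ := conj_mem_conj_smul hw
    rw [hW₁def, c_comm, c_eq_of_norm (hXV hx)] at h3
    exact h2 h3
  have hXbp : IsPGroup q ↥Xb := by
    intro x
    obtain ⟨k, hk⟩ := hXq x x.2
    exact ⟨k, Subtype.ext (by rw [Subgroup.coe_pow]; exact hk)⟩
  obtain ⟨m, hmdef⟩ : ∃ m : ℕ,
      m = Nat.card ↥((Subgroup.normalizer (E : Set G)).subgroupOf Xb) := ⟨_, rfl⟩
  have hmcop : Nat.Coprime m p := by
    obtain ⟨n, hn⟩ :=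
      (hXbp.to_subgroup ((Subgroup.normalizer (E : Set G)).subgroupOf Xb)).exists_card_eq
    rw [hmdef, hn]
    exact Nat.Coprime.pow_left n ((Nat.coprime_primes hq hp).mpr hqp)
  obtain ⟨T, hTV, hTmul, hTfix, hTeq, hTsplit⟩ := trace_exists hh.1.1 hXV
  have hT1 : T 1 = 1 := by
    have h1 := hTmul 1 V.one_mem 1 V.one_mem
    rw [mul_one] at h1
    have h2 : T 1 * T 1 = T 1 * 1 := by rw [mul_one]; exact h1.symm
    exact mul_left_cancel h2
  have hTw : ∀ w ∈ W₁, ∃ u ∈ U, T w = w ^ m * u := by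
    intro w hw
    rw [hmdef]
    exact hTsplit (Subgroup.normalizer (E : Set G)) U w (hW₁V hw)
      (fun x hx hxE => hstab x hx hxE w hw) (fun x hx hxE => hoff x hx hxE w hw)
  have hTinj : ∀ w ∈ W₁, T w = 1 → w = 1 := by
    intro w hw h1
    obtain ⟨u, hu, hTu⟩ := hTw w hw
    rw [h1] at hTu
    have hwm : w ^ m = u⁻¹ := eq_inv_of_mul_eq_one_left hTu.symm
    have hmem : w ^ m ∈ W₁ ⊓ U :=
      Subgroup.mem_inf.mpr ⟨W₁.pow_mem hw m, by rw [hwm]; exact U.inv_mem hu⟩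
    rw [hWU] at hmem
    have hwm1 : w ^ m = 1 := Subgroup.mem_bot.mp hmem
    have hwp : w ^ p = 1 := hVp w (hW₁V hw)
    have h2 := pow_gcd_eq_one.mpr ⟨hwm1, hwp⟩
    rw [Nat.Coprime.gcd_eq_one hmcop, pow_one] at h2
    exact h2
  have hTinj' : ∀ a ∈ W₁, ∀ b ∈ W₁, T a = T b → a = b := by
    intro a ha b hb hab
    have hc : a⁻¹ * b ∈ W₁ := W₁.mul_mem (W₁.inv_mem ha) hb
    have h1 := hTmul a (hW₁V ha) (a⁻¹ * b) (hW₁V hc)
    rw [mul_inv_cancel_left, hab] at h1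
    have h2 : T (a⁻¹ * b) = 1 := by
      have h3 : T b * T (a⁻¹ * b) = T b * 1 := by rw [mul_one]; exact h1.symm
      exact mul_left_cancel h3
    have h4 := hTinj _ hc h2
    calc a = a * (a⁻¹ * b) := by rw [h4, mul_one]
      _ = b := mul_inv_cancel_left a b
  obtain ⟨W, hWdef⟩ : ∃ W : Subgroup G, ∀ g, g ∈ W ↔ ∃ w ∈ W₁, T w = g := by
    refine ⟨{ carrier := {g | ∃ w ∈ W₁, T w = g}
              mul_mem' := ?_
              one_mem' := ⟨1, W₁.one_mem, hT1⟩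
              inv_mem' := ?_ }, fun g => Iff.rfl⟩
    · rintro _ _ ⟨a, ha, rfl⟩ ⟨b, hb, rfl⟩
      exact ⟨a * b, W₁.mul_mem ha hb, hTmul a (hW₁V ha) b (hW₁V hb)⟩
    · rintro _ ⟨a, ha, rfl⟩
      refine ⟨a⁻¹, W₁.inv_mem ha, ?_⟩
      have h1 := hTmul a (hW₁V ha) a⁻¹ (V.inv_mem (hW₁V ha))
      rw [mul_inv_cancel, hT1] at h1
      exact eq_inv_of_mul_eq_one_right h1.symm
  have hWcard : Nat.card W = p ^ 2 := by
    rw [← hW₁card]
    symm
    apply Nat.card_congr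
    exact Equiv.ofBijective (fun w : ↥W₁ => (⟨T w, (hWdef _).mpr ⟨w, w.2, rfl⟩⟩ : ↥W))
      ⟨fun a b hab => Subtype.ext (hTinj' a a.2 b b.2 (congrArg Subtype.val hab)),
       fun g => by
         obtain ⟨w, hw, hwg⟩ := (hWdef _).mp g.2
         exact ⟨⟨w, hw⟩, Subtype.ext hwg⟩⟩
  have hWV : W ≤ V := by
    intro g hg
    obtain ⟨w, hw, rfl⟩ := (hWdef g).mp hg
    exact hTV w (hW₁V hw)
  have hWfix : ∀ w ∈ W, ∀ x ∈ Xb, x * w = w * x := by
    intro g hg x hx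
    obtain ⟨w, hw, rfl⟩ := (hWdef g).mp hg
    exact mul_inv_eq_iff_eq_mul.mp (hTfix w (hW₁V hw) x hx)
  have hcW₁ : ∀ c ∈ H, ∀ w ∈ W₁, c * w * c⁻¹ ∈ W₁ := by
    intro c hc w hw
    have h1 : MulAut.conj c • W₁ = W₁ := by
      rw [hW₁def, c_comm, c_eq_of_norm (hHV hc), c_eq_of_norm (hHE hc)]
    have h2 : c * w * c⁻¹ ∈ MulAut.conj c • W₁ := conj_mem_conj_smul hw
    rw [h1] at h2
    exact h2
  have hD₀W : D₀ ≤ Subgroup.normalizer (W : Set G) := by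
    intro c hc
    obtain ⟨hcH, hcX⟩ := (hD₀ c).mp hc
    rw [mem_normalizer_iff_conj_smul_eq]
    apply conj_smul_eq_of_le
    intro z hz
    rw [mem_conj_smul] at hz
    obtain ⟨w, hw, hwz⟩ := (hWdef _).mp hz
    have h1 := hTeq c (hHV hcH) (fun x hx => Subgroup.mem_centralizer_iff.mp hcX x hx) w
      (hW₁V hw)
    rw [hWdef]
    refine ⟨c * w * c⁻¹, hcW₁ c hcH w hw, ?_⟩
    rw [← h1, hwz]
    group
  have hsplitH : ∀ c ∈ H, ∃ e ∈ E, e⁻¹ * c ∈ D₁ := by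
    intro c hc
    rw [← hEDs] at hc
    obtain ⟨e, he, d, hd, rfl⟩ := Cfsg.Agent.S0617.mem_sup_of_comm hcomm hc
    exact ⟨e, he, by rw [inv_mul_cancel_left]; exact hd⟩
  have huniq : ∀ c e e' : G, e ∈ E → e' ∈ E → e⁻¹ * c ∈ D₁ → e'⁻¹ * c ∈ D₁ → e = e' := by
    intro c e e' he he' h1 h2
    have h3 : e⁻¹ * e' ∈ E ⊓ D₁ := by
      refine Subgroup.mem_inf.mpr ⟨E.mul_mem (E.inv_mem he) he', ?_⟩
      have e1 : e⁻¹ * e' = (e⁻¹ * c) * (e'⁻¹ * c)⁻¹ := by group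
      rw [e1]
      exact D₁.mul_mem h1 (D₁.inv_mem h2)
    rw [hED] at h3
    have h4 := Subgroup.mem_bot.mp h3
    calc e = e * (e⁻¹ * e') := by rw [h4, mul_one]
      _ = e' := mul_inv_cancel_left e e'
  have hex : ∀ c : ↥D₀, ∃ e : ↥E, (e : G)⁻¹ * (c : G) ∈ D₁ := by
    intro c
    obtain ⟨e, he, h⟩ := hsplitH c ((hD₀ _).mp c.2).1
    exact ⟨⟨e, he⟩, h⟩
  choose f hf using hex
  have hfuniq : ∀ (c : ↥D₀) (e : ↥E), (e : G)⁻¹ * (c : G) ∈ D₁ → f c = e :=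
    fun c e h => Subtype.ext (huniq c _ _ (f c).2 e.2 (hf c) h)
  obtain ⟨Ψ, hΨ⟩ : ∃ Ψ : ↥D₀ →* ↥E, ∀ c, Ψ c = f c := by
    refine ⟨MonoidHom.mk' f ?_, fun _ => rfl⟩
    intro a b
    apply hfuniq
    have h1 := hf a
    have h2 := hf b
    have hcm : ((f b : ↥E) : G)⁻¹ * (((f a : ↥E) : G)⁻¹ * (a : G)) =
        (((f a : ↥E) : G)⁻¹ * (a : G)) * ((f b : ↥E) : G)⁻¹ :=
      hcomm _ (E.inv_mem (f b).2) _ h1
    have e1 : (((f a * f b : ↥E) : ↥E) : G)⁻¹ * ((a * b : ↥D₀) : G) =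
        (((f a : ↥E) : G)⁻¹ * (a : G)) * (((f b : ↥E) : G)⁻¹ * (b : G)) := by
      show (((f a : ↥E) : G) * ((f b : ↥E) : G))⁻¹ * ((a : G) * (b : G)) = _
      calc (((f a : ↥E) : G) * ((f b : ↥E) : G))⁻¹ * ((a : G) * (b : G))
          = (((f b : ↥E) : G)⁻¹ * (((f a : ↥E) : G)⁻¹ * (a : G))) * (b : G) := by group
        _ = ((((f a : ↥E) : G)⁻¹ * (a : G)) * ((f b : ↥E) : G)⁻¹) * (b : G) := by rw [hcm]
        _ = (((f a : ↥E) : G)⁻¹ * (a : G)) * (((f b : ↥E) : G)⁻¹ * (b : G)) := by group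
    rw [e1]
    exact D₁.mul_mem h1 h2
  have hΨsurj : Function.Surjective Ψ := by
    intro e
    obtain ⟨c, hcH, hcX, hcd⟩ := diag hh hq2 hq3 hXV hXH hXq hE e.2
    rw [← hD₁def] at hcd
    have hcD₀ : c ∈ D₀ :=
      (hD₀ c).mpr ⟨hcH, Subgroup.mem_centralizer_iff.mpr (fun x hx => hcX x hx)⟩
    exact ⟨⟨c, hcD₀⟩, by rw [hΨ]; exact hfuniq _ e hcd⟩
  have hker : (Subgroup.centralizer (W : Set G)).subgroupOf D₀ = Ψ.ker := by
    ext c
    rw [Subgroup.mem_subgroupOf, MonoidHom.mem_ker, hΨ]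
    have hcH : (c : G) ∈ H := ((hD₀ _).mp c.2).1
    have hcX : ∀ x ∈ Xb, x * (c : G) = (c : G) * x := fun x hx =>
      Subgroup.mem_centralizer_iff.mp ((hD₀ _).mp c.2).2 x hx
    have hTc := hTeq (c : G) (hHV hcH) hcX
    constructor
    · intro hcW
      apply hfuniq
      show ((1 : ↥E) : G)⁻¹ * (c : G) ∈ D₁
      rw [Subgroup.coe_one, inv_one, one_mul, hD₁def]
      refine Subgroup.mem_inf.mpr ⟨hcH, ?_⟩
      rw [← hW₁def, Subgroup.mem_centralizer_iff]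
      intro w hw
      have h1 := hTc w (hW₁V hw)
      have h2 : T w * (c : G) = (c : G) * T w :=
        Subgroup.mem_centralizer_iff.mp hcW (T w) ((hWdef _).mpr ⟨w, hw, rfl⟩)
      have h3 : T ((c : G) * w * (c : G)⁻¹) = T w := by
        rw [← h1, ← h2, mul_inv_cancel_right]
      have h4 := hTinj' _ (hcW₁ c hcH w hw) w hw h3
      calc w * (c : G) = ((c : G) * w * (c : G)⁻¹) * c := by rw [h4]
        _ = (c : G) * w := by group
    · intro hfc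
      have h1 := hf c
      rw [hfc, Subgroup.coe_one, inv_one, one_mul, hD₁def] at h1
      have hcC := (Subgroup.mem_inf.mp h1).2
      rw [← hW₁def] at hcC
      rw [Subgroup.mem_centralizer_iff]
      intro z hz
      obtain ⟨w, hw, rfl⟩ := (hWdef _).mp hz
      have h2 : w * (c : G) = (c : G) * w := Subgroup.mem_centralizer_iff.mp hcC w hw
      have h3 : (c : G) * w * (c : G)⁻¹ = w := by rw [← h2, mul_inv_cancel_right]
      have h4 := hTc w (hW₁V hw)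
      rw [h3] at h4
      exact (mul_inv_eq_iff_eq_mul.mp h4).symm
  refine ⟨W, hWV, hWcard, hWfix, hD₀W, ?_⟩
  have hn : ((Subgroup.centralizer (W : Set G)).subgroupOf D₀).Normal := by
    rw [hker]; exact Ψ.normal_ker
  refine ⟨hn, ⟨?_⟩⟩
  exact (QuotientGroup.quotientMulEquivOfEq hker).trans
    ((QuotientGroup.quotientKerEquivOfSurjective Ψ hΨsurj).trans φ)

end Cfsg.Agent.Lib.Helper4.FFCore2
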