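import Mathlib
import Cfsg.Agent.Lib.Helper4.Conj
import Cfsg.Agent.Lib.Helper4.Card
import Cfsg.Agent.Lib.Helper9.Cores

set_option autoImplicit false
open Pointwise

namespace Cfsg.Agent.Lib.Helper4.KW

open Cfsg.Agent.Lib.Helper4

variable {G : Type*} [Group G]

/-- The Sylow `p`-subgroup of a (nilpotent) subgroup `A`, as a subgroup of `G`. -/
noncomputable def Syl (A : Subgroup G) (p : ℕ) : Subgroup G :=
  ((default : Sylow p A) : Subgroup A).map A.subtype

theorem Syl_le (A : Subgroup G) (p : ℕ) : Syl A p ≤ A := by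
  unfold Syl
  rintro x ⟨y, -, rfl⟩
  exact y.2

theorem Syl_isPGroup (A : Subgroup G) (p : ℕ) : IsPGroup p (Syl A p) :=
  (default : Sylow p A).isPGroup'.map A.subtype

theorem subgroupOf_Syl (A : Subgroup G) (p : ℕ) :
    (Syl A p).subgroupOf A = ((default : Sylow p A) : Subgroup A) :=
  Subgroup.comap_map_eq_self_of_injective A.subtype_injective _

theorem sylow_normal [Finite G] {A : Subgroup G} (hA : Group.IsNilpotent A) {p : ℕ} (hp : p.Prime)
    (P : Sylow p A) : (P : Subgroup A).Normal := by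
  haveI := hA
  haveI : Fact p.Prime := ⟨hp⟩
  exact Sylow.normal_of_normalizerCondition Group.normalizerCondition_of_isNilpotent P

theorem sylow_eq_default [Finite G] {A : Subgroup G} (hA : Group.IsNilpotent A) {p : ℕ}
    (hp : p.Prime) (P : Sylow p A) : P = default := by
  haveI : Fact p.Prime := ⟨hp⟩
  haveI := Sylow.unique_of_normal P (sylow_normal hA hp P)
  exact Subsingleton.elim _ _

theorem map_sylow_eq_Syl [Finite G] {A : Subgroup G} (hA : Group.IsNilpotent A) {p : ℕ}
    (hp : p.Prime) (P : Sylow p A) : (P : Subgroup A).map A.subtype = Syl A p := by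
  rw [sylow_eq_default hA hp P]; rfl

theorem Syl_normal [Finite G] {A : Subgroup G} (hA : Group.IsNilpotent A) {p : ℕ} (hp : p.Prime) :
    A ≤ Subgroup.normalizer ((Syl A p : Subgroup G) : Set G) := by
  rw [← Subgroup.normal_subgroupOf_iff_le_normalizer (Syl_le A p), subgroupOf_Syl]
  exact sylow_normal hA hp _

theorem le_Syl [Finite G] {A : Subgroup G} (hA : Group.IsNilpotent A) {p : ℕ} (hp : p.Prime)
    {K : Subgroup G} (hK : K ≤ A) (hKp : IsPGroup p K) : K ≤ Syl A p := by
  haveI : Fact p.Prime := ⟨hp⟩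
  obtain ⟨Q, hQ⟩ := (hKp.comap_subtype (K := A)).exists_le_sylow
  rw [sylow_eq_default hA hp Q] at hQ
  intro x hx
  unfold Syl
  exact Subgroup.mem_map.2 ⟨⟨x, hK hx⟩, hQ (Subgroup.mem_comap.2 hx), rfl⟩

theorem mem_Syl [Finite G] {A : Subgroup G} (hA : Group.IsNilpotent A) {p : ℕ} (hp : p.Prime)
    {x : G} (hx : x ∈ A) {k : ℕ} (hk : orderOf x = p ^ k) : x ∈ Syl A p := by
  have h1 : IsPGroup p (Subgroup.zpowers x) :=
    IsPGroup.of_card (n := k) (by rw [Nat.card_zpowers, hk])
  exact le_Syl hA hp (by rw [Subgroup.zpowers_le]; exact hx) h1 (Subgroup.mem_zpowers x)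

theorem card_Syl [Finite G] (A : Subgroup G) {p : ℕ} (hp : p.Prime) :
    Nat.card (Syl A p) = p ^ (Nat.card A).factorization p := by
  haveI : Fact p.Prime := ⟨hp⟩
  unfold Syl
  rw [Subgroup.card_map_of_injective A.subtype_injective]
  exact Sylow.card_eq_multiplicity _

theorem Syl_ne_bot [Finite G] (A : Subgroup G) {p : ℕ} (hp : p.Prime) (h : p ∣ Nat.card A) :
    Syl A p ≠ ⊥ := by
  intro h0
  have h1 := card_Syl A hp
  rw [h0, Subgroup.card_bot] at h1
  have h2 : 0 < (Nat.card A).factorization p := hp.factorization_pos_of_dvd Nat.card_pos.ne' h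
  have h3 : 1 < p ^ (Nat.card A).factorization p := Nat.one_lt_pow h2.ne' hp.one_lt
  omega

theorem Syl_eq_bot [Finite G] (A : Subgroup G) {p : ℕ} (hp : p.Prime) (h : ¬ p ∣ Nat.card A) :
    Syl A p = ⊥ := by
  rw [← Subgroup.card_eq_one, card_Syl A hp, Nat.factorization_eq_zero_of_not_dvd h, pow_zero]

theorem dvd_card_Syl [Finite G] (A : Subgroup G) {p : ℕ} (hp : p.Prime) (h : p ∣ Nat.card A) :
    p ∣ Nat.card (Syl A p) := by
  rw [card_Syl A hp]
  exact dvd_pow_self p (hp.factorization_pos_of_dvd Nat.card_pos.ne' h).ne'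

theorem Syl_commute [Finite G] {A : Subgroup G} (hA : Group.IsNilpotent A) {p q : ℕ}
    (hp : p.Prime) (hq : q.Prime) (hne : p ≠ q) {x y : G} (hx : x ∈ Syl A p) (hy : y ∈ Syl A q) :
    x * y = y * x := by
  haveI : Fact p.Prime := ⟨hp⟩
  haveI : Fact q.Prime := ⟨hq⟩
  unfold Syl at hx hy
  obtain ⟨x', hx', rfl⟩ := hx
  obtain ⟨y', hy', rfl⟩ := hy
  have h := Subgroup.commute_of_normal_of_disjoint _ _ (sylow_normal hA hp default)
    (sylow_normal hA hq default)
    (IsPGroup.disjoint_of_ne p q hne _ _ (default : Sylow p A).isPGroup'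
      (default : Sylow q A).isPGroup') x' y' hx' hy'
  rw [← map_mul, ← map_mul, h.eq]

theorem inf_inf_Syl (A H : Subgroup G) (p : ℕ) : (A ⊓ H) ⊓ Syl A p = Syl A p ⊓ H := by
  rw [inf_comm, ← inf_assoc, inf_eq_left.2 (Syl_le A p)]

theorem card_inf_Syl [Finite G] {A : Subgroup G} (hA : Group.IsNilpotent A) {p : ℕ} (hp : p.Prime)
    {K : Subgroup G} (hK : K ≤ A) :
    Nat.card ↥(K ⊓ Syl A p) = p ^ (Nat.card K).factorization p := by
  haveI : Fact p.Prime := ⟨hp⟩
  obtain ⟨Q⟩ : Nonempty (Sylow p K) := inferInstance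
  have hQc : Nat.card ((Q : Subgroup K).map K.subtype) = p ^ (Nat.card K).factorization p := by
    rw [Subgroup.card_map_of_injective K.subtype_injective]; exact Sylow.card_eq_multiplicity Q
  have hQle : (Q : Subgroup K).map K.subtype ≤ K ⊓ Syl A p := by
    have h1 : (Q : Subgroup K).map K.subtype ≤ K := by
      rintro x ⟨y, -, rfl⟩; exact y.2
    exact le_inf h1 (le_Syl hA hp (h1.trans hK) (Q.isPGroup'.map K.subtype))
  have hp2 : IsPGroup p ↥(K ⊓ Syl A p) := (Syl_isPGroup A p).to_le inf_le_right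
  obtain ⟨j, hj⟩ := hp2.exists_card_eq
  have hK0 : Nat.card K ≠ 0 := Nat.card_pos.ne'
  have h1 : p ^ j ∣ Nat.card K := by rw [← hj]; exact Subgroup.card_dvd_of_le inf_le_left
  have h2 : j ≤ (Nat.card K).factorization p := (hp.pow_dvd_iff_le_factorization hK0).1 h1
  have h3 : p ^ (Nat.card K).factorization p ∣ p ^ j := by
    rw [← hj, ← hQc]; exact Subgroup.card_dvd_of_le hQle
  have h4 : (Nat.card K).factorization p ≤ j := (Nat.pow_dvd_pow_iff_le_right hp.one_lt).1 h3
  rw [hj, le_antisymm h2 h4]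

theorem le_of_Syl_le [Finite G] {A : Subgroup G} (hA : Group.IsNilpotent A) {K X : Subgroup G}
    (hK : K ≤ A) (h : ∀ p : ℕ, p.Prime → K ⊓ Syl A p ≤ X) : K ≤ X := by
  have hK0 : Nat.card K ≠ 0 := Nat.card_pos.ne'
  have hY0 : Nat.card ↥(K ⊓ X) ≠ 0 := Nat.card_pos.ne'
  have hdvd : Nat.card K ∣ Nat.card ↥(K ⊓ X) := by
    rw [← Nat.factorization_prime_le_iff_dvd hK0 hY0]
    intro p hp
    have h1 : p ^ (Nat.card K).factorization p ∣ Nat.card ↥(K ⊓ X) := by
      rw [← card_inf_Syl hA hp hK]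
      exact Subgroup.card_dvd_of_le (le_inf inf_le_left (h p hp))
    exact (hp.pow_dvd_iff_le_factorization hY0).1 h1
  have heq : K ⊓ X = K :=
    Subgroup.eq_of_le_of_card_ge inf_le_left (Nat.le_of_dvd (Nat.pos_of_ne_zero hY0) hdvd)
  intro x hx
  have h2 : x ∈ K ⊓ X := by rw [heq]; exact hx
  exact h2.2

theorem mem_cent {x y : G} : x ∈ Subgroup.centralizer ({y} : Set G) ↔ y * x = x * y := by
  rw [Subgroup.mem_centralizer_iff]
  constructor
  · intro h; exact h y (Set.mem_singleton y)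
  · intro h w hw; rw [Set.mem_singleton_iff] at hw; rw [hw]; exact h

theorem exists_central [Finite G] {A : Subgroup G} (hA : Group.IsNilpotent A) {p : ℕ}
    (hp : p.Prime) (hpA : p ∣ Nat.card A) :
    ∃ z ∈ Syl A p, z ≠ 1 ∧ ∀ a ∈ A, a * z = z * a := by
  haveI : Fact p.Prime := ⟨hp⟩
  have hcard := card_Syl A hp
  haveI hne : Nontrivial ↥(Syl A p) := by
    rw [← Finite.one_lt_card_iff_nontrivial, hcard]
    have h2 : 0 < (Nat.card A).factorization p := hp.factorization_pos_of_dvd Nat.card_pos.ne' hpA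
    exact Nat.one_lt_pow h2.ne' hp.one_lt
  haveI := (Syl_isPGroup A p).center_nontrivial
  obtain ⟨z, hz⟩ := exists_ne (1 : Subgroup.center ↥(Syl A p))
  refine ⟨((z : ↥(Syl A p)) : G), (z : ↥(Syl A p)).2, ?_, ?_⟩
  · intro h; exact hz (Subtype.ext (Subtype.ext h))
  · have hcen : A ≤ Subgroup.centralizer {((z : ↥(Syl A p)) : G)} := by
      apply le_of_Syl_le hA le_rfl
      intro q hq x hx
      rw [mem_cent]
      rcases eq_or_ne q p with hqp | hqp
      · rw [hqp] at hx
        have h1 := Subgroup.mem_center_iff.1 z.2 ⟨x, hx.2⟩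
        exact (congrArg Subtype.val h1).symm
      · exact Syl_commute hA hp hq (Ne.symm hqp) (z : ↥(Syl A p)).2 hx.2
    intro a ha
    exact (mem_cent.1 (hcen ha)).symm

theorem not_dvd_of_coprime {p a b : ℕ} (hp : p.Prime) (hab : a.Coprime b) (ha : p ∣ a) :
    ¬ p ∣ b := by
  intro hb
  have h := Nat.dvd_gcd ha hb
  rw [Nat.Coprime.gcd_eq_one hab] at h
  exact hp.not_dvd_one h

theorem coprime_of_dvd {a b a' b' : ℕ} (h : a.Coprime b) (ha : a' ∣ a) (hb : b' ∣ b) :
    a'.Coprime b' :=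
  Nat.Coprime.coprime_dvd_left ha (Nat.Coprime.coprime_dvd_right hb h)

theorem hall_arith {p a b i : ℕ} (hp : p.Prime) (hab : a.Coprime b) (ha : a ≠ 0)
    (h : p ^ a.factorization p * i = a * b) : (p ^ a.factorization p).Coprime i := by
  rcases Nat.eq_zero_or_pos (a.factorization p) with h0 | h0
  · rw [h0, pow_zero]; exact Nat.coprime_one_left _
  · have hpa : p ∣ a := Nat.dvd_of_factorization_pos h0.ne'
    have hpb : ¬ p ∣ b := not_dvd_of_coprime hp hab hpa
    apply Nat.Coprime.pow_left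
    rw [hp.coprime_iff_not_dvd]
    intro hpi
    have hm := Nat.ordProj_mul_ordCompl_eq_self a p
    have hpm : ¬ p ∣ a / p ^ a.factorization p := Nat.not_dvd_ordCompl hp ha
    have h2 : i = (a / p ^ a.factorization p) * b := by
      have hpos : 0 < p ^ a.factorization p := pow_pos hp.pos _
      apply Nat.eq_of_mul_eq_mul_left hpos
      rw [h, ← mul_assoc, hm]
    rw [h2] at hpi
    rcases (hp.dvd_mul).1 hpi with h3 | h3
    · exact hpm h3
    · exact hpb h3

theorem orderOf_dvd_card_of_mem {A : Subgroup G} {x : G} (hx : x ∈ A) : orderOf x ∣ Nat.card A := by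
  have h := orderOf_dvd_natCard (⟨x, hx⟩ : A)
  rwa [Subgroup.orderOf_mk] at h

theorem conj_smul_mul_set (a : G) {S P Q : Subgroup G}
    (h : (S : Set G) = (P : Set G) * (Q : Set G)) :
    ((MulAut.conj a • S : Subgroup G) : Set G) =
      ((MulAut.conj a • P : Subgroup G) : Set G) * ((MulAut.conj a • Q : Subgroup G) : Set G) := by
  ext x
  constructor
  · intro hx
    have h1 : a⁻¹ * x * a ∈ (S : Set G) := Conj.mem_conj_smul.1 (SetLike.mem_coe.1 hx)
    rw [h] at h1
    obtain ⟨u, hu, v, hv, huv⟩ := h1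
    refine Set.mem_mul.2 ⟨a * u * a⁻¹, Conj.conj_mem_conj_smul hu, a * v * a⁻¹,
      Conj.conj_mem_conj_smul hv, ?_⟩
    have huv' : u * v = a⁻¹ * x * a := huv
    have e : a * u * a⁻¹ * (a * v * a⁻¹) = a * (u * v) * a⁻¹ := by group
    rw [e, huv']; group
  · rintro ⟨u, hu, v, hv, rfl⟩
    have hu' : a⁻¹ * u * a ∈ P := Conj.mem_conj_smul.1 (SetLike.mem_coe.1 hu)
    have hv' : a⁻¹ * v * a ∈ Q := Conj.mem_conj_smul.1 (SetLike.mem_coe.1 hv)
    apply SetLike.mem_coe.2
    apply Conj.mem_conj_smul.2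
    have e : a⁻¹ * (u * v) * a = (a⁻¹ * u * a) * (a⁻¹ * v * a) := by group
    rw [e]
    have h2 : (a⁻¹ * u * a) * (a⁻¹ * v * a) ∈ (P : Set G) * (Q : Set G) := Set.mul_mem_mul hu' hv'
    rw [← h] at h2; exact h2

theorem conj_isPGroup {p : ℕ} {H : Subgroup G} (hH : IsPGroup p H) (g : G) :
    IsPGroup p ↥(MulAut.conj g • H) := by
  rw [Conj.conj_smul_eq_map]; exact hH.map _

theorem normalizer_conj_mem {H : Subgroup G} {g x : G}
    (hg : g ∈ Subgroup.normalizer (H : Set G)) (hx : x ∈ H) : g * x * g⁻¹ ∈ H :=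
  (Subgroup.mem_normalizer_iff.1 hg x).1 hx

theorem normalizer_conj_mem' {H : Subgroup G} {g x : G}
    (hg : g ∈ Subgroup.normalizer (H : Set G)) (hx : x ∈ H) : g⁻¹ * x * g ∈ H := by
  have h := (Subgroup.mem_normalizer_iff.1 (inv_mem hg) x).1 hx
  rwa [inv_inv] at h

theorem centralizer_singleton_le_normalizer_zpowers (u : G) :
    Subgroup.centralizer {u} ≤ Subgroup.normalizer ((Subgroup.zpowers u : Subgroup G) : Set G) := by
  intro x hx
  have hc : Commute u x := mem_cent.1 hx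
  apply Subgroup.centralizer_le_normalizer
  rw [Subgroup.mem_centralizer_iff]
  intro w hw
  obtain ⟨k, rfl⟩ := Subgroup.mem_zpowers_iff.1 (SetLike.mem_coe.1 hw)
  exact (hc.zpow_left k).eq

theorem nilpotent_of_inj {G' G'' : Type*} [Group G'] [Group G''] (f : G' →* G'')
    (hf : Function.Injective f) (h : Group.IsNilpotent G'') : Group.IsNilpotent G' := by
  haveI := h
  exact Group.nilpotent_of_mulEquiv (MonoidHom.ofInjective hf).symm

theorem nilpotent_subgroupOf {A : Subgroup G} (hA : Group.IsNilpotent A) (H : Subgroup G) :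
    Group.IsNilpotent (A.subgroupOf H) :=
  nilpotent_of_inj ((H.subtype.comp (A.subgroupOf H).subtype).codRestrict A (fun x => x.2))
    (fun x y h => Subtype.ext (Subtype.ext (by
      have h2 := congrArg (fun z : A => (z : G)) h
      exact h2))) hA

theorem normal_subgroupOf_subgroupOf {P A : Subgroup G} (hPA : P ≤ A)
    (hn : A ≤ Subgroup.normalizer (P : Set G)) (H : Subgroup G) :
    ((P.subgroupOf H).subgroupOf (A.subgroupOf H)).Normal := by
  have hle : P.subgroupOf H ≤ A.subgroupOf H := fun x hx => hPA (Subgroup.mem_subgroupOf.1 hx)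
  rw [Subgroup.normal_subgroupOf_iff_le_normalizer hle]
  intro x hx
  rw [Subgroup.mem_normalizer_iff]
  intro y
  exact Subgroup.mem_normalizer_iff.1 (hn (Subgroup.mem_subgroupOf.1 hx)) (y : G)

theorem le_normalizer_map_subtype {H : Subgroup G} (X' : Subgroup H) (hX : X'.Normal) :
    H ≤ Subgroup.normalizer ((X'.map H.subtype : Subgroup G) : Set G) := by
  intro h hh
  apply Subgroup.le_normalizer_map H.subtype
  refine Subgroup.mem_map.2 ⟨⟨h, hh⟩, ?_, rfl⟩
  rw [Subgroup.normalizer_eq_top_iff.2 hX]; exact Subgroup.mem_top _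

theorem mem_normalizer_map_subtype_iff {H : Subgroup G} (T₁ : Subgroup H) (x : H) :
    x ∈ Subgroup.normalizer (T₁ : Set H) ↔
      (x : G) ∈ Subgroup.normalizer ((T₁.map H.subtype : Subgroup G) : Set G) := by
  constructor
  · intro hx
    exact Subgroup.le_normalizer_map H.subtype (Subgroup.mem_map.2 ⟨x, hx, rfl⟩)
  · intro hx
    rw [Subgroup.mem_normalizer_iff] at hx ⊢
    intro y
    have h := hx (y : G)
    have e1 : ∀ w : H, (w : G) ∈ T₁.map H.subtype ↔ w ∈ T₁ := fun w => by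
      constructor
      · rintro ⟨w', hw', hww⟩
        have hw2 : w' = w := Subtype.ext hww
        rw [← hw2]; exact hw'
      · intro hw; exact Subgroup.mem_map.2 ⟨w, hw, rfl⟩
    rw [← e1 y, ← e1 (x * y * x⁻¹)]
    exact h

theorem map_sylow_subgroupOf_eq [Finite G] {A : Subgroup G} (hA : Group.IsNilpotent A)
    (H : Subgroup G) {t : ℕ} (ht : t.Prime) [Fact t.Prime] (T : Sylow t (A.subgroupOf H)) :
    ((T : Subgroup (A.subgroupOf H)).map (A.subgroupOf H).subtype).map H.subtype = Syl A t ⊓ H := by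
  have h1 : ((T : Subgroup (A.subgroupOf H)).map (A.subgroupOf H).subtype).map H.subtype ≤ A ⊓ H := by
    rintro x ⟨y, ⟨w, -, rfl⟩, rfl⟩
    exact ⟨w.2, (w : H).2⟩
  have hTp : IsPGroup t
      ↥(((T : Subgroup (A.subgroupOf H)).map (A.subgroupOf H).subtype).map H.subtype) :=
    (T.isPGroup'.map _).map _
  have h2 : ((T : Subgroup (A.subgroupOf H)).map (A.subgroupOf H).subtype).map H.subtype ≤
      Syl A t ⊓ H :=
    le_inf (le_Syl hA ht (h1.trans inf_le_left) hTp) (h1.trans inf_le_right)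
  apply Subgroup.eq_of_le_of_card_ge h2
  rw [Subgroup.card_map_of_injective H.subtype_injective,
    Subgroup.card_map_of_injective (Subgroup.subtype_injective _), Sylow.card_eq_multiplicity,
    Card.card_subgroupOf_eq, ← inf_inf_Syl, card_inf_Syl hA ht inf_le_left]

theorem frattini_card [Finite G] {H X : Subgroup G} (hXH : X ≤ H)
    (hn : H ≤ Subgroup.normalizer (X : Set G)) {q : ℕ} (hq : q.Prime) :
    ∃ Q₀ : Subgroup G, IsPGroup q Q₀ ∧ Nat.card Q₀ = q ^ (Nat.card X).factorization q ∧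
      Nat.card H ∣ Nat.card X * Nat.card ↥(H ⊓ Subgroup.normalizer (Q₀ : Set G)) := by
  haveI : Fact q.Prime := ⟨hq⟩
  haveI hXn : (X.subgroupOf H).Normal := (Subgroup.normal_subgroupOf_iff_le_normalizer hXH).2 hn
  obtain ⟨P⟩ : Nonempty (Sylow q (X.subgroupOf H)) := inferInstance
  have hfr := Sylow.normalizer_sup_eq_top P
  obtain ⟨Q₁, hQ₁⟩ : ∃ Q₁ : Subgroup H,
      Q₁ = (P : Subgroup (X.subgroupOf H)).map (X.subgroupOf H).subtype := ⟨_, rfl⟩
  rw [← hQ₁] at hfr
  have hcX : Nat.card (X.subgroupOf H) = Nat.card X :=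
    Nat.card_congr (Subgroup.subgroupOfEquivOfLe hXH).toEquiv
  refine ⟨Q₁.map H.subtype, ?_, ?_, ?_⟩
  · rw [hQ₁]; exact (P.isPGroup'.map _).map _
  · rw [Subgroup.card_map_of_injective H.subtype_injective, hQ₁,
      Subgroup.card_map_of_injective (Subgroup.subtype_injective _), Sylow.card_eq_multiplicity, hcX]
  · have h1 := Cfsg.Agent.Lib.Helper9.card_sup_dvd (Subgroup.normalizer (Q₁ : Set H))
      (X.subgroupOf H)
    rw [hfr, Subgroup.card_top, hcX] at h1
    have h2 : Nat.card (Subgroup.normalizer (Q₁ : Set H)) ∣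
        Nat.card ↥(H ⊓ Subgroup.normalizer ((Q₁.map H.subtype : Subgroup G) : Set G)) := by
      rw [← Subgroup.card_map_of_injective H.subtype_injective]
      apply Subgroup.card_dvd_of_le
      apply le_inf
      · rintro x ⟨y, -, rfl⟩; exact y.2
      · exact Subgroup.le_normalizer_map H.subtype
    rw [mul_comm] at h1
    exact h1.trans (mul_dvd_mul_left _ h2)

theorem solvable_of_eq_top {N : Subgroup G} (h : Group.IsSolvable N) (hN : N = ⊤) :
    Group.IsSolvable G := by
  haveI := h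
  exact Group.isSolvable_of_surjective (f := N.subtype)
    (fun g => ⟨⟨g, hN ▸ Subgroup.mem_top g⟩, rfl⟩)

end Cfsg.Agent.Lib.Helper4.KW
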