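import Mathlib
import Cfsg.Agent.Lib.Helper4.KW1
import Cfsg.Agent.Lib.Helper1.CharGalois
import Cfsg.Agent.S0566
import Cfsg.Agent.S0562
import Cfsg.Agent.S0561
import Cfsg.Agent.S0559

set_option autoImplicit false
open Pointwise

namespace Cfsg.Agent.Lib.Helper4.KW

open Cfsg.Agent.Lib.Helper4

universe u

/-- A minimal counterexample to the coprime Kegel–Wielandt theorem. -/
structure MC (G : Type u) [Group G] [Finite G] where
  A : Subgroup G
  B : Subgroup G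
  nilA : Group.IsNilpotent A
  nilB : Group.IsNilpotent B
  cop : (Nat.card A).Coprime (Nat.card B)
  fact : ∀ g : G, ∃ a ∈ A, ∃ b ∈ B, g = a * b
  ih : ∀ (H : Type u) [Group H] [Finite H], Nat.card H < Nat.card G →
    ∀ A' B' : Subgroup H, Group.IsNilpotent A' → Group.IsNilpotent B' →
      (Nat.card A').Coprime (Nat.card B') → (∀ g : H, ∃ a ∈ A', ∃ b ∈ B', g = a * b) →
      Group.IsSolvable H
  ns : ¬ Group.IsSolvable G

variable {G : Type u} [Group G] [Finite G]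

def MC.swap (d : MC G) : MC G where
  A := d.B
  B := d.A
  nilA := d.nilB
  nilB := d.nilA
  cop := d.cop.symm
  fact := fun g => by
    obtain ⟨a, ha, b, hb, h⟩ := d.fact g⁻¹
    exact ⟨b⁻¹, inv_mem hb, a⁻¹, inv_mem ha, by rw [← mul_inv_rev, ← h, inv_inv]⟩
  ih := d.ih
  ns := d.ns

def MC.conjB (d : MC G) (k : G) : MC G where
  A := d.A
  B := MulAut.conj k • d.B
  nilA := d.nilA
  nilB := by
    haveI := d.nilB
    exact Group.nilpotent_of_mulEquiv (Subgroup.equivSMul (MulAut.conj k) d.B)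
  cop := by rw [Conj.card_conj_smul]; exact d.cop
  fact := (Cfsg.Agent.S0559.result d.A d.B d.A (MulAut.conj k • d.B) d.fact
    ⟨1, (Conj.conj_one_smul d.A).symm⟩ ⟨k, rfl⟩).1
  ih := d.ih
  ns := d.ns


theorem MC.inf_eq_bot (d : MC G) : d.A ⊓ d.B = ⊥ := by
  rw [← Subgroup.card_eq_one]
  have h1 : Nat.card ↥(d.A ⊓ d.B) ∣ Nat.card d.A := Subgroup.card_dvd_of_le inf_le_left
  have h2 : Nat.card ↥(d.A ⊓ d.B) ∣ Nat.card d.B := Subgroup.card_dvd_of_le inf_le_right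
  exact Nat.eq_one_of_dvd_coprimes d.cop h1 h2

theorem MC.mem_inf_eq_one (d : MC G) {x : G} (ha : x ∈ d.A) (hb : x ∈ d.B) : x = 1 := by
  have h : x ∈ d.A ⊓ d.B := ⟨ha, hb⟩
  rw [d.inf_eq_bot] at h
  exact Subgroup.mem_bot.1 h

theorem MC.card_eq (d : MC G) : Nat.card G = Nat.card d.A * Nat.card d.B := by
  have h := Card.card_mul_set d.A d.B
  rw [d.inf_eq_bot, Subgroup.card_bot, mul_one] at h
  rw [← h]
  have hset : ((d.A : Set G) * (d.B : Set G)) = Set.univ := by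
    ext g; simp only [Set.mem_univ, iff_true]
    obtain ⟨a, ha, b, hb, rfl⟩ := d.fact g
    exact Set.mul_mem_mul ha hb
  rw [hset]
  exact (Nat.card_congr (Equiv.Set.univ G)).symm

theorem MC.not_dvd_B (d : MC G) {p : ℕ} (hp : p.Prime) (h : p ∣ Nat.card d.A) : ¬ p ∣ Nat.card d.B :=
  not_dvd_of_coprime hp d.cop h

theorem MC.dvd_B_of (d : MC G) {q : ℕ} (hq : q.Prime) (h : q ∣ Nat.card G) (h' : ¬ q ∣ Nat.card d.A) :
    q ∣ Nat.card d.B := by
  rw [d.card_eq] at h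
  exact ((hq.dvd_mul).1 h).resolve_left h'

theorem MC.card_Syl_G (d : MC G) {p : ℕ} (hp : p.Prime) (h : ¬ p ∣ Nat.card d.B) :
    Nat.card (Syl d.A p) = p ^ (Nat.card G).factorization p := by
  rw [card_Syl d.A hp, d.card_eq, Nat.factorization_mul Nat.card_pos.ne' Nat.card_pos.ne',
    Finsupp.add_apply, Nat.factorization_eq_zero_of_not_dvd h, add_zero]

noncomputable def MC.sylG (d : MC G) {p : ℕ} [Fact p.Prime] (h : ¬ p ∣ Nat.card d.B) : Sylow p G :=
  Sylow.ofCard (Syl d.A p) (d.card_Syl_G Fact.out h)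

theorem MC.sylG_coe (d : MC G) {p : ℕ} [Fact p.Prime] (h : ¬ p ∣ Nat.card d.B) :
    ((d.sylG h : Sylow p G) : Subgroup G) = Syl d.A p :=
  Sylow.coe_ofCard _ _

theorem MC.exists_le_conj_Syl (d : MC G) {p : ℕ} (hp : p.Prime) (h : ¬ p ∣ Nat.card d.B) {T : Subgroup G}
    (hT : IsPGroup p T) : ∃ k : G, T ≤ MulAut.conj k • Syl d.A p := by
  haveI : Fact p.Prime := ⟨hp⟩
  obtain ⟨Q, hQ⟩ := hT.exists_le_sylow
  obtain ⟨k, hk⟩ := MulAction.exists_smul_eq G (d.sylG h) Q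
  refine ⟨k, ?_⟩
  have h1 : (Q : Subgroup G) = MulAut.conj k • Syl d.A p := by
    rw [← hk, Sylow.coe_subgroup_smul, d.sylG_coe]
  rw [← h1]; exact hQ

theorem MC.le_Syl_of_normalized (d : MC G) {p : ℕ} (hp : p.Prime) (hpB : ¬ p ∣ Nat.card d.B) {V : Subgroup G}
    (hV : IsPGroup p V) (hn : Syl d.A p ≤ Subgroup.normalizer (V : Set G)) : V ≤ Syl d.A p := by
  haveI : Fact p.Prime := ⟨hp⟩
  have h1 : IsPGroup p ↥(Syl d.A p ⊔ V) :=
    IsPGroup.to_sup_of_normal_right' (Syl_isPGroup _ _) hV hn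
  have h2 := (d.sylG hpB).is_maximal' h1 (by rw [d.sylG_coe]; exact le_sup_left)
  rw [d.sylG_coe] at h2
  calc V ≤ Syl d.A p ⊔ V := le_sup_right
    _ = Syl d.A p := h2

theorem MC.A_ne_top (d : MC G) : d.A ≠ ⊤ := fun h => d.ns (by
  haveI := d.nilA
  exact solvable_of_eq_top inferInstance h)

theorem MC.B_ne_top (d : MC G) : d.B ≠ ⊤ := d.swap.A_ne_top

theorem MC.A_ne_bot (d : MC G) : d.A ≠ ⊥ := fun h => d.B_ne_top (by
  rw [eq_top_iff]; intro g _
  obtain ⟨a, ha, b, hb, rfl⟩ := d.fact g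
  rw [h, Subgroup.mem_bot] at ha
  rw [ha, one_mul]; exact hb)

theorem MC.B_ne_bot (d : MC G) : d.B ≠ ⊥ := d.swap.A_ne_bot

theorem MC.exists_prime_A (d : MC G) : ∃ p : ℕ, p.Prime ∧ p ∣ Nat.card d.A :=
  Nat.exists_prime_and_dvd (fun h1 => d.A_ne_bot (Subgroup.card_eq_one.1 h1))

/-- `H` is factorized: `H = (A ∩ H)(B ∩ H)`. -/
def MC.Fac (d : MC G) (H : Subgroup G) : Prop :=
  ∀ h ∈ H, ∃ a ∈ d.A, ∃ b ∈ d.B, a ∈ H ∧ b ∈ H ∧ h = a * b

theorem MC.fac_of_le (d : MC G) {H : Subgroup G} (hH : d.A ≤ H) : d.Fac H := by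
  intro h hh
  obtain ⟨a, ha, b, hb, rfl⟩ := d.fact h
  refine ⟨a, ha, b, hb, hH ha, ?_, rfl⟩
  have h1 := H.mul_mem (H.inv_mem (hH ha)) hh
  rwa [inv_mul_cancel_left] at h1

theorem MC.fac_swap (d : MC G) {H : Subgroup G} (hF : d.Fac H) : d.swap.Fac H := by
  intro h hh
  obtain ⟨a, ha, b, hb, haH, hbH, e⟩ := hF h⁻¹ (inv_mem hh)
  refine ⟨b⁻¹, inv_mem hb, a⁻¹, inv_mem ha, inv_mem hbH, inv_mem haH, ?_⟩
  rw [← mul_inv_rev, ← e, inv_inv]

theorem MC.solvable_of_fac (d : MC G) {H : Subgroup G} (hF : d.Fac H) (hH : H ≠ ⊤) : Group.IsSolvable H := by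
  have hlt : Nat.card H < Nat.card G :=
    lt_of_le_of_ne (Subgroup.card_le_card_group H)
      (fun h => hH ((Subgroup.card_eq_iff_eq_top H).1 h))
  refine d.ih H hlt (d.A.subgroupOf H) (d.B.subgroupOf H) (nilpotent_subgroupOf d.nilA H)
    (nilpotent_subgroupOf d.nilB H) ?_ ?_
  · refine coprime_of_dvd d.cop ?_ ?_
    · rw [Card.card_subgroupOf_eq]; exact Subgroup.card_dvd_of_le inf_le_left
    · rw [Card.card_subgroupOf_eq]; exact Subgroup.card_dvd_of_le inf_le_left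
  · intro g
    obtain ⟨a, ha, b, hb, haH, hbH, h⟩ := hF g g.2
    exact ⟨⟨a, haH⟩, Subgroup.mem_subgroupOf.2 ha, ⟨b, hbH⟩, Subgroup.mem_subgroupOf.2 hb,
      Subtype.ext h⟩

theorem MC.card_fac (d : MC G) {H : Subgroup G} (hF : d.Fac H) :
    Nat.card H = Nat.card ↥(d.A ⊓ H) * Nat.card ↥(d.B ⊓ H) := by
  have h := Card.card_mul_set (d.A ⊓ H) (d.B ⊓ H)
  have hbot : (d.A ⊓ H) ⊓ (d.B ⊓ H) = ⊥ := by
    rw [eq_bot_iff]; intro x hx
    exact Subgroup.mem_bot.2 (d.mem_inf_eq_one hx.1.1 hx.2.1)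
  rw [hbot, Subgroup.card_bot, mul_one] at h
  have hset : (((d.A ⊓ H : Subgroup G) : Set G) * ((d.B ⊓ H : Subgroup G) : Set G)) =
      (H : Set G) := by
    ext x; constructor
    · rintro ⟨a, ha, b, hb, rfl⟩; exact H.mul_mem ha.2 hb.2
    · intro hx
      obtain ⟨a, ha, b, hb, haH, hbH, rfl⟩ := hF x hx
      exact Set.mul_mem_mul (show a ∈ d.A ⊓ H from ⟨ha, haH⟩) (show b ∈ d.B ⊓ H from ⟨hb, hbH⟩)
  rw [hset] at h
  exact h

theorem MC.hall_in (d : MC G) {H : Subgroup G} (hF : d.Fac H) {p : ℕ} (hp : p.Prime) :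
    (Nat.card ((Syl d.A p).subgroupOf H)).Coprime ((Syl d.A p).subgroupOf H).index := by
  have h1 : Nat.card ((Syl d.A p).subgroupOf H) = p ^ (Nat.card ↥(d.A ⊓ H)).factorization p := by
    rw [Card.card_subgroupOf_eq, ← inf_inf_Syl, card_inf_Syl d.nilA hp inf_le_left]
  have h2 := Subgroup.card_mul_index ((Syl d.A p).subgroupOf H)
  rw [h1, d.card_fac hF] at h2
  rw [h1]
  exact hall_arith hp (coprime_of_dvd d.cop (Subgroup.card_dvd_of_le inf_le_left)
    (Subgroup.card_dvd_of_le inf_le_left)) Nat.card_pos.ne' h2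

/-- relative permutability inside a proper factorized subgroup -/
theorem MC.perm_in (d : MC G) {H : Subgroup G} (hF : d.Fac H) (hH : H ≠ ⊤) {p q : ℕ} (hp : p.Prime)
    (hq : q.Prime) :
    ∃ S : Subgroup G, (S : Set G) =
      ((Syl d.A p ⊓ H : Subgroup G) : Set G) * ((Syl d.B q ⊓ H : Subgroup G) : Set G) := by
  haveI := d.solvable_of_fac hF hH
  have hfac : ∀ g : H, ∃ a ∈ d.A.subgroupOf H, ∃ b ∈ d.B.subgroupOf H, g = a * b := by
    intro g
    obtain ⟨a, ha, b, hb, haH, hbH, h⟩ := hF g g.2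
    exact ⟨⟨a, haH⟩, Subgroup.mem_subgroupOf.2 ha, ⟨b, hbH⟩, Subgroup.mem_subgroupOf.2 hb,
      Subtype.ext h⟩
  have hPA : (Syl d.A p).subgroupOf H ≤ d.A.subgroupOf H :=
    fun x hx => Syl_le d.A p (Subgroup.mem_subgroupOf.1 hx)
  have hQB : (Syl d.B q).subgroupOf H ≤ d.B.subgroupOf H :=
    fun x hx => Syl_le d.B q (Subgroup.mem_subgroupOf.1 hx)
  obtain ⟨S', hS'⟩ := Cfsg.Agent.S0561.result (d.A.subgroupOf H) (d.B.subgroupOf H)
    ((Syl d.A p).subgroupOf H) ((Syl d.B q).subgroupOf H) hfac hPA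
    (normal_subgroupOf_subgroupOf (Syl_le _ _) (Syl_normal d.nilA hp) H) hQB
    (normal_subgroupOf_subgroupOf (Syl_le _ _) (Syl_normal d.nilB hq) H)
    (d.hall_in hF hp) (d.swap.hall_in (d.fac_swap hF) hq) 1 1
  rw [Conj.conj_one_smul, Conj.conj_one_smul] at hS'
  refine ⟨S'.map H.subtype, ?_⟩
  rw [Subgroup.coe_map, hS', Set.image_mul, ← Subgroup.coe_map, ← Subgroup.coe_map,
    Subgroup.subgroupOf_map_subtype, Subgroup.subgroupOf_map_subtype]

theorem MC.fac_of_normal (d : MC G) {N : Subgroup G} (hN : N.Normal) : d.Fac N := by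
  intro n hn
  obtain ⟨a, ha, b, hb, rfl⟩ := d.fact n
  haveI := hN
  have h1 : ((a : G) : G ⧸ N) = ((b⁻¹ : G) : G ⧸ N) := by
    rw [QuotientGroup.eq, ← mul_inv_rev]
    exact N.inv_mem (hN.mem_comm hn)
  have h2 : orderOf ((a : G) : G ⧸ N) ∣ Nat.card d.A :=
    (orderOf_map_dvd (QuotientGroup.mk' N) a).trans (orderOf_dvd_card_of_mem ha)
  have h3 : orderOf ((a : G) : G ⧸ N) ∣ Nat.card d.B := by
    rw [h1]
    exact (orderOf_map_dvd (QuotientGroup.mk' N) b⁻¹).trans (orderOf_dvd_card_of_mem (inv_mem hb))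
  have h4 : orderOf ((a : G) : G ⧸ N) = 1 := Nat.eq_one_of_dvd_coprimes d.cop h2 h3
  rw [orderOf_eq_one_iff, QuotientGroup.eq_one_iff] at h4
  refine ⟨a, ha, b, hb, h4, ?_, rfl⟩
  have h5 := N.mul_mem (N.inv_mem h4) hn
  rwa [inv_mul_cancel_left] at h5

/-- a minimal counterexample is simple -/
theorem MC.normal_eq (d : MC G) {N : Subgroup G} (hN : N.Normal) : N = ⊥ ∨ N = ⊤ := by
  by_contra hcon
  push Not at hcon
  obtain ⟨h0, h1⟩ := hcon
  haveI := hN
  haveI : Group.IsSolvable N := d.solvable_of_fac (d.fac_of_normal hN) h1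
  have hlt : Nat.card (G ⧸ N) < Nat.card G := by
    have h := Subgroup.card_eq_card_quotient_mul_card_subgroup N
    have h2 : 1 < Nat.card N := (Subgroup.one_lt_card_iff_ne_bot N).2 h0
    have h3 : 0 < Nat.card (G ⧸ N) := Nat.card_pos
    nlinarith
  haveI : Group.IsSolvable (G ⧸ N) := by
    refine d.ih (G ⧸ N) hlt (d.A.map (QuotientGroup.mk' N)) (d.B.map (QuotientGroup.mk' N))
      ?_ ?_ ?_ ?_
    · haveI := d.nilA
      exact Group.nilpotent_of_surjective ((QuotientGroup.mk' N).subgroupMap d.A)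
        ((QuotientGroup.mk' N).subgroupMap_surjective d.A)
    · haveI := d.nilB
      exact Group.nilpotent_of_surjective ((QuotientGroup.mk' N).subgroupMap d.B)
        ((QuotientGroup.mk' N).subgroupMap_surjective d.B)
    · exact coprime_of_dvd d.cop (Subgroup.card_map_dvd _ _) (Subgroup.card_map_dvd _ _)
    · intro g
      obtain ⟨g, rfl⟩ := QuotientGroup.mk'_surjective N g
      obtain ⟨a, ha, b, hb, rfl⟩ := d.fact g
      exact ⟨_, Subgroup.mem_map_of_mem _ ha, _, Subgroup.mem_map_of_mem _ hb, map_mul _ a b⟩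
  exact d.ns (Group.isSolvable_of_ker_le_range N.subtype (QuotientGroup.mk' N)
    (by rw [QuotientGroup.ker_mk', Subgroup.range_subtype]))

theorem MC.normal_eq_bot (d : MC G) {N : Subgroup G} (hN : N.Normal) (h : N ≠ ⊤) : N = ⊥ :=
  (d.normal_eq hN).resolve_right h

theorem MC.normal_solvable_eq_bot (d : MC G) {N : Subgroup G} (hN : N.Normal) (hs : Group.IsSolvable N) :
    N = ⊥ :=
  d.normal_eq_bot hN (fun h => d.ns (solvable_of_eq_top hs h))

theorem MC.normal_pgroup_eq_bot (d : MC G) {N : Subgroup G} (hN : N.Normal) {p : ℕ} (hp : p.Prime)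
    (hNp : IsPGroup p N) : N = ⊥ := by
  haveI : Fact p.Prime := ⟨hp⟩
  haveI := hNp.isNilpotent
  exact d.normal_solvable_eq_bot hN inferInstance

theorem MC.eq_one_of_central (d : MC G) {z : G} (hz : ∀ g : G, g * z = z * g) : z = 1 := by
  have hn : (Subgroup.zpowers z).Normal := by
    constructor
    intro n hn g
    have e : g * n * g⁻¹ = n := by
      obtain ⟨k, rfl⟩ := Subgroup.mem_zpowers_iff.1 hn
      have hc : Commute g z := hz g
      rw [(hc.zpow_right k).eq, mul_inv_cancel_right]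
    rw [e]; exact hn
  have hs : Group.IsSolvable (Subgroup.zpowers z) := Group.isSolvable_of_comm (by
    rintro ⟨a, ha⟩ ⟨b, hb⟩
    obtain ⟨i, rfl⟩ := Subgroup.mem_zpowers_iff.1 ha
    obtain ⟨j, rfl⟩ := Subgroup.mem_zpowers_iff.1 hb
    apply Subtype.ext
    show z ^ i * z ^ j = z ^ j * z ^ i
    rw [← zpow_add, ← zpow_add, add_comm])
  have h := d.normal_solvable_eq_bot hn hs
  rwa [Subgroup.zpowers_eq_bot] at h

theorem MC.not_prime_pow (d : MC G) {p k : ℕ} (hp : p.Prime) (h : Nat.card d.A = p ^ k) : False := by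
  obtain ⟨q, hq, hqB⟩ :=
    Nat.exists_prime_and_dvd (fun h1 => d.B_ne_bot (Subgroup.card_eq_one.1 h1))
  obtain ⟨z, hz, hz1, hzc⟩ := exists_central d.nilB hq hqB
  haveI : Nontrivial G := ⟨⟨z, 1, hz1⟩⟩
  haveI hsimple : IsSimpleGroup G := ⟨fun N hN => d.normal_eq hN⟩
  have hle : d.B ≤ Subgroup.centralizer {z} := fun b hb => mem_cent.2 (hzc b hb).symm
  have hidx : (Subgroup.centralizer ({z} : Set G)).index ∣ p ^ k := by
    have h1 := Subgroup.index_dvd_of_le hle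
    have h3 : Nat.card d.B * d.B.index = Nat.card d.B * Nat.card d.A := by
      rw [Subgroup.card_mul_index, d.card_eq, mul_comm]
    have h2 : d.B.index = Nat.card d.A := Nat.eq_of_mul_eq_mul_left Nat.card_pos h3
    rw [h2, h] at h1; exact h1
  obtain ⟨j, -, hj⟩ := (Nat.dvd_prime_pow hp).1 hidx
  have hprime := Cfsg.Agent.Lib.Helper1.prime_card_of_prime_power_class p j hp z hz1 hj
  haveI : Fact (Nat.card G).Prime := ⟨hprime⟩
  have hpg : IsPGroup (Nat.card G) G := IsPGroup.of_card (n := 1) (pow_one _).symm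
  haveI := hpg.isNilpotent
  exact d.ns inferInstance

theorem MC.exists_other_prime (d : MC G) (r : ℕ) : ∃ r₂ : ℕ, r₂.Prime ∧ r₂ ∣ Nat.card d.A ∧ r₂ ≠ r := by
  by_contra hcon
  push Not at hcon
  have h0 : Nat.card d.A ≠ 0 := Nat.card_pos.ne'
  have h1 := Nat.eq_prime_pow_of_unique_prime_dvd h0 (fun {d'} hd hdvd => hcon d' hd hdvd)
  obtain ⟨p, hp, hpA⟩ := d.exists_prime_A
  have hpr : p = r := hcon p hp hpA
  rw [hpr] at hp
  exact d.not_prime_pow hp h1

theorem MC.sup_Syl_eq_top (d : MC G) {p q : ℕ} (hp : p.Prime) (hq : q.Prime) (hpA : p ∣ Nat.card d.A)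
    (hqB : q ∣ Nat.card d.B) : Syl d.A p ⊔ Syl d.B q = ⊤ := by
  by_contra hL
  obtain ⟨P, hP⟩ : ∃ P : Subgroup G, P = Syl d.A p := ⟨_, rfl⟩
  obtain ⟨Q, hQ⟩ : ∃ Q : Subgroup G, Q = Syl d.B q := ⟨_, rfl⟩
  rw [← hP, ← hQ] at hL
  have hP0 : P ≠ ⊥ := hP ▸ Syl_ne_bot d.A hp hpA
  have hQ0 : Q ≠ ⊥ := hQ ▸ Syl_ne_bot d.B hq hqB
  have hPA : P ≤ d.A := hP ▸ Syl_le _ _
  have hQB : Q ≤ d.B := hQ ▸ Syl_le _ _
  have hAP : d.A ≤ Subgroup.normalizer (P : Set G) := hP ▸ Syl_normal d.nilA hp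
  have hBQ : d.B ≤ Subgroup.normalizer (Q : Set G) := hQ ▸ Syl_normal d.nilB hq
  have hN : Subgroup.normalizer ((P ⊔ Q : Subgroup G) : Set G) ≠ ⊤ := by
    intro hN
    have hn : (P ⊔ Q).Normal := Subgroup.normalizer_eq_top_iff.1 hN
    rcases d.normal_eq hn with h | h
    · exact hP0 (le_bot_iff.1 (h ▸ le_sup_left))
    · exact hL h
  have hPn : (P.subgroupOf d.A).Normal := (Subgroup.normal_subgroupOf_iff_le_normalizer hPA).2 hAP
  have hQn : (Q.subgroupOf d.B).Normal := (Subgroup.normal_subgroupOf_iff_le_normalizer hQB).2 hBQ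
  have hFN : d.Fac (Subgroup.normalizer ((P ⊔ Q : Subgroup G) : Set G)) := by
    intro g hg
    obtain ⟨h, hh, k, hk, rfl⟩ :=
      Cfsg.Agent.S0562.result d.A d.B P Q d.fact hPA hPn hQB hQn g hg
    exact ⟨h, hh.2, k, hk.2, hh.1, hk.1, rfl⟩
  obtain ⟨S, hS⟩ := d.perm_in hFN hN hp hq
  have hPle : P ≤ Subgroup.normalizer ((P ⊔ Q : Subgroup G) : Set G) :=
    le_sup_left.trans Subgroup.le_normalizer
  have hQle : Q ≤ Subgroup.normalizer ((P ⊔ Q : Subgroup G) : Set G) :=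
    le_sup_right.trans Subgroup.le_normalizer
  rw [← hP, ← hQ, inf_eq_left.2 hPle, inf_eq_left.2 hQle] at hS
  have hSle : S ≤ P ⊔ Q := by
    intro x hx
    have hx' : x ∈ (S : Set G) := hx
    rw [hS] at hx'
    obtain ⟨u, hu, v, hv, rfl⟩ := hx'
    exact Subgroup.mul_mem_sup hu hv
  have hS1 : S ≠ ⊤ := fun h => hL (top_le_iff.1 (h ▸ hSle))
  obtain ⟨N, hNn, hNt, hN2⟩ := Cfsg.Agent.S0566.result P Q hP0 hQ0 (by
    intro x
    obtain ⟨a, ha, b, hb, rfl⟩ := d.fact x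
    refine ⟨MulAut.conj a • S, ?_, ?_⟩
    · intro h
      apply hS1
      rw [← Subgroup.card_eq_iff_eq_top] at h ⊢
      rw [Conj.card_conj_smul] at h; exact h
    · have e1 : MulAut.conj (a * b) • Q = MulAut.conj a • Q := by
        rw [← Conj.conj_smul_smul, Conj.mem_normalizer_iff_conj_smul_eq.1 (hBQ hb)]
      have e2 : MulAut.conj a • P = P := Conj.mem_normalizer_iff_conj_smul_eq.1 (hAP ha)
      rw [e1, conj_smul_mul_set a hS, e2])
  have hNbot := d.normal_eq_bot hNn hNt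
  rcases hN2 with h | h
  · exact hP0 (le_bot_iff.1 (hNbot ▸ h))
  · exact hQ0 (le_bot_iff.1 (hNbot ▸ h))

/-- the Q-lemma -/
theorem MC.no_norm (d : MC G) {q r : ℕ} (hq : q.Prime) (hr : r.Prime) (hqB : q ∣ Nat.card d.B)
    (hrA : r ∣ Nat.card d.A) {Q₀ : Subgroup G} (hQp : IsPGroup q Q₀) (hQ0 : Q₀ ≠ ⊥) (g : G)
    (hg : MulAut.conj g • Syl d.A r ≤ Subgroup.normalizer (Q₀ : Set G)) : False := by
  obtain ⟨s, hs, hsB, hsq⟩ := d.swap.exists_other_prime q
  have hqA : ¬ q ∣ Nat.card d.A := fun h => d.not_dvd_B hq h hqB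
  obtain ⟨k, hk⟩ : ∃ k : G, Q₀ ≤ MulAut.conj k • Syl d.B q := d.swap.exists_le_conj_Syl hq hqA hQp
  obtain ⟨a, ha, b, hb, hab⟩ := d.fact (g⁻¹ * k)
  have hk' : k = g * a * b := by rw [mul_assoc, ← hab]; group
  subst hk'
  have hX1 : Syl d.A r ≤
      (Subgroup.normalizer (Q₀ : Set G)).comap (MulAut.conj (g * a)).toMonoidHom := by
    intro x hx
    rw [Subgroup.mem_comap]
    apply hg
    have h1 : a * x * a⁻¹ ∈ Syl d.A r := normalizer_conj_mem (Syl_normal d.nilA hr ha) hx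
    have h2 := Conj.conj_mem_conj_smul (g := g) h1
    have e : (MulAut.conj (g * a)).toMonoidHom x = g * (a * x * a⁻¹) * g⁻¹ := by
      show g * a * x * (g * a)⁻¹ = g * (a * x * a⁻¹) * g⁻¹
      group
    rw [e]; exact h2
  have hX2 : Syl d.B s ≤
      (Subgroup.normalizer (Q₀ : Set G)).comap (MulAut.conj (g * a)).toMonoidHom := by
    intro x hx
    rw [Subgroup.mem_comap]
    apply Subgroup.centralizer_le_normalizer
    rw [Subgroup.mem_centralizer_iff]
    intro w hw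
    have hw' : (g * a * b)⁻¹ * w * (g * a * b) ∈ Syl d.B q := Conj.mem_conj_smul.1 (hk hw)
    have hx' : b⁻¹ * x * b ∈ Syl d.B s := normalizer_conj_mem' (Syl_normal d.nilB hs hb) hx
    have hcomm := Syl_commute d.nilB hq hs (Ne.symm hsq) hw' hx'
    show w * (g * a * x * (g * a)⁻¹) = g * a * x * (g * a)⁻¹ * w
    calc w * (g * a * x * (g * a)⁻¹)
        = (g * a * b) * ((g * a * b)⁻¹ * w * (g * a * b) * (b⁻¹ * x * b)) * (g * a * b)⁻¹ := by
          group
      _ = (g * a * b) * ((b⁻¹ * x * b) * ((g * a * b)⁻¹ * w * (g * a * b))) * (g * a * b)⁻¹ := by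
          rw [hcomm]
      _ = g * a * x * (g * a)⁻¹ * w := by group
  have htop : (⊤ : Subgroup G) ≤
      (Subgroup.normalizer (Q₀ : Set G)).comap (MulAut.conj (g * a)).toMonoidHom := by
    rw [← d.sup_Syl_eq_top hr hs hrA hsB]
    exact sup_le hX1 hX2
  have hnorm : Subgroup.normalizer (Q₀ : Set G) = ⊤ := by
    rw [eq_top_iff]
    intro w _
    have h1 := htop (Subgroup.mem_top ((g * a)⁻¹ * w * (g * a)))
    rw [Subgroup.mem_comap] at h1
    have e : (MulAut.conj (g * a)).toMonoidHom ((g * a)⁻¹ * w * (g * a)) = w := by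
      show g * a * ((g * a)⁻¹ * w * (g * a)) * (g * a)⁻¹ = w
      group
    rwa [e] at h1
  have hn : Q₀.Normal := Subgroup.normalizer_eq_top_iff.1 hnorm
  exact hQ0 (d.normal_pgroup_eq_bot hn hq hQp)

/-- the C-lemma -/
theorem MC.no_cent (d : MC G) {q r : ℕ} (hq : q.Prime) (hr : r.Prime) (hqB : q ∣ Nat.card d.B)
    (hrA : r ∣ Nat.card d.A) {u : G} (hu : orderOf u = q) (g : G)
    (hg : MulAut.conj g • Syl d.A r ≤ Subgroup.centralizer {u}) : False := by
  refine d.no_norm hq hr hqB hrA (Q₀ := Subgroup.zpowers u)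
    (IsPGroup.of_card (n := 1) (by rw [Nat.card_zpowers, hu, pow_one])) ?_ g
    (hg.trans (centralizer_singleton_le_normalizer_zpowers u))
  rw [Ne, Subgroup.zpowers_eq_bot]
  rintro rfl
  rw [orderOf_one] at hu
  exact hq.ne_one hu.symm

theorem MC.no_FQ (d : MC G) {H X : Subgroup G} (hXH : X ≤ H) (hn : H ≤ Subgroup.normalizer (X : Set G))
    {r q : ℕ} (hr : r.Prime) (hq : q.Prime) (hrA : r ∣ Nat.card d.A) (hRH : Syl d.A r ≤ H)
    (hrX : ¬ r ∣ Nat.card X) (hqB : q ∣ Nat.card d.B) (hqX : q ∣ Nat.card X) : False := by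
  haveI : Fact r.Prime := ⟨hr⟩
  obtain ⟨Q₀, hQp, hQc, hdvd⟩ := frattini_card hXH hn hq
  have hQ0 : Q₀ ≠ ⊥ := by
    intro h0
    rw [h0, Subgroup.card_bot] at hQc
    have h1 : 0 < (Nat.card X).factorization q := hq.factorization_pos_of_dvd Nat.card_pos.ne' hqX
    have h2 := Nat.one_lt_pow h1.ne' hq.one_lt
    omega
  obtain ⟨K, hK⟩ : ∃ K : Subgroup G, K = H ⊓ Subgroup.normalizer (Q₀ : Set G) := ⟨_, rfl⟩
  rw [← hK] at hdvd
  have hKle : K ≤ Subgroup.normalizer (Q₀ : Set G) := hK ▸ inf_le_right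
  have hrB : ¬ r ∣ Nat.card d.B := d.not_dvd_B hr hrA
  have hcR := d.card_Syl_G hr hrB
  have h1 : r ^ (Nat.card G).factorization r ∣ Nat.card K := by
    have h2 : r ^ (Nat.card G).factorization r ∣ Nat.card X * Nat.card K := by
      rw [← hcR]; exact (Subgroup.card_dvd_of_le hRH).trans hdvd
    exact (Nat.Coprime.pow_left _ ((Nat.Prime.coprime_iff_not_dvd hr).2 hrX)).dvd_of_dvd_mul_left h2
  obtain ⟨T⟩ : Nonempty (Sylow r K) := inferInstance
  have hTc : Nat.card ((T : Subgroup K).map K.subtype) = r ^ (Nat.card K).factorization r := by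
    rw [Subgroup.card_map_of_injective K.subtype_injective]; exact Sylow.card_eq_multiplicity T
  have hTp : IsPGroup r ((T : Subgroup K).map K.subtype) := T.isPGroup'.map _
  obtain ⟨g, hg⟩ := d.exists_le_conj_Syl hr hrB hTp
  have hle : (Nat.card G).factorization r ≤ (Nat.card K).factorization r :=
    (hr.pow_dvd_iff_le_factorization Nat.card_pos.ne').1 h1
  have heq : (T : Subgroup K).map K.subtype = MulAut.conj g • Syl d.A r := by
    apply Subgroup.eq_of_le_of_card_ge hg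
    rw [Conj.card_conj_smul, hcR, hTc]
    exact Nat.pow_le_pow_right hr.pos hle
  refine d.no_norm hq hr hqB hrA hQp hQ0 g ?_
  rw [← heq]
  rintro x ⟨y, -, rfl⟩
  exact hKle y.2

theorem MC.X_eq_bot (d : MC G) {H X : Subgroup G} (hA : d.A ≤ H) (hXH : X ≤ H)
    (hn : H ≤ Subgroup.normalizer (X : Set G)) (hc : (Nat.card X).Coprime (Nat.card d.A)) :
    X = ⊥ := by
  by_contra h0
  obtain ⟨q, hq, hqX⟩ := Nat.exists_prime_and_dvd (fun h1 => h0 (Subgroup.card_eq_one.1 h1))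
  obtain ⟨r, hr, hrA⟩ := d.exists_prime_A
  have hqA : ¬ q ∣ Nat.card d.A := not_dvd_of_coprime hq hc hqX
  have hqG : q ∣ Nat.card G := hqX.trans (Subgroup.card_subgroup_dvd_card X)
  have hqB : q ∣ Nat.card d.B := d.dvd_B_of hq hqG hqA
  have hrX : ¬ r ∣ Nat.card X := not_dvd_of_coprime hr hc.symm hrA
  exact d.no_FQ hXH hn hr hq hrA ((Syl_le _ _).trans hA) hrX hqB hqX

end Cfsg.Agent.Lib.Helper4.KW
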