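import Mathlib
import Cfsg.Agent.Lib.Helper4.KW2
import Cfsg.Agent.S0017
import Cfsg.Agent.S0635

set_option autoImplicit false
open Pointwise

namespace Cfsg.Agent.Lib.Helper4.KW

open Cfsg.Agent.Lib.Helper4

universe u

variable {G : Type u} [Group G] [Finite G]

theorem not_dvd_of_coprime_self {p n : ℕ} (hp : p.Prime) (h : n.Coprime p) : ¬ p ∣ n := by
  intro hpn
  have h1 := Nat.dvd_gcd hpn (dvd_refl p)
  rw [Nat.Coprime.gcd_eq_one h] at h1
  exact hp.not_dvd_one h1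

theorem MC.Syl_le_pPrimeCore (d : MC G) {H : Subgroup G} (hA : d.A ≤ H) (hH : H ≠ ⊤) {p t : ℕ}
    (hp : p.Prime) (ht : t.Prime) (hpA : p ∣ Nat.card d.A) (hne : t ≠ p) :
    (Syl d.A t).subgroupOf H ≤ Cfsg.pPrimeCore p H := by
  haveI : Fact p.Prime := ⟨hp⟩
  haveI : Fact t.Prime := ⟨ht⟩
  haveI : Group.IsSolvable H := d.solvable_of_fac (d.fac_of_le hA) hH
  haveI : (Cfsg.pPrimeCore p H).Normal := Cfsg.pPrimeCore_normal p H
  have hbot : Cfsg.pPrimeCore p (H ⧸ Cfsg.pPrimeCore p H) = ⊥ :=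
    Cfsg.Agent.Lib.Helper9.pPrimeCore_quotient_eq_bot p H
  have hcent := Cfsg.Agent.S0017.result (G := H ⧸ Cfsg.pPrimeCore p H) p hbot
  have hpB : ¬ p ∣ Nat.card d.B := d.not_dvd_B hp hpA
  have hPH : ((d.sylG hpB : Sylow p G) : Subgroup G) ≤ H := by
    rw [d.sylG_coe]; exact (Syl_le _ _).trans hA
  haveI : (Cfsg.pCore p (H ⧸ Cfsg.pPrimeCore p H)).Normal := Cfsg.pCore_normal p _
  have hcore_le : Cfsg.pCore p (H ⧸ Cfsg.pPrimeCore p H) ≤
      ((Syl d.A p).subgroupOf H).map (QuotientGroup.mk' (Cfsg.pPrimeCore p H)) := by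
    have h := Cfsg.Agent.S0635.le_sylow_of_normal (Cfsg.pCore p (H ⧸ Cfsg.pPrimeCore p H))
      (Cfsg.Agent.Lib.Helper9.pCore_isPGroup p (H ⧸ Cfsg.pPrimeCore p H))
      (((d.sylG hpB).subtype hPH).mapSurjective
        (QuotientGroup.mk'_surjective (Cfsg.pPrimeCore p H)))
    rwa [Sylow.coe_mapSurjective, Sylow.coe_subtype, d.sylG_coe] at h
  intro x hx
  have hx' : (x : G) ∈ Syl d.A t := Subgroup.mem_subgroupOf.1 hx
  have hxc : (QuotientGroup.mk' (Cfsg.pPrimeCore p H) x) ∈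
      Subgroup.centralizer
        ((Cfsg.pCore p (H ⧸ Cfsg.pPrimeCore p H) : Subgroup (H ⧸ Cfsg.pPrimeCore p H)) :
          Set (H ⧸ Cfsg.pPrimeCore p H)) := by
    rw [Subgroup.mem_centralizer_iff]
    intro n hn
    obtain ⟨y, hy, rfl⟩ := hcore_le hn
    have hy' : (y : G) ∈ Syl d.A p := Subgroup.mem_subgroupOf.1 hy
    have hcomm : (y : G) * x = x * y := Syl_commute d.nilA hp ht (Ne.symm hne) hy' hx'
    have hcomm' : y * x = x * y := Subtype.ext hcomm
    rw [← map_mul, hcomm', map_mul]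
  have hxp := hcent hxc
  have hpg := Cfsg.Agent.Lib.Helper9.pCore_isPGroup p (H ⧸ Cfsg.pPrimeCore p H)
  obtain ⟨k, hk⟩ := (IsPGroup.iff_orderOf.1 hpg) ⟨_, hxp⟩
  rw [Subgroup.orderOf_mk] at hk
  obtain ⟨j, hj⟩ := (IsPGroup.iff_orderOf.1 (Syl_isPGroup d.A t)) ⟨(x : G), hx'⟩
  rw [Subgroup.orderOf_mk] at hj
  have ho1 : orderOf (QuotientGroup.mk' (Cfsg.pPrimeCore p H) x) ∣ p ^ k := by rw [hk]
  have ho2 : orderOf (QuotientGroup.mk' (Cfsg.pPrimeCore p H) x) ∣ t ^ j := by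
    rw [← hj, Subgroup.orderOf_coe]; exact orderOf_map_dvd _ x
  have hcop : (p ^ k).Coprime (t ^ j) :=
    Nat.Coprime.pow _ _ ((Nat.coprime_primes hp ht).2 (Ne.symm hne))
  have ho : orderOf (QuotientGroup.mk' (Cfsg.pPrimeCore p H) x) = 1 :=
    Nat.eq_one_of_dvd_coprimes hcop ho1 ho2
  rw [orderOf_eq_one_iff] at ho
  exact (QuotientGroup.eq_one_iff x).1 ho

/-- intersection of the `p'`-cores over the primes `p ≠ s` dividing `|A|` -/
noncomputable def TT (A H : Subgroup G) (s : ℕ) : Subgroup H :=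
  ⨅ (p : ℕ) (_ : p.Prime ∧ p ∣ Nat.card A ∧ p ≠ s), Cfsg.pPrimeCore p H

theorem TT_normal (A H : Subgroup G) (s : ℕ) : (TT A H s).Normal :=
  Subgroup.normal_iInf_normal (fun p => Subgroup.normal_iInf_normal
    (fun _ => Cfsg.pPrimeCore_normal p H))

theorem TT_le (A H : Subgroup G) (s : ℕ) {p : ℕ} (hp : p.Prime) (hpA : p ∣ Nat.card A)
    (hps : p ≠ s) : TT A H s ≤ Cfsg.pPrimeCore p H :=
  iInf_le_of_le p (iInf_le _ ⟨hp, hpA, hps⟩)

theorem MC.le_normalizer_Syl (d : MC G) {H : Subgroup G} (hA : d.A ≤ H) (hH : H ≠ ⊤) {r : ℕ}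
    (hr : r.Prime) (hrA : r ∣ Nat.card d.A) :
    H ≤ Subgroup.normalizer ((Syl d.A r : Subgroup G) : Set G) := by
  haveI : Fact r.Prime := ⟨hr⟩
  have hST : ∀ s : ℕ, s.Prime → (Syl d.A s).subgroupOf H ≤ TT d.A H s := fun s hs =>
    le_iInf (fun p => le_iInf (fun hp =>
      d.Syl_le_pPrimeCore hA hH hp.1 hs hp.2.1 (Ne.symm hp.2.2)))
  have hdisj : ∀ s₁ s₂ : ℕ, s₁ ≠ s₂ → TT d.A H s₁ ⊓ TT d.A H s₂ = ⊥ := by
    intro s₁ s₂ hne
    haveI := TT_normal d.A H s₁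
    haveI := TT_normal d.A H s₂
    have hX := d.X_eq_bot (H := H) (X := (TT d.A H s₁ ⊓ TT d.A H s₂).map H.subtype) hA
      (by rintro x ⟨y, -, rfl⟩; exact y.2)
      (le_normalizer_map_subtype _ (Subgroup.normal_inf_normal _ _))
      (by
        rw [Subgroup.card_map_of_injective H.subtype_injective]
        refine (Nat.coprime_of_dvd ?_).symm
        intro p hp hpA hpX
        have hle : TT d.A H s₁ ⊓ TT d.A H s₂ ≤ Cfsg.pPrimeCore p H := by
          rcases eq_or_ne p s₁ with h | h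
          · exact inf_le_right.trans (TT_le d.A H s₂ hp hpA (by rw [h]; exact hne))
          · exact inf_le_left.trans (TT_le d.A H s₁ hp hpA h)
        exact not_dvd_of_coprime_self hp (Cfsg.Agent.Lib.Helper9.pPrimeCore_coprime p H)
          (hpX.trans (Subgroup.card_dvd_of_le hle)))
    exact (Subgroup.map_eq_bot_iff_of_injective _ H.subtype_injective).1 hX
  have hcomm : ∀ s₁ s₂ : ℕ, s₁ ≠ s₂ → ∀ x ∈ TT d.A H s₁, ∀ y ∈ TT d.A H s₂, x * y = y * x :=
    fun s₁ s₂ hne x hx y hy =>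
      (Subgroup.commute_of_normal_of_disjoint _ _ (TT_normal d.A H s₁) (TT_normal d.A H s₂)
        (disjoint_iff.2 (hdisj s₁ s₂ hne)) x y hx hy).eq
  have hTr : IsPGroup r (TT d.A H r) := by
    have hprime : ∀ ℓ : ℕ, ℓ.Prime → ℓ ∣ Nat.card (TT d.A H r) → ℓ = r := by
      intro ℓ hℓ hℓT
      by_contra hne
      by_cases hℓA : ℓ ∣ Nat.card d.A
      · have h1 := Subgroup.card_dvd_of_le (TT_le d.A H r hℓ hℓA hne)
        exact not_dvd_of_coprime_self hℓ (Cfsg.Agent.Lib.Helper9.pPrimeCore_coprime ℓ H)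
          (hℓT.trans h1)
      · have hℓG : ℓ ∣ Nat.card G :=
          (hℓT.trans (Subgroup.card_subgroup_dvd_card (TT d.A H r))).trans
            (Subgroup.card_subgroup_dvd_card H)
        have hℓB := d.dvd_B_of hℓ hℓG hℓA
        haveI : Fact ℓ.Prime := ⟨hℓ⟩
        obtain ⟨u, hu⟩ := exists_prime_orderOf_dvd_card' ℓ hℓT
        obtain ⟨r₂, hr₂, hr₂A, hr₂r⟩ := d.exists_other_prime r
        refine d.no_cent hℓ hr₂ hℓB hr₂A (u := ((u : H) : G)) ?_ 1 ?_
        · rw [Subgroup.orderOf_coe, Subgroup.orderOf_coe]; exact hu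
        · rw [Conj.conj_one_smul]
          intro x hx
          rw [mem_cent]
          have hxH : x ∈ H := hA (Syl_le _ _ hx)
          have h1 : (⟨x, hxH⟩ : H) ∈ TT d.A H r₂ := hST r₂ hr₂ (Subgroup.mem_subgroupOf.2 hx)
          have h2 := hcomm r r₂ (Ne.symm hr₂r) (u : H) u.2 ⟨x, hxH⟩ h1
          exact congrArg Subtype.val h2
    have hc0 : Nat.card (TT d.A H r) ≠ 0 := Nat.card_pos.ne'
    exact IsPGroup.of_card
      (Nat.eq_prime_pow_of_unique_prime_dvd hc0 (fun {ℓ} hℓ hdvd => hprime ℓ hℓ hdvd))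
  have hrB : ¬ r ∣ Nat.card d.B := d.not_dvd_B hr hrA
  have hPH : ((d.sylG hrB : Sylow r G) : Subgroup G) ≤ H := by
    rw [d.sylG_coe]; exact (Syl_le _ _).trans hA
  have hle : TT d.A H r ≤ (Syl d.A r).subgroupOf H := by
    haveI := TT_normal d.A H r
    have h := Cfsg.Agent.S0635.le_sylow_of_normal (TT d.A H r) hTr ((d.sylG hrB).subtype hPH)
    rwa [Sylow.coe_subtype, d.sylG_coe] at h
  have heq : (Syl d.A r).subgroupOf H = TT d.A H r := le_antisymm (hST r hr) hle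
  rw [← Subgroup.normal_subgroupOf_iff_le_normalizer ((Syl_le _ _).trans hA), heq]
  exact TT_normal d.A H r

theorem MC.normalizer_A_ne_top (d : MC G) : Subgroup.normalizer (d.A : Set G) ≠ ⊤ := by
  intro h
  have hn : d.A.Normal := Subgroup.normalizer_eq_top_iff.1 h
  rcases d.normal_eq hn with h1 | h1
  · exact d.A_ne_bot h1
  · exact d.A_ne_top h1

theorem MC.le_normalizer_A (d : MC G) {H : Subgroup G} (hA : d.A ≤ H) (hH : H ≠ ⊤) :
    H ≤ Subgroup.normalizer (d.A : Set G) := by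
  intro h hh
  rw [Conj.mem_normalizer_iff_conj_smul_eq]
  symm
  apply Subgroup.eq_of_le_of_card_ge
  · apply le_of_Syl_le d.nilA le_rfl
    intro p hp
    by_cases hpA : p ∣ Nat.card d.A
    · have h1 := d.le_normalizer_Syl hA hH hp hpA hh
      rw [Conj.mem_normalizer_iff_conj_smul_eq] at h1
      intro x hx
      have hx2 : x ∈ MulAut.conj h • Syl d.A p := by rw [h1]; exact hx.2
      rw [Conj.mem_conj_smul] at hx2 ⊢
      exact Syl_le _ _ hx2
    · rw [Syl_eq_bot d.A hp hpA]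
      intro x hx
      rw [Subgroup.mem_bot.1 hx.2]; exact one_mem _
  · exact (Conj.card_conj_smul h d.A).le

theorem MC.normalizer_Syl (d : MC G) {r : ℕ} (hr : r.Prime) (hrA : r ∣ Nat.card d.A) :
    Subgroup.normalizer ((Syl d.A r : Subgroup G) : Set G) = Subgroup.normalizer (d.A : Set G) := by
  apply le_antisymm
  · apply d.le_normalizer_A (Syl_normal d.nilA hr)
    intro h
    have hn : (Syl d.A r).Normal := Subgroup.normalizer_eq_top_iff.1 h
    exact Syl_ne_bot d.A hr hrA (d.normal_pgroup_eq_bot hn hr (Syl_isPGroup _ _))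
  · exact d.le_normalizer_Syl Subgroup.le_normalizer d.normalizer_A_ne_top hr hrA

theorem MC.mem_A_of_coprime (d : MC G) {m : G} (hm : m ∈ Subgroup.normalizer (d.A : Set G))
    (hc : (orderOf m).Coprime (Nat.card d.B)) : m ∈ d.A := by
  obtain ⟨M, hM⟩ : ∃ M : Subgroup G, M = Subgroup.normalizer (d.A : Set G) := ⟨_, rfl⟩
  rw [← hM] at hm
  have hAM : d.A ≤ M := hM ▸ Subgroup.le_normalizer
  haveI hAn : (d.A.subgroupOf M).Normal :=
    (Subgroup.normal_subgroupOf_iff_le_normalizer hAM).2 hM.le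
  have h1 := Cfsg.Agent.Lib.Helper9.card_sup_dvd (Subgroup.zpowers (⟨m, hm⟩ : M))
    (d.A.subgroupOf M)
  have hcA : Nat.card (d.A.subgroupOf M) = Nat.card d.A :=
    Nat.card_congr (Subgroup.subgroupOfEquivOfLe hAM).toEquiv
  rw [Nat.card_zpowers, Subgroup.orderOf_mk, hcA] at h1
  have h2 : Nat.card ↥(Subgroup.zpowers (⟨m, hm⟩ : M) ⊔ d.A.subgroupOf M) ∣
      Nat.card d.A * Nat.card d.B := by
    rw [← d.card_eq]
    exact (Subgroup.card_subgroup_dvd_card _).trans (Subgroup.card_subgroup_dvd_card M)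
  have h3 : (Nat.card ↥(Subgroup.zpowers (⟨m, hm⟩ : M) ⊔ d.A.subgroupOf M)).Coprime
      (Nat.card d.B) :=
    Nat.Coprime.coprime_dvd_left h1 (Nat.Coprime.mul_left hc d.cop)
  have h4 : Nat.card ↥(Subgroup.zpowers (⟨m, hm⟩ : M) ⊔ d.A.subgroupOf M) ∣ Nat.card d.A :=
    h3.dvd_of_dvd_mul_right h2
  have h5 : d.A.subgroupOf M = Subgroup.zpowers (⟨m, hm⟩ : M) ⊔ d.A.subgroupOf M :=
    Subgroup.eq_of_le_of_card_ge le_sup_right (by rw [hcA]; exact Nat.le_of_dvd Nat.card_pos h4)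
  have h6 : (⟨m, hm⟩ : M) ∈ d.A.subgroupOf M := by
    rw [h5]; exact Subgroup.mem_sup_left (Subgroup.mem_zpowers _)
  exact Subgroup.mem_subgroupOf.1 h6

theorem MC.le_A_of_coprime (d : MC G) {U : Subgroup G}
    (hU : U ≤ Subgroup.normalizer (d.A : Set G)) (hc : (Nat.card U).Coprime (Nat.card d.B)) :
    U ≤ d.A :=
  fun _ hu => d.mem_A_of_coprime (hU hu)
    (Nat.Coprime.coprime_dvd_left (orderOf_dvd_card_of_mem hu) hc)

theorem MC.eq_one_of_central_normalizer (d : MC G) {z : G}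
    (hzc : ∀ a ∈ d.A, a * z = z * a) (hzn : z ∈ Subgroup.normalizer (d.B : Set G)) : z = 1 := by
  by_contra hz1
  obtain ⟨Y, hY⟩ : ∃ Y : Subgroup G, Y = d.B ⊔ Subgroup.zpowers z := ⟨_, rfl⟩
  have hzY : z ∈ Y := hY ▸ Subgroup.mem_sup_right (Subgroup.mem_zpowers z)
  have hBY : d.B ≤ Y := hY ▸ le_sup_left
  have hNC : Subgroup.normalClosure ({z} : Set G) ≤ Y := by
    show Subgroup.closure (Group.conjugatesOfSet {z}) ≤ Y
    rw [Subgroup.closure_le]
    intro x hx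
    rw [Group.mem_conjugatesOfSet_iff] at hx
    obtain ⟨w, hw, hconj⟩ := hx
    rw [Set.mem_singleton_iff] at hw
    subst hw
    obtain ⟨g, rfl⟩ := isConj_iff.1 hconj
    obtain ⟨b, hb, a, ha, rfl⟩ := d.swap.fact g
    have h1 := hzc a ha
    have e : b * a * w * (b * a)⁻¹ = b * w * b⁻¹ := by
      calc b * a * w * (b * a)⁻¹ = b * (a * w) * a⁻¹ * b⁻¹ := by group
        _ = b * (w * a) * a⁻¹ * b⁻¹ := by rw [h1]
        _ = b * w * b⁻¹ := by group
    rw [SetLike.mem_coe, e]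
    exact Y.mul_mem (Y.mul_mem (hBY hb) hzY) (Y.inv_mem (hBY hb))
  have hYtop : Y = ⊤ := by
    rcases d.normal_eq (Subgroup.normalClosure_normal (s := ({z} : Set G))) with h | h
    · exfalso; apply hz1
      have h2 : z ∈ Subgroup.normalClosure ({z} : Set G) :=
        Subgroup.subset_normalClosure (Set.mem_singleton z)
      rw [h] at h2; exact Subgroup.mem_bot.1 h2
    · exact top_le_iff.1 (h ▸ hNC)
  have hBn : d.B.Normal := by
    rw [← Subgroup.normalizer_eq_top_iff, eq_top_iff, ← hYtop, hY]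
    exact sup_le Subgroup.le_normalizer (by rw [Subgroup.zpowers_le]; exact hzn)
  rcases d.normal_eq hBn with h | h
  · exact d.B_ne_bot h
  · exact d.B_ne_top h

end Cfsg.Agent.Lib.Helper4.KW
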