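import Mathlib
import Cfsg.Agent.Lib.Helper4.KW3
import Cfsg.Agent.Lib.Lead.Hall
import Cfsg.Agent.S0558

set_option autoImplicit false
open Pointwise

namespace Cfsg.Agent.Lib.Helper4.KW

open Cfsg.Agent.Lib.Helper4

universe u

variable {G : Type u} [Group G] [Finite G]

theorem MC.fac_centralizer (d : MC G) {y : G} (hyB : y ∈ d.B)
    (hyM : y ∈ Subgroup.normalizer (d.A : Set G)) : d.Fac (Subgroup.centralizer {y}) := by
  intro c hc
  obtain ⟨a, ha, b, hb, rfl⟩ := d.fact c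
  have hc' : y * (a * b) = a * b * y := mem_cent.1 hc
  have h1 : a⁻¹ * y * a = b * y * b⁻¹ := by
    calc a⁻¹ * y * a = a⁻¹ * (y * (a * b)) * b⁻¹ := by group
      _ = a⁻¹ * (a * b * y) * b⁻¹ := by rw [hc']
      _ = b * y * b⁻¹ := by group
  have h2 : y⁻¹ * (a⁻¹ * y * a) ∈ d.A := by
    have h3 : y⁻¹ * a⁻¹ * y ∈ d.A := normalizer_conj_mem' hyM (inv_mem ha)
    have e : y⁻¹ * (a⁻¹ * y * a) = (y⁻¹ * a⁻¹ * y) * a := by group
    rw [e]; exact mul_mem h3 ha
  have h4 : y⁻¹ * (a⁻¹ * y * a) ∈ d.B := by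
    rw [h1]; exact mul_mem (inv_mem hyB) (mul_mem (mul_mem hb hyB) (inv_mem hb))
  have h5 := d.mem_inf_eq_one h2 h4
  have h6 : a⁻¹ * y * a = y := by
    have e : a⁻¹ * y * a = y * (y⁻¹ * (a⁻¹ * y * a)) := by group
    rw [e, h5, mul_one]
  have hac : a ∈ Subgroup.centralizer {y} := by
    rw [mem_cent]
    calc y * a = a * (a⁻¹ * y * a) := by group
      _ = a * y := by rw [h6]
  have hbc : b ∈ Subgroup.centralizer {y} := by
    have h7 := (Subgroup.centralizer {y}).mul_mem ((Subgroup.centralizer {y}).inv_mem hac) hc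
    rwa [inv_mul_cancel_left] at h7
  exact ⟨a, ha, b, hb, hac, hbc, rfl⟩

theorem MC.mem_normalizer_B_of_comm (d : MC G) {y : G} (hyB : y ∈ d.B)
    (hyM : y ∈ Subgroup.normalizer (d.A : Set G)) {s : ℕ} (hs : s.Prime) (hy : orderOf y = s)
    {c : G} (hcA : c ∈ d.A) (hcy : y * c = c * y) : c ∈ Subgroup.normalizer (d.B : Set G) := by
  obtain ⟨C, hC⟩ : ∃ C : Subgroup G, C = Subgroup.centralizer ({y} : Set G) := ⟨_, rfl⟩
  have hCF : d.Fac C := hC ▸ d.fac_centralizer hyB hyM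
  have hCtop : C ≠ ⊤ := by
    intro h
    have hy1 : y = 1 := d.eq_one_of_central (fun g => by
      have h1 : g ∈ C := h ▸ Subgroup.mem_top g
      rw [hC] at h1
      exact (mem_cent.1 h1).symm)
    rw [hy1, orderOf_one] at hy
    exact hs.ne_one hy.symm
  have hsB : s ∣ Nat.card d.B := hy ▸ orderOf_dvd_card_of_mem hyB
  obtain ⟨q, hq, hqB, hqs⟩ := d.swap.exists_other_prime s
  have hyS : y ∈ Syl d.B s := mem_Syl d.nilB hs hyB (k := 1) (by rw [hy, pow_one])
  have hQC : Syl d.B q ≤ C := fun x hx => by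
    rw [hC]; exact mem_cent.2 (Syl_commute d.nilB hs hq (Ne.symm hqs) hyS hx)
  have hQ0 : Syl d.B q ≠ ⊥ := Syl_ne_bot d.B hq hqB
  have hqA : ¬ q ∣ Nat.card d.A := fun h => d.not_dvd_B hq h hqB
  have key : d.A ⊓ C ≤ Subgroup.normalizer (d.B : Set G) := by
    apply le_of_Syl_le d.nilA inf_le_left
    intro p hp
    by_cases hpA : p ∣ Nat.card d.A
    swap
    · rw [Syl_eq_bot d.A hp hpA]; intro x hx; rw [Subgroup.mem_bot.1 hx.2]; exact one_mem _
    have hpq : p ≠ q := fun h => hqA (h ▸ hpA)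
    obtain ⟨Y, hY⟩ := d.perm_in hCF hCtop hp hq
    rw [inf_eq_left.2 hQC] at hY
    have hPY : Syl d.A p ⊓ C ≤ Y := fun x hx => by
      have h1 : x ∈ (Y : Set G) := by
        rw [hY]; exact Set.mem_mul.2 ⟨x, hx, 1, one_mem _, mul_one x⟩
      exact h1
    have hQY : Syl d.B q ≤ Y := fun x hx => by
      have h1 : x ∈ (Y : Set G) := by
        rw [hY]; exact Set.mem_mul.2 ⟨1, one_mem _, x, hx, one_mul x⟩
      exact h1
    have hYC : Y ≤ C := by
      intro x hx
      have h1 : x ∈ (Y : Set G) := hx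
      rw [hY] at h1
      obtain ⟨u, hu, v, hv, rfl⟩ := h1
      exact C.mul_mem hu.2 (hQC hv)
    have hYcard : Nat.card Y = Nat.card ↥(Syl d.A p ⊓ C) * Nat.card (Syl d.B q) := by
      have h := Card.card_mul_set (Syl d.A p ⊓ C) (Syl d.B q)
      have hbot : (Syl d.A p ⊓ C) ⊓ Syl d.B q = ⊥ := by
        rw [eq_bot_iff]; intro x hx
        exact Subgroup.mem_bot.2 (d.mem_inf_eq_one (Syl_le _ _ hx.1.1) (Syl_le _ _ hx.2))
      rw [hbot, Subgroup.card_bot, mul_one, ← hY] at h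
      exact h
    haveI : Group.IsSolvable C := d.solvable_of_fac hCF hCtop
    haveI : Group.IsSolvable Y :=
      Group.isSolvable_of_isSolvable_injective (Subgroup.inclusion_injective hYC)
    haveI : Nontrivial Y :=
      (Subgroup.nontrivial_iff_ne_bot Y).2 (fun h => hQ0 (le_bot_iff.1 (h ▸ hQY)))
    obtain ⟨V', hV'n, -, ℓ, k, hℓ, hk, hV'c⟩ := Cfsg.Agent.Lib.Lead.Hall.exists_minimal_normal Y
    obtain ⟨V, hV⟩ : ∃ V : Subgroup G, V = V'.map Y.subtype := ⟨_, rfl⟩
    have hVc : Nat.card V = ℓ ^ k := by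
      rw [hV, Subgroup.card_map_of_injective Y.subtype_injective, hV'c]
    have hVp : IsPGroup ℓ V := IsPGroup.of_card hVc
    have hV0 : V ≠ ⊥ := by
      intro h; rw [h, Subgroup.card_bot] at hVc
      have h1 := Nat.one_lt_pow hk.ne' hℓ.one_lt
      omega
    have hVY : V ≤ Y := by rw [hV]; rintro x ⟨y', -, rfl⟩; exact y'.2
    have hYV : Y ≤ Subgroup.normalizer (V : Set G) := by
      rw [hV]; exact le_normalizer_map_subtype V' hV'n
    have hℓY : ℓ ∣ Nat.card Y := by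
      have h1 : ℓ ∣ Nat.card V := by rw [hVc]; exact dvd_pow_self ℓ hk.ne'
      exact h1.trans (Subgroup.card_dvd_of_le hVY)
    have hℓpq : ℓ = p ∨ ℓ = q := by
      rw [hYcard] at hℓY
      rcases (hℓ.dvd_mul).1 hℓY with h | h
      · left
        haveI : Fact p.Prime := ⟨hp⟩
        obtain ⟨j, hj⟩ := ((Syl_isPGroup d.A p).to_le inf_le_left).exists_card_eq
        rw [hj] at h
        exact (Nat.prime_dvd_prime_iff_eq hℓ hp).1 (hℓ.dvd_of_dvd_pow h)
      · right
        rw [card_Syl d.B hq] at h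
        exact (Nat.prime_dvd_prime_iff_eq hℓ hq).1 (hℓ.dvd_of_dvd_pow h)
    rcases hℓpq with h | h
    · exfalso
      rw [h] at hVp
      exact d.swap.no_norm hp hq hpA hqB hVp hV0 1
        (by rw [Conj.conj_one_smul]; exact hQY.trans hYV)
    · rw [h] at hVp
      have hVQ : V ≤ Syl d.B q := d.swap.le_Syl_of_normalized hq hqA hVp (hQY.trans hYV)
      have hBV : d.B ≤ Subgroup.normalizer (V : Set G) := by
        apply le_of_Syl_le d.nilB le_rfl
        intro q' hq' x hx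
        rcases eq_or_ne q' q with hqq | hqq
        · rw [hqq] at hx; exact hYV (hQY hx.2)
        · apply Subgroup.centralizer_le_normalizer
          rw [Subgroup.mem_centralizer_iff]
          intro v hv
          exact Syl_commute d.nilB hq hq' (Ne.symm hqq) (hVQ hv) hx.2
      have hVtop : Subgroup.normalizer (V : Set G) ≠ ⊤ := fun h1 =>
        hV0 (d.normal_pgroup_eq_bot (Subgroup.normalizer_eq_top_iff.1 h1) hq hVp)
      have hNB : Subgroup.normalizer (V : Set G) ≤ Subgroup.normalizer (d.B : Set G) :=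
        d.swap.le_normalizer_A hBV hVtop
      intro x hx
      exact hNB (hYV (hPY ⟨hx.2, hx.1.2⟩))
  exact key ⟨hcA, by rw [hC]; exact mem_cent.2 hcy⟩

theorem MC.centralizer_le_A (d : MC G) {z : G} (hz : z ∈ d.A) (hzc : ∀ a ∈ d.A, a * z = z * a)
    (hz1 : z ≠ 1) : Subgroup.centralizer ({z} : Set G) ≤ d.A := by
  have hAC : d.A ≤ Subgroup.centralizer ({z} : Set G) := fun a ha => mem_cent.2 (hzc a ha).symm
  have hCtop : Subgroup.centralizer ({z} : Set G) ≠ ⊤ := by
    intro h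
    exact hz1 (d.eq_one_of_central (fun g =>
      (mem_cent.1 (h ▸ Subgroup.mem_top g : g ∈ Subgroup.centralizer ({z} : Set G))).symm))
  have hCM : Subgroup.centralizer ({z} : Set G) ≤ Subgroup.normalizer (d.A : Set G) :=
    d.le_normalizer_A hAC hCtop
  intro c hc
  obtain ⟨a, ha, b, hb, haC, hbC, rfl⟩ := d.fac_of_le hAC c hc
  by_cases hb1 : b = 1
  · rw [hb1, mul_one]; exact ha
  exfalso
  have hob : orderOf b ≠ 1 := fun h => hb1 (orderOf_eq_one_iff.1 h)
  obtain ⟨s, hs, hsb⟩ := Nat.exists_prime_and_dvd hob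
  have hob0 : orderOf b ≠ 0 := (orderOf_pos b).ne'
  have hyo : orderOf (b ^ (orderOf b / s)) = s := orderOf_pow_orderOf_div hob0 hsb
  have hyB : b ^ (orderOf b / s) ∈ d.B := pow_mem hb _
  have hyC : b ^ (orderOf b / s) ∈ Subgroup.centralizer ({z} : Set G) := pow_mem hbC _
  have hzn := d.mem_normalizer_B_of_comm hyB (hCM hyC) hs hyo hz (mem_cent.1 hyC).symm
  exact hz1 (d.eq_one_of_central_normalizer hzc hzn)

theorem MC.mem_normalizer_of_conj_mem (d : MC G) {z : G} (hz : z ∈ d.A)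
    (hzc : ∀ a ∈ d.A, a * z = z * a) (hz1 : z ≠ 1) {p : ℕ} (hp : p.Prime) {g : G}
    (hg : g * z * g⁻¹ ∈ Syl d.A p) : g ∈ Subgroup.normalizer (d.A : Set G) := by
  obtain ⟨r, hr, hrA, hrp⟩ := d.exists_other_prime p
  have hCA := d.centralizer_le_A hz hzc hz1
  have h1 : MulAut.conj g⁻¹ • Syl d.A r ≤ Syl d.A r := by
    apply le_Syl d.nilA hr
    · intro x hx
      rw [Conj.mem_conj_smul, inv_inv] at hx
      apply hCA
      rw [mem_cent]
      have hcomm := Syl_commute d.nilA hp hr (Ne.symm hrp) hg hx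
      calc z * x = g⁻¹ * (g * z * g⁻¹ * (g * x * g⁻¹)) * g := by group
        _ = g⁻¹ * (g * x * g⁻¹ * (g * z * g⁻¹)) * g := by rw [hcomm]
        _ = x * z := by group
    · exact conj_isPGroup (Syl_isPGroup _ _) _
  have h2 : g⁻¹ ∈ Subgroup.normalizer ((Syl d.A r : Subgroup G) : Set G) :=
    Conj.mem_normalizer_iff_conj_smul_eq.2 (Conj.conj_smul_eq_of_le h1)
  rw [d.normalizer_Syl hr hrA] at h2
  have h3 := inv_mem h2
  rwa [inv_inv] at h3

theorem MC.centralizer_le_M_of_normalizer_B (d : MC G) {x : G} (hx : x ∈ d.A) (hx1 : x ≠ 1)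
    (hxn : x ∈ Subgroup.normalizer (d.B : Set G)) :
    Subgroup.centralizer ({x} : Set G) ≤ Subgroup.normalizer (d.A : Set G) := by
  have hox : orderOf x ≠ 1 := fun h => hx1 (orderOf_eq_one_iff.1 h)
  obtain ⟨s, hs, hsx⟩ := Nat.exists_prime_and_dvd hox
  have hox0 : orderOf x ≠ 0 := (orderOf_pos x).ne'
  have hx₀o : orderOf (x ^ (orderOf x / s)) = s := orderOf_pow_orderOf_div hox0 hsx
  have hx₀A : x ^ (orderOf x / s) ∈ d.A := pow_mem hx _
  have hx₀n : x ^ (orderOf x / s) ∈ Subgroup.normalizer (d.B : Set G) := pow_mem hxn _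
  intro c hc
  have hc₀ : c ∈ Subgroup.centralizer ({x ^ (orderOf x / s)} : Set G) := by
    rw [mem_cent] at hc ⊢
    exact (Commute.pow_left (show Commute x c from hc) _).eq
  obtain ⟨b, hb, a, ha, hbC, haC, rfl⟩ :=
    d.swap.fac_centralizer (y := x ^ (orderOf x / s)) hx₀A hx₀n c hc₀
  have hbM : b ∈ Subgroup.normalizer (d.A : Set G) :=
    d.swap.mem_normalizer_B_of_comm (y := x ^ (orderOf x / s)) hx₀A hx₀n hs hx₀o hb
      (mem_cent.1 hbC)
  exact mul_mem hbM (Subgroup.le_normalizer ha)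

theorem MC.centralizer_le_M_prime (d : MC G) {a : G} (ha : a ∈ d.A) {p : ℕ} (hp : p.Prime)
    (hao : orderOf a = p) :
    Subgroup.centralizer ({a} : Set G) ≤ Subgroup.normalizer (d.A : Set G) := by
  by_contra hHM
  haveI : Fact p.Prime := ⟨hp⟩
  obtain ⟨M, hM⟩ : ∃ M : Subgroup G, M = Subgroup.normalizer (d.A : Set G) := ⟨_, rfl⟩
  obtain ⟨H, hH⟩ : ∃ H : Subgroup G, H = Subgroup.centralizer ({a} : Set G) := ⟨_, rfl⟩
  rw [← hM, ← hH] at hHM
  have hAM : d.A ≤ M := hM ▸ Subgroup.le_normalizer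
  have ha1 : a ≠ 1 := by rintro rfl; rw [orderOf_one] at hao; exact hp.ne_one hao.symm
  have hpA : p ∣ Nat.card d.A := hao ▸ orderOf_dvd_card_of_mem ha
  have haP : a ∈ Syl d.A p := mem_Syl d.nilA hp ha (k := 1) (by rw [hao, pow_one])
  have hmemH : ∀ x : G, x ∈ H ↔ a * x = x * a := fun x => by rw [hH]; exact mem_cent
  have haH : a ∈ H := (hmemH a).2 rfl
  have hHtop : H ≠ ⊤ := fun h => ha1 (d.eq_one_of_central (fun g =>
    ((hmemH g).1 (h ▸ Subgroup.mem_top g)).symm))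
  have hSylH : ∀ r : ℕ, r.Prime → r ≠ p → Syl d.A r ≤ H := fun r hr hrp x hx =>
    (hmemH x).2 (Syl_commute d.nilA hp hr (Ne.symm hrp) haP hx)
  obtain ⟨r, hr, hrA, hrp⟩ := d.exists_other_prime p
  -- (3') H ⊓ M ≤ A
  have h3 : H ⊓ M ≤ d.A := by
    by_contra hcon
    have hnc : ¬ (Nat.card ↥(H ⊓ M)).Coprime (Nat.card d.B) :=
      fun hc => hcon (d.le_A_of_coprime (hM ▸ inf_le_right) hc)
    obtain ⟨q, hq, hq1, hq2⟩ := Nat.Prime.not_coprime_iff_dvd.1 hnc
    haveI : Fact q.Prime := ⟨hq⟩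
    obtain ⟨u', hu'⟩ := exists_prime_orderOf_dvd_card' q hq1
    have huo : orderOf (u' : G) = q := by rw [Subgroup.orderOf_coe]; exact hu'
    have hqA : ¬ q ∣ Nat.card d.A := fun h => d.not_dvd_B hq h hq2
    obtain ⟨k, hk⟩ := d.swap.exists_le_conj_Syl hq hqA (T := Subgroup.zpowers (u' : G))
      (IsPGroup.of_card (n := 1) (by rw [Nat.card_zpowers, huo, pow_one]))
    have huB : (u' : G) ∈ MulAut.conj k • d.B := by
      have h1 := hk (Subgroup.mem_zpowers (u' : G))
      rw [Conj.mem_conj_smul] at h1 ⊢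
      exact Syl_le _ _ h1
    have huH : (u' : G) ∈ H := (Subgroup.mem_inf.1 u'.2).1
    have huM : (u' : G) ∈ Subgroup.normalizer (d.A : Set G) := hM ▸ (Subgroup.mem_inf.1 u'.2).2
    have han : a ∈ Subgroup.normalizer (((d.conjB k).B : Subgroup G) : Set G) :=
      (d.conjB k).mem_normalizer_B_of_comm huB huM hq huo ha ((hmemH _).1 huH).symm
    have hHM' := (d.conjB k).centralizer_le_M_of_normalizer_B ha ha1 han
    apply hHM
    rw [hH, hM]
    exact hHM'
  have hpK : p ∣ Nat.card ↥(d.A ⊓ H) := by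
    have h1 : orderOf a ∣ Nat.card ↥(d.A ⊓ H) := orderOf_dvd_card_of_mem ⟨ha, haH⟩
    rwa [hao] at h1
  have hrK : r ∣ Nat.card ↥(d.A ⊓ H) :=
    (dvd_card_Syl d.A hr hrA).trans
      (Subgroup.card_dvd_of_le (le_inf (Syl_le _ _) (hSylH r hr hrp)))
  have hcK : Nat.card ↥(d.A.subgroupOf H) = Nat.card ↥(d.A ⊓ H) := Card.card_subgroupOf_eq _ _
  -- normalizer condition
  have hnorm : ∀ t : ℕ, t.Prime → t ∣ Nat.card ↥(d.A.subgroupOf H) →
      ∀ T : Sylow t ↥(d.A.subgroupOf H),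
        Subgroup.normalizer
          (((T : Subgroup ↥(d.A.subgroupOf H)).map (d.A.subgroupOf H).subtype : Subgroup H) :
            Set H) = d.A.subgroupOf H := by
    intro t ht htK T
    haveI : Fact t.Prime := ⟨ht⟩
    have hT2 := map_sylow_subgroupOf_eq d.nilA H ht T
    have htA : t ∣ Nat.card d.A := by
      rw [hcK] at htK
      exact htK.trans (Subgroup.card_dvd_of_le inf_le_left)
    ext x
    rw [mem_normalizer_map_subtype_iff, hT2, Subgroup.mem_subgroupOf]
    constructor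
    · intro hx
      apply h3
      refine ⟨x.2, ?_⟩
      rw [hM]
      rcases eq_or_ne t p with htp | htp
      · -- t = p
        obtain ⟨z, hzP, hz1, hzc⟩ := exists_central d.nilA hp hpA
        have hzH : z ∈ H := (hmemH z).2 (hzc a ha)
        have hzT : z ∈ Syl d.A t ⊓ H := ⟨htp ▸ hzP, hzH⟩
        have hconj := normalizer_conj_mem hx hzT
        exact d.mem_normalizer_of_conj_mem (Syl_le _ _ hzP) hzc hz1 hp (htp ▸ hconj.1)
      · have e : Syl d.A t ⊓ H = Syl d.A t := inf_eq_left.2 (hSylH t ht htp)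
        rw [e, d.normalizer_Syl ht htA] at hx
        exact hx
    · intro hx
      have hx1 : (x : G) ∈ Subgroup.normalizer ((Syl d.A t : Subgroup G) : Set G) :=
        Syl_normal d.nilA ht hx
      have hx2 : (x : G) ∈ Subgroup.normalizer ((H : Subgroup G) : Set G) :=
        Subgroup.le_normalizer x.2
      rw [Subgroup.mem_normalizer_iff] at hx1 hx2 ⊢
      intro y
      exact ⟨fun hy => ⟨(hx1 y).1 hy.1, (hx2 y).1 hy.2⟩,
        fun hy => ⟨(hx1 y).2 hy.1, (hx2 y).2 hy.2⟩⟩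
  -- S0558
  obtain ⟨N', hN'n, hcomp⟩ : ∃ N' : Subgroup H, N'.Normal ∧
      Subgroup.IsComplement' N' (d.A.subgroupOf H) := by
    apply Cfsg.Agent.S0558.result (d.A.subgroupOf H)
    · intro t ht P hP
      haveI : Fact t.Prime := ⟨ht⟩
      have hPp : IsPGroup t ↥(d.A.subgroupOf H) := hP ▸ P.isPGroup'
      obtain ⟨k, hk⟩ := hPp.exists_card_eq
      rw [hcK] at hk
      have e1 : p = t := by
        rw [hk] at hpK
        exact (Nat.prime_dvd_prime_iff_eq hp ht).1 (hp.dvd_of_dvd_pow hpK)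
      have e2 : r = t := by
        rw [hk] at hrK
        exact (Nat.prime_dvd_prime_iff_eq hr ht).1 (hr.dvd_of_dvd_pow hrK)
      exact hrp (e2.trans e1.symm)
    · exact hnorm
  have hcard : Nat.card N' * Nat.card ↥(d.A.subgroupOf H) = Nat.card H := hcomp.card_mul_card
  have hcopNK : ∀ t : ℕ, t.Prime → t ∣ Nat.card ↥(d.A.subgroupOf H) → ¬ t ∣ Nat.card N' := by
    intro t ht htK htN
    haveI : Fact t.Prime := ⟨ht⟩
    obtain ⟨T⟩ : Nonempty (Sylow t ↥(d.A.subgroupOf H)) := inferInstance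
    obtain ⟨S, hS⟩ :=
      Cfsg.Agent.S0558.sylow_of_normalizer_le (d.A.subgroupOf H) t T (hnorm t ht htK T).le
    have hc1 : Nat.card (S : Subgroup H) = t ^ (Nat.card H).factorization t :=
      Sylow.card_eq_multiplicity S
    have hc2 : Nat.card (S : Subgroup H) =
        t ^ (Nat.card ↥(d.A.subgroupOf H)).factorization t := by
      rw [hS, Subgroup.card_map_of_injective (Subgroup.subtype_injective _)]
      exact Sylow.card_eq_multiplicity T
    have hfe : (Nat.card H).factorization t = (Nat.card ↥(d.A.subgroupOf H)).factorization t :=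
      Nat.pow_right_injective ht.two_le (hc1.symm.trans hc2)
    rw [← hcard, Nat.factorization_mul Nat.card_pos.ne' Nat.card_pos.ne', Finsupp.add_apply] at hfe
    have hpos : 0 < (Nat.card N').factorization t :=
      ht.factorization_pos_of_dvd Nat.card_pos.ne' htN
    omega
  obtain ⟨N, hN⟩ : ∃ N : Subgroup G, N = N'.map H.subtype := ⟨_, rfl⟩
  have hNH : N ≤ H := by rw [hN]; rintro x ⟨y, -, rfl⟩; exact y.2
  have hHN : H ≤ Subgroup.normalizer (N : Set G) := by
    rw [hN]; exact le_normalizer_map_subtype N' hN'n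
  have hcN : Nat.card N = Nat.card N' := by
    rw [hN, Subgroup.card_map_of_injective H.subtype_injective]
  have hN1 : Nat.card N ≠ 1 := by
    intro h1
    rw [hcN] at h1
    rw [h1, one_mul] at hcard
    have htop : d.A.subgroupOf H = ⊤ := (Subgroup.card_eq_iff_eq_top _).1 hcard
    apply hHM
    intro x hx
    have h2 : (⟨x, hx⟩ : H) ∈ d.A.subgroupOf H := htop ▸ Subgroup.mem_top _
    exact hAM (Subgroup.mem_subgroupOf.1 h2)
  obtain ⟨q, hq, hqN⟩ := Nat.exists_prime_and_dvd hN1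
  have hqK : ¬ q ∣ Nat.card ↥(d.A.subgroupOf H) := fun h => hcopNK q hq h (hcN ▸ hqN)
  have hqA : ¬ q ∣ Nat.card d.A := by
    intro hqA
    apply hqK
    rw [hcK]
    rcases eq_or_ne q p with hqp | hqp
    · rw [hqp]; exact hpK
    · exact (dvd_card_Syl d.A hq hqA).trans
        (Subgroup.card_dvd_of_le (le_inf (Syl_le _ _) (hSylH q hq hqp)))
  have hqB : q ∣ Nat.card d.B :=
    d.dvd_B_of hq (hqN.trans (Subgroup.card_subgroup_dvd_card N)) hqA
  have hrN : ¬ r ∣ Nat.card N := by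
    rw [hcN]; exact hcopNK r hr (by rw [hcK]; exact hrK)
  exact d.no_FQ hNH hHN hr hq hrA (hSylH r hr hrp) hrN hqB hqN

theorem MC.centralizer_le_M (d : MC G) {a : G} (ha : a ∈ d.A) (ha1 : a ≠ 1) :
    Subgroup.centralizer ({a} : Set G) ≤ Subgroup.normalizer (d.A : Set G) := by
  have hoa : orderOf a ≠ 1 := fun h => ha1 (orderOf_eq_one_iff.1 h)
  obtain ⟨p, hp, hpa⟩ := Nat.exists_prime_and_dvd hoa
  have hoa0 : orderOf a ≠ 0 := (orderOf_pos a).ne'
  have h1 := d.centralizer_le_M_prime (a := a ^ (orderOf a / p)) (pow_mem ha _) hp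
    (orderOf_pow_orderOf_div hoa0 hpa)
  refine le_trans ?_ h1
  intro c hc
  rw [mem_cent] at hc ⊢
  exact (Commute.pow_left (show Commute a c from hc) _).eq

theorem MC.TI (d : MC G) {g : G} (hg : g ∉ Subgroup.normalizer (d.A : Set G)) {x : G}
    (hx : x ∈ d.A) (hxg : g⁻¹ * x * g ∈ d.A) : x = 1 := by
  by_contra hx1
  obtain ⟨p, hp, hpA⟩ := d.exists_prime_A
  obtain ⟨z, hzP, hz1, hzc⟩ := exists_central d.nilA hp hpA
  have hz : z ∈ d.A := Syl_le _ _ hzP
  have hcomm : (g * z * g⁻¹) * x = x * (g * z * g⁻¹) := by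
    have h := hzc _ hxg
    calc (g * z * g⁻¹) * x = g * (z * (g⁻¹ * x * g)) * g⁻¹ := by group
      _ = g * ((g⁻¹ * x * g) * z) * g⁻¹ := by rw [h]
      _ = x * (g * z * g⁻¹) := by group
  have hz'M : g * z * g⁻¹ ∈ Subgroup.normalizer (d.A : Set G) :=
    d.centralizer_le_M hx hx1 (mem_cent.2 hcomm.symm)
  have hz'o : orderOf (g * z * g⁻¹) = orderOf z := (MulAut.conj g).orderOf_eq z
  have hz'A : g * z * g⁻¹ ∈ d.A := d.mem_A_of_coprime hz'M (by
    rw [hz'o]; exact Nat.Coprime.coprime_dvd_left (orderOf_dvd_card_of_mem hz) d.cop)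
  have hz'1 : g * z * g⁻¹ ≠ 1 := by
    intro h; apply hz1
    have e : z = g⁻¹ * (g * z * g⁻¹) * g := by group
    rw [e, h]; group
  have hle : MulAut.conj g • d.A ≤ Subgroup.centralizer ({g * z * g⁻¹} : Set G) := by
    intro w hw
    rw [Conj.mem_conj_smul] at hw
    rw [mem_cent]
    have h := hzc _ hw
    calc (g * z * g⁻¹) * w = g * (z * (g⁻¹ * w * g)) * g⁻¹ := by group
      _ = g * ((g⁻¹ * w * g) * z) * g⁻¹ := by rw [h]
      _ = w * (g * z * g⁻¹) := by group
  have hle2 : MulAut.conj g • d.A ≤ Subgroup.normalizer (d.A : Set G) :=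
    hle.trans (d.centralizer_le_M hz'A hz'1)
  have hle3 : MulAut.conj g • d.A ≤ d.A :=
    d.le_A_of_coprime hle2 (by rw [Conj.card_conj_smul]; exact d.cop)
  exact hg (Conj.mem_normalizer_iff_conj_smul_eq.2 (Conj.conj_smul_eq_of_le hle3))

theorem MC.card_lt (d : MC G) : Nat.card d.A < Nat.card d.B := by
  obtain ⟨M, hM⟩ : ∃ M : Subgroup G, M = Subgroup.normalizer (d.A : Set G) := ⟨_, rfl⟩
  have hAM : d.A ≤ M := hM ▸ Subgroup.le_normalizer
  obtain ⟨g, hg⟩ : ∃ g : G, g ∉ M := by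
    by_contra h; push Not at h
    exact d.normalizer_A_ne_top (hM ▸ eq_top_iff.2 (fun x _ => h x))
  have hf : Function.Injective (fun a : d.A => (QuotientGroup.mk ((a : G) * g) : G ⧸ M)) := by
    intro a a' h
    have h1 : ((a : G) * g)⁻¹ * ((a' : G) * g) ∈ M := QuotientGroup.eq.1 h
    have e : ((a : G) * g)⁻¹ * ((a' : G) * g) = g⁻¹ * ((a : G)⁻¹ * a') * g := by group
    rw [e, hM] at h1
    have hw : (a : G)⁻¹ * a' ∈ d.A := mul_mem (inv_mem a.2) a'.2
    have ho : orderOf (g⁻¹ * ((a : G)⁻¹ * a') * g) = orderOf ((a : G)⁻¹ * a') := by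
      have h2 := (MulAut.conj g⁻¹).orderOf_eq ((a : G)⁻¹ * a')
      rw [MulAut.conj_apply, inv_inv] at h2
      exact h2
    have h3 : g⁻¹ * ((a : G)⁻¹ * a') * g ∈ d.A := d.mem_A_of_coprime h1 (by
      rw [ho]; exact Nat.Coprime.coprime_dvd_left (orderOf_dvd_card_of_mem hw) d.cop)
    have h4 := d.TI (hM ▸ hg) hw h3
    exact Subtype.ext (inv_mul_eq_one.1 h4)
  have hne : ∀ a : d.A, (QuotientGroup.mk ((a : G) * g) : G ⧸ M) ≠ QuotientGroup.mk (1 : G) := by
    intro a h
    have h1 : ((a : G) * g)⁻¹ * 1 ∈ M := QuotientGroup.eq.1 h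
    apply hg
    rw [mul_one] at h1
    have h2 : (a : G) * g ∈ M := by
      have h3 := M.inv_mem h1
      rwa [inv_inv] at h3
    have h4 := M.mul_mem (M.inv_mem (hAM a.2)) h2
    rwa [inv_mul_cancel_left] at h4
  have h1 : Nat.card d.A + 1 ≤ M.index := by
    have hinj : Function.Injective (fun o : Option d.A =>
        o.elim (QuotientGroup.mk (1 : G) : G ⧸ M)
          (fun a : d.A => (QuotientGroup.mk ((a : G) * g) : G ⧸ M))) := by
      rintro (_ | a) (_ | a') h
      · rfl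
      · exact absurd h.symm (hne a')
      · exact absurd h (hne a)
      · exact congrArg some (hf h)
    have h2 := Nat.card_le_card_of_injective _ hinj
    rwa [Finite.card_option] at h2
  have h2 : M.index ∣ d.A.index := Subgroup.index_dvd_of_le hAM
  have h3 : d.A.index = Nat.card d.B := by
    have h := Subgroup.card_mul_index d.A
    rw [d.card_eq] at h
    exact Nat.eq_of_mul_eq_mul_left Nat.card_pos h
  rw [h3] at h2
  have h4 := Nat.le_of_dvd Nat.card_pos h2
  omega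

theorem MC.false (d : MC G) : False := by
  have h1 := d.card_lt
  have h2 : Nat.card d.B < Nat.card d.A := d.swap.card_lt
  omega

/-- The coprime Kegel–Wielandt theorem (Wielandt). -/
theorem coprime_solvable : ∀ (n : ℕ) (G : Type u) [Group G] [Finite G], Nat.card G = n →
    ∀ A B : Subgroup G, Group.IsNilpotent A → Group.IsNilpotent B →
      (Nat.card A).Coprime (Nat.card B) → (∀ g : G, ∃ a ∈ A, ∃ b ∈ B, g = a * b) →
      Group.IsSolvable G := by
  intro n
  induction n using Nat.strong_induction_on with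
  | _ n ih =>
    intro G _ _ hn A B hA hB hc hf
    by_contra ns
    exact MC.false ⟨A, B, hA, hB, hc, hf,
      fun H _ _ hlt A' B' hA' hB' hc' hf' =>
        ih (Nat.card H) (hn ▸ hlt) H rfl A' B' hA' hB' hc' hf', ns⟩

end Cfsg.Agent.Lib.Helper4.KW
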