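import Mathlib
import Cfsg.Agent.Lib.Helper4.KW1
import Cfsg.Agent.S0566

set_option autoImplicit false
open Pointwise

namespace Cfsg.Agent.Lib.Helper4.KW

open Cfsg.Agent.Lib.Helper4

universe u

/-- `U` permutes with every conjugate of `V`. -/
def Perm {G : Type*} [Group G] (U V : Subgroup G) : Prop :=
  ∀ x : G, ∃ S : Subgroup G, (S : Set G) = (U : Set G) * ((MulAut.conj x • V : Subgroup G) : Set G)

section

variable {G : Type*} [Group G]

theorem set_mul_comm {S X Y : Subgroup G} (h : (S : Set G) = (X : Set G) * (Y : Set G)) :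
    (S : Set G) = (Y : Set G) * (X : Set G) := by
  ext g
  constructor
  · intro hg
    have h1 : g⁻¹ ∈ (S : Set G) := S.inv_mem hg
    rw [h] at h1
    obtain ⟨x, hx, y, hy, hxy⟩ := h1
    have hxy' : x * y = g⁻¹ := hxy
    refine Set.mem_mul.2 ⟨y⁻¹, Y.inv_mem hy, x⁻¹, X.inv_mem hx, ?_⟩
    rw [← mul_inv_rev, hxy', inv_inv]
  · rintro ⟨y, hy, x, hx, rfl⟩
    have h1 : x⁻¹ * y⁻¹ ∈ (S : Set G) := by
      rw [h]; exact Set.mul_mem_mul (X.inv_mem hx) (Y.inv_mem hy)
    have h2 := S.inv_mem h1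
    rw [mul_inv_rev, inv_inv, inv_inv] at h2
    exact h2

theorem Perm.conj {U V : Subgroup G} (h : Perm U V) (g x : G) :
    Perm (MulAut.conj g • U) (MulAut.conj x • V) := by
  intro y
  obtain ⟨S, hS⟩ := h (g⁻¹ * y * x)
  refine ⟨MulAut.conj g • S, ?_⟩
  rw [conj_smul_mul_set g hS, Conj.conj_smul_smul, Conj.conj_smul_smul]
  have e : g * (g⁻¹ * y * x) = y * x := by group
  rw [e]

theorem Perm.symm {U V : Subgroup G} (h : Perm U V) : Perm V U := by
  intro x
  obtain ⟨S, hS⟩ := h x⁻¹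
  refine ⟨MulAut.conj x • S, ?_⟩
  have h1 := conj_smul_mul_set x hS
  rw [Conj.conj_smul_smul, mul_inv_cancel, Conj.conj_one_smul] at h1
  exact set_mul_comm h1

theorem Perm.subgroupOf {U V D : Subgroup G} (hU : U ≤ D) (h : Perm U V) :
    Perm (U.subgroupOf D) (V.subgroupOf D) := by
  intro d'
  obtain ⟨S, hS⟩ := h (d' : G)
  refine ⟨S.subgroupOf D, ?_⟩
  ext y
  constructor
  · intro hy
    have h1 : (y : G) ∈ (S : Set G) := Subgroup.mem_subgroupOf.1 (SetLike.mem_coe.1 hy)
    rw [hS] at h1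
    obtain ⟨u, hu, w, hw, huw⟩ := h1
    have huw' : u * w = (y : G) := huw
    have hwD : w ∈ D := by
      have h2 := D.mul_mem (D.inv_mem (hU hu)) y.2
      rw [← huw', inv_mul_cancel_left] at h2
      exact h2
    refine Set.mem_mul.2 ⟨⟨u, hU hu⟩, Subgroup.mem_subgroupOf.2 hu, ⟨w, hwD⟩, ?_, Subtype.ext huw'⟩
    apply SetLike.mem_coe.2
    rw [Conj.mem_conj_smul]
    apply Subgroup.mem_subgroupOf.2
    exact Conj.mem_conj_smul.1 (SetLike.mem_coe.1 hw)
  · rintro ⟨u, hu, w, hw, rfl⟩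
    apply SetLike.mem_coe.2
    apply Subgroup.mem_subgroupOf.2
    have h1 : ((u : G) * (w : G)) ∈ (S : Set G) := by
      rw [hS]
      refine Set.mul_mem_mul (Subgroup.mem_subgroupOf.1 (SetLike.mem_coe.1 hu)) ?_
      apply SetLike.mem_coe.2
      rw [Conj.mem_conj_smul]
      exact Subgroup.mem_subgroupOf.1 (Conj.mem_conj_smul.1 (SetLike.mem_coe.1 hw))
    exact h1

theorem conj_smul_le_normal {D : Subgroup G} (hD : D.Normal) {U : Subgroup G} (hU : U ≤ D)
    (g : G) : MulAut.conj g • U ≤ D := by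
  intro x hx
  rw [Conj.mem_conj_smul] at hx
  have h1 := hD.conj_mem _ (hU hx) g
  have e : g * (g⁻¹ * x * g) * g⁻¹ = x := by group
  rwa [e] at h1

theorem normalClosure_le_of_conj_le {V K : Subgroup G} (h : ∀ c : G, MulAut.conj c • V ≤ K) :
    Subgroup.normalClosure (V : Set G) ≤ K := by
  show Subgroup.closure (Group.conjugatesOfSet (V : Set G)) ≤ K
  rw [Subgroup.closure_le]
  intro y hy
  rw [Group.mem_conjugatesOfSet_iff] at hy
  obtain ⟨a, ha, hconj⟩ := hy
  obtain ⟨c, rfl⟩ := isConj_iff.1 hconj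
  exact h c (Conj.conj_mem_conj_smul ha)

end

section

variable {G : Type u} [Group G] [Finite G]

theorem noNP_of_normal {p : ℕ} {D : Subgroup G} (hD : D.Normal)
    (hO : ∀ N : Subgroup G, N.Normal → IsPGroup p N → N = ⊥) :
    ∀ N' : Subgroup D, N'.Normal → IsPGroup p N' → N' = ⊥ := by
  intro N' hN' hp'
  haveI := hD
  haveI := Cfsg.Agent.Lib.Helper9.pCore_characteristic p D
  have h1 : ((Cfsg.pCore p D).map D.subtype).Normal := ConjAct.normal_of_characteristic_of_normal
  have h2 := hO _ h1 ((Cfsg.Agent.Lib.Helper9.pCore_isPGroup p D).map D.subtype)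
  have h3 : Cfsg.pCore p D = ⊥ := (Subgroup.map_eq_bot_iff_of_injective _ D.subtype_injective).1 h2
  have h4 := Cfsg.Agent.Lib.Helper9.le_pCore hN' hp'
  rw [h3] at h4
  exact le_bot_iff.1 h4

theorem eq_bot_of_central {p : ℕ} (hO : ∀ N : Subgroup G, N.Normal → IsPGroup p N → N = ⊥)
    {D W : Subgroup G} (hD : D.Normal) (hWD : W ≤ D) (hWp : IsPGroup p W)
    (hc : ∀ w ∈ W, ∀ y ∈ D, y * w = w * y) : W = ⊥ := by
  have hn : (W.subgroupOf D).Normal := by
    constructor
    intro n hn g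
    have h1 : (g : G) * n = n * g := hc n (Subgroup.mem_subgroupOf.1 hn) g g.2
    have e : g * n * g⁻¹ = n := by
      apply Subtype.ext
      show (g : G) * n * (g : G)⁻¹ = n
      rw [h1, mul_inv_cancel_right]
    rw [e]; exact hn
  have h2 := noNP_of_normal hD hO (W.subgroupOf D) hn (hWp.comap_subtype)
  rw [eq_bot_iff]
  intro w hw
  have h3 : (⟨w, hWD hw⟩ : D) ∈ W.subgroupOf D := Subgroup.mem_subgroupOf.2 hw
  rw [h2] at h3
  exact Subgroup.mem_bot.2 (congrArg Subtype.val (Subgroup.mem_bot.1 h3))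

/-- the induction hypothesis for lemma (W) -/
def WIH (p : ℕ) (G : Type u) [Group G] [Finite G] : Prop :=
  ∀ (H : Type u) [Group H] [Finite H], Nat.card H < Nat.card G →
    (∀ N : Subgroup H, N.Normal → IsPGroup p N → N = ⊥) →
    ∀ U V : Subgroup H, IsPGroup p U → IsPGroup p V → Perm U V →
      ∀ u ∈ U, ∀ v ∈ V, u * v = v * u

theorem comm_in {p : ℕ} (ih : WIH p G) {D : Subgroup G} (hD : D.Normal) (hDtop : D ≠ ⊤)
    (hO : ∀ N : Subgroup G, N.Normal → IsPGroup p N → N = ⊥) {U V : Subgroup G}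
    (hUp : IsPGroup p U) (hVp : IsPGroup p V) (hU : U ≤ D) (h : Perm U V) :
    ∀ u ∈ U, ∀ v ∈ V ⊓ D, u * v = v * u := by
  intro u hu v hv
  have hlt : Nat.card D < Nat.card G :=
    lt_of_le_of_ne (Subgroup.card_le_card_group D)
      (fun h1 => hDtop ((Subgroup.card_eq_iff_eq_top D).1 h1))
  have h1 := ih D hlt (noNP_of_normal hD hO) (U.subgroupOf D) (V.subgroupOf D)
    hUp.comap_subtype hVp.comap_subtype (h.subgroupOf hU) ⟨u, hU hu⟩
    (Subgroup.mem_subgroupOf.2 hu) ⟨v, hv.2⟩ (Subgroup.mem_subgroupOf.2 hv.1)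
  exact congrArg Subtype.val h1

theorem W_step {p : ℕ} [Fact p.Prime] (ih : WIH p G)
    (hO : ∀ N : Subgroup G, N.Normal → IsPGroup p N → N = ⊥) {U V : Subgroup G}
    (hUp : IsPGroup p U) (hVp : IsPGroup p V) (h : Perm U V) {N : Subgroup G} (hN : N.Normal)
    (hNtop : N ≠ ⊤) (hUN : U ≤ N) : ∀ u ∈ U, ∀ v ∈ V, u * v = v * u := by
  obtain ⟨D, hDdef⟩ : ∃ D : Subgroup G, D = Subgroup.normalClosure (U : Set G) := ⟨_, rfl⟩
  have hD : D.Normal := hDdef ▸ Subgroup.normalClosure_normal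
  have hUD : U ≤ D := fun x hx => hDdef ▸ Subgroup.subset_normalClosure hx
  have hDN : D ≤ N := by
    haveI := hN
    rw [hDdef]; exact Subgroup.normalClosure_le_normal hUN
  have hDtop : D ≠ ⊤ := fun h1 => hNtop (top_le_iff.1 (h1 ▸ hDN))
  -- Step A
  have hA : ∀ x : G, (MulAut.conj x • V) ⊓ D = ⊥ := by
    intro x
    apply eq_bot_of_central hO hD inf_le_right ((conj_isPGroup hVp x).to_le inf_le_left)
    intro w hw y hy
    have h1 : D ≤ Subgroup.centralizer {w} := by
      rw [hDdef]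
      apply normalClosure_le_of_conj_le
      intro g u hu
      rw [mem_cent]
      exact (comm_in ih hD hDtop hO (conj_isPGroup hUp g) (conj_isPGroup hVp x)
        (conj_smul_le_normal hD hUD g) (h.conj g x) u hu w hw).symm
    exact (mem_cent.1 (h1 hy)).symm
  -- Step B
  have hB : ∀ x : G, MulAut.conj x • V ≤ Subgroup.normalizer (U : Set G) := by
    intro x w hw
    obtain ⟨S, hS⟩ := h x
    have hwS : w ∈ S := by
      have h1 : w ∈ (S : Set G) := by
        rw [hS]; exact Set.mem_mul.2 ⟨1, one_mem _, w, hw, one_mul w⟩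
      exact h1
    have hUS : U ≤ S := fun u hu => by
      have h1 : u ∈ (S : Set G) := by
        rw [hS]; exact Set.mem_mul.2 ⟨u, hu, 1, one_mem _, mul_one u⟩
      exact h1
    apply Conj.mem_normalizer_iff_conj_smul_eq.2
    apply Conj.conj_smul_eq_of_le
    intro y hy
    rw [Conj.mem_conj_smul] at hy
    have hyS : y ∈ (S : Set G) := by
      have h1 := S.mul_mem (S.mul_mem hwS (hUS hy)) (S.inv_mem hwS)
      have e : w * (w⁻¹ * y * w) * w⁻¹ = y := by group
      rwa [e] at h1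
    have hyD : y ∈ D := by
      have h1 := hD.conj_mem _ (hUD hy) w
      have e : w * (w⁻¹ * y * w) * w⁻¹ = y := by group
      rwa [e] at h1
    rw [hS] at hyS
    obtain ⟨u', hu', w', hw', huw⟩ := hyS
    have huw' : u' * w' = y := huw
    have hw'D : w' ∈ D := by
      have h2 := D.mul_mem (D.inv_mem (hUD hu')) hyD
      rw [← huw', inv_mul_cancel_left] at h2
      exact h2
    have hw'1 : w' ∈ (MulAut.conj x • V) ⊓ D := ⟨hw', hw'D⟩
    rw [hA x] at hw'1
    rw [← huw', Subgroup.mem_bot.1 hw'1, mul_one]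
    exact hu'
  -- Step C
  obtain ⟨E, hEdef⟩ : ∃ E : Subgroup G, E = Subgroup.normalClosure (V : Set G) := ⟨_, rfl⟩
  have hE : E.Normal := hEdef ▸ Subgroup.normalClosure_normal
  have hVE : V ≤ E := fun x hx => hEdef ▸ Subgroup.subset_normalClosure hx
  have hEU : E ≤ Subgroup.normalizer (U : Set G) := by
    rw [hEdef]; exact normalClosure_le_of_conj_le hB
  by_cases hEtop : E = ⊤
  · have hUn : U.Normal := by
      rw [← Subgroup.normalizer_eq_top_iff, eq_top_iff, ← hEtop]; exact hEU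
    have hU0 := hO U hUn hUp
    intro u hu v _
    rw [hU0] at hu
    rw [Subgroup.mem_bot.1 hu, one_mul, mul_one]
  · -- Step D
    have hUE : U ⊓ E = ⊥ := by
      apply eq_bot_of_central hO hE inf_le_right (hUp.to_le inf_le_left)
      intro u hu y hy
      have h1 : E ≤ Subgroup.centralizer {u} := by
        rw [hEdef]
        apply normalClosure_le_of_conj_le
        intro x w hw
        rw [mem_cent]
        have hperm : Perm (MulAut.conj x • V) U := by
          have h2 := (h.conj 1 x).symm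
          rwa [Conj.conj_one_smul] at h2
        exact (comm_in ih hE hEtop hO (conj_isPGroup hVp x) hUp
          (conj_smul_le_normal hE hVE x) hperm w hw u hu).symm
      exact (mem_cent.1 (h1 hy)).symm
    intro u hu v hv
    have hvE : v ∈ E := hVE hv
    have h0 : v * u⁻¹ * v⁻¹ ∈ U := normalizer_conj_mem (hEU hvE) (U.inv_mem hu)
    have h1a : u * (v * u⁻¹ * v⁻¹) ∈ U := U.mul_mem hu h0
    have h1b : u * (v * u⁻¹ * v⁻¹) ∈ E := by
      have h2 := hE.conj_mem v hvE u
      have e : u * (v * u⁻¹ * v⁻¹) = (u * v * u⁻¹) * v⁻¹ := by group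
      rw [e]; exact E.mul_mem h2 (E.inv_mem hvE)
    have h1 : u * (v * u⁻¹ * v⁻¹) ∈ U ⊓ E := ⟨h1a, h1b⟩
    rw [hUE] at h1
    have h3 := Subgroup.mem_bot.1 h1
    calc u * v = (u * (v * u⁻¹ * v⁻¹)) * (v * u) := by group
      _ = v * u := by rw [h3, one_mul]

theorem W_all (p : ℕ) [Fact p.Prime] : ∀ (n : ℕ) (G : Type u) [Group G] [Finite G],
    Nat.card G = n → (∀ N : Subgroup G, N.Normal → IsPGroup p N → N = ⊥) →
    ∀ U V : Subgroup G, IsPGroup p U → IsPGroup p V → Perm U V →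
      ∀ u ∈ U, ∀ v ∈ V, u * v = v * u := by
  intro n
  induction n using Nat.strong_induction_on with
  | _ n ih =>
    intro G _ _ hn hO U V hUp hVp h
    have ih' : WIH p G := fun H _ _ hlt hO' U' V' hU' hV' h' =>
      ih (Nat.card H) (hn ▸ hlt) H rfl hO' U' V' hU' hV' h'
    by_cases hU0 : U = ⊥
    · intro u hu v _
      rw [hU0] at hu
      rw [Subgroup.mem_bot.1 hu, one_mul, mul_one]
    by_cases hV0 : V = ⊥
    · intro u _ v hv
      rw [hV0] at hv
      rw [Subgroup.mem_bot.1 hv, one_mul, mul_one]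
    have hp : p.Prime := Fact.out
    obtain ⟨N, hNn, hNt, hN2⟩ := Cfsg.Agent.S0566.result U V hU0 hV0 (by
      intro x
      obtain ⟨S, hS⟩ := h x
      refine ⟨S, ?_, hS⟩
      intro hS1
      have hc := Card.card_mul_set U (MulAut.conj x • V)
      rw [← hS, hS1] at hc
      have hc1 : Nat.card ((⊤ : Subgroup G) : Set G) = Nat.card G :=
        Nat.card_congr (Equiv.Set.univ G)
      rw [hc1] at hc
      obtain ⟨a, ha⟩ := hUp.exists_card_eq
      obtain ⟨b, hb⟩ := (conj_isPGroup hVp x).exists_card_eq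
      have hdvd : Nat.card G ∣ p ^ (a + b) := by
        rw [pow_add, ← ha, ← hb, ← hc]; exact dvd_mul_right _ _
      obtain ⟨c, -, hc2⟩ := (Nat.dvd_prime_pow hp).1 hdvd
      have hG : IsPGroup p G := IsPGroup.of_card hc2
      have htop : (⊤ : Subgroup G) = ⊥ := hO ⊤ inferInstance (hG.to_subgroup ⊤)
      exact hU0 (le_bot_iff.1 (htop ▸ le_top)))
    rcases hN2 with hUN | hVN
    · exact W_step ih' hO hUp hVp h hNn hNt hUN
    · intro u hu v hv
      exact (W_step ih' hO hVp hUp h.symm hNn hNt hVN v hv u hu).symm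

/-- Lemma (W): permutable `p`-subgroups in a group without normal `p`-subgroups commute. -/
theorem W_comm (p : ℕ) [Fact p.Prime] (hO : ∀ N : Subgroup G, N.Normal → IsPGroup p N → N = ⊥)
    {U V : Subgroup G} (hUp : IsPGroup p U) (hVp : IsPGroup p V) (h : Perm U V) :
    ∀ u ∈ U, ∀ v ∈ V, u * v = v * u :=
  W_all p (Nat.card G) G rfl hO U V hUp hVp h

end

end Cfsg.Agent.Lib.Helper4.KW
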