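import Mathlib
import Cfsg.Agent.Lib.Lead.QuadSyl
import Cfsg.Agent.Lib.Helper12.PSolvable
import Cfsg.Agent.Lib.Helper9.Cores
import Cfsg.Agent.Lib.Helper4.PSolv
import Cfsg.Agent.Lib.Helper21.BaerSuzuki
import Cfsg.Agent.S0023

/-!
# Two opposite transvections generating a `p`-solvable group

`matrix_main`: if a subgroup `L` of `GL₂(E)` (`E` a finite field of odd characteristic `p`) of
determinant one contains `[[1,1],[0,1]]` and `[[1,0],[γ,1]]`, `γ ≠ 0`, and is `p`-solvable, then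
`p = 3` and `L` contains an element of trace zero whose lower left entry is `1`.
-/

set_option autoImplicit false
open scoped MatrixGroups
open Cfsg

namespace Cfsg.Agent.Lib.Helper4.QuadMat

open Cfsg.Agent.Lib.Lead.QuadCore Cfsg.Agent.Lib.Lead.QuadSyl

universe u

theorem isPGroup_zpowers {X : Type*} [Group X] (p : ℕ) (x : X) (k : ℕ) (hx : x ^ p ^ k = 1) :
    IsPGroup p ↥(Subgroup.zpowers x) := by
  rintro ⟨g, hg⟩
  obtain ⟨i, rfl⟩ := Subgroup.mem_zpowers_iff.mp hg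
  refine ⟨k, Subtype.ext ?_⟩
  show (x ^ i) ^ p ^ k = 1
  rw [← zpow_natCast, ← zpow_mul, mul_comm, zpow_mul, zpow_natCast, hx, one_zpow]

/-- an element outside a subgroup `C` has a power of prime power order outside `C` -/
theorem exists_prime_pow_elt {X : Type*} [Group X] [Finite X] (C N : Subgroup X) :
    ∀ (n : ℕ) (z : X), orderOf z = n → z ∈ N → z ∉ C →
      ∃ (q : ℕ) (_ : q.Prime) (z' : X) (k : ℕ), z' ∈ N ∧ z' ∉ C ∧ z' ^ q ^ k = 1 := by
  intro n
  induction n using Nat.strong_induction_on with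
  | _ n ih =>
  intro z hz hzN hzC
  have hn0 : n ≠ 0 := by rw [← hz]; exact (orderOf_pos z).ne'
  have hn1 : n ≠ 1 := by
    intro h
    rw [h, orderOf_eq_one_iff] at hz
    rw [hz] at hzC
    exact hzC C.one_mem
  obtain ⟨q, hq, hqn⟩ := Nat.exists_prime_and_dvd hn1
  obtain ⟨k, m, hqm, hnkm⟩ := Nat.exists_eq_pow_mul_and_not_dvd hn0 q hq.ne_one
  have hzn : z ^ n = 1 := by rw [← hz]; exact pow_orderOf_eq_one z
  by_cases hm1 : m = 1
  · refine ⟨q, hq, z, k, hzN, hzC, ?_⟩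
    rw [hm1, mul_one] at hnkm
    rw [← hnkm]
    exact hzn
  · have hcop : Nat.Coprime (q ^ k) m :=
      Nat.Coprime.pow_left k ((Nat.Prime.coprime_iff_not_dvd hq).mpr hqm)
    have hco : IsCoprime ((q ^ k : ℕ) : ℤ) (m : ℤ) := Nat.isCoprime_iff_coprime.mpr hcop
    obtain ⟨s, t, hst⟩ := hco
    have hz1 : z = (z ^ (q ^ k)) ^ s * (z ^ m) ^ t := by
      rw [← zpow_natCast z (q ^ k), ← zpow_natCast z m, ← zpow_mul, ← zpow_mul, ← zpow_add]
      have h1 : ((q ^ k : ℕ) : ℤ) * s + (m : ℤ) * t = 1 := by linear_combination hst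
      rw [h1, zpow_one]
    by_cases h1 : z ^ m ∈ C
    · have h2 : z ^ (q ^ k) ∉ C := by
        intro h2
        apply hzC
        rw [hz1]
        exact C.mul_mem (C.zpow_mem h2 s) (C.zpow_mem h1 t)
      have hk0 : k ≠ 0 := by
        intro hk
        rw [hk, pow_zero, one_mul] at hnkm
        rw [hnkm] at hqn
        exact hqm hqn
      have hm0 : 0 < m := by
        rcases Nat.eq_zero_or_pos m with h | h
        · rw [h, mul_zero] at hnkm; exact absurd hnkm hn0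
        · exact h
      have hlt : orderOf (z ^ (q ^ k)) < n := by
        have hdvd : orderOf (z ^ (q ^ k)) ∣ m := by
          apply orderOf_dvd_of_pow_eq_one
          rw [← pow_mul, ← hnkm]; exact hzn
        have hle := Nat.le_of_dvd hm0 hdvd
        have hq2 : 2 ≤ q ^ k := by
          calc 2 ≤ q := hq.two_le
            _ = q ^ 1 := (pow_one q).symm
            _ ≤ q ^ k := Nat.pow_le_pow_right hq.pos (Nat.one_le_iff_ne_zero.mpr hk0)
        have hmn : m < n := by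
          rw [hnkm]
          have := Nat.mul_le_mul_right m hq2
          linarith
        exact lt_of_le_of_lt hle hmn
      exact ih _ hlt (z ^ (q ^ k)) rfl (N.pow_mem hzN _) h2
    · refine ⟨q, hq, z ^ m, k, N.pow_mem hzN _, h1, ?_⟩
      rw [← pow_mul, mul_comm, ← hnkm]; exact hzn

section basic

variable {E : Type u} [Field E]

omit [Field E] in
theorem mk2_eq_iff (a b c d a' b' c' d' : E) :
    (!![a, b; c, d] : Matrix (Fin 2) (Fin 2) E) = !![a', b'; c', d'] ↔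
      a = a' ∧ b = b' ∧ c = c' ∧ d = d' := by
  constructor
  · intro h
    exact ⟨congrFun (congrFun h 0) 0, congrFun (congrFun h 0) 1, congrFun (congrFun h 1) 0,
      congrFun (congrFun h 1) 1⟩
  · rintro ⟨rfl, rfl, rfl, rfl⟩
    rfl

theorem neg_mk2 (a b c d : E) :
    -(!![a, b; c, d] : Matrix (Fin 2) (Fin 2) E) = !![-a, -b; -c, -d] := by
  ext i j
  fin_cases i <;> fin_cases j <;> rfl

theorem conj_tU_val (t : E) (y : GL (Fin 2) E) (a b c d : E)
    (hy : (y : Matrix (Fin 2) (Fin 2) E) = !![a, b; c, d]) :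
    ((tU t * y * (tU t)⁻¹ : GL (Fin 2) E) : Matrix (Fin 2) (Fin 2) E) =
      !![a + t * c, b + t * (d - a) - t * t * c; c, d - t * c] := by
  rw [tU_inv, Units.val_mul, Units.val_mul, tU_val, tU_val, hy, Matrix.mul_fin_two,
    Matrix.mul_fin_two, mk2_eq_iff]
  refine ⟨by ring, by ring, by ring, by ring⟩

theorem tU_mul_val (s : E) (y : GL (Fin 2) E) (a b c d : E)
    (hy : (y : Matrix (Fin 2) (Fin 2) E) = !![a, b; c, d]) :
    ((tU s * y : GL (Fin 2) E) : Matrix (Fin 2) (Fin 2) E) = !![a + s * c, b + s * d; c, d] := by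
  rw [Units.val_mul, tU_val, hy, Matrix.mul_fin_two, mk2_eq_iff]
  refine ⟨by ring, by ring, by ring, by ring⟩

theorem tV_mul_val (s : E) (y : GL (Fin 2) E) (a b c d : E)
    (hy : (y : Matrix (Fin 2) (Fin 2) E) = !![a, b; c, d]) :
    ((tV s * y : GL (Fin 2) E) : Matrix (Fin 2) (Fin 2) E) = !![a, b; s * a + c, s * b + d] := by
  rw [Units.val_mul, tV_val, hy, Matrix.mul_fin_two, mk2_eq_iff]
  refine ⟨by ring, by ring, by ring, by ring⟩

theorem inv_val_of (y : GL (Fin 2) E) (a b c d : E)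
    (hy : (y : Matrix (Fin 2) (Fin 2) E) = !![a, b; c, d]) (hd : a * d - b * c = 1) :
    ((y⁻¹ : GL (Fin 2) E) : Matrix (Fin 2) (Fin 2) E) = !![d, -b; -c, a] := by
  have h1 : (y : Matrix (Fin 2) (Fin 2) E) * !![d, -b; -c, a] = 1 := by
    rw [hy, Matrix.mul_fin_two, Matrix.one_fin_two, mk2_eq_iff]
    refine ⟨?_, ?_, ?_, ?_⟩
    · linear_combination hd
    · ring
    · ring
    · linear_combination hd
  calc ((y⁻¹ : GL (Fin 2) E) : Matrix (Fin 2) (Fin 2) E)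
      = ((y⁻¹ : GL (Fin 2) E) : Matrix (Fin 2) (Fin 2) E) *
          ((y : Matrix (Fin 2) (Fin 2) E) * !![d, -b; -c, a]) := by rw [h1, mul_one]
    _ = !![d, -b; -c, a] := by rw [← mul_assoc, Units.inv_mul, one_mul]

/-- the subgroup `{1, -1}` of `GL₂` -/
def pmOne (E : Type u) [Field E] : Subgroup (GL (Fin 2) E) where
  carrier := {y | (y : Matrix (Fin 2) (Fin 2) E) = 1 ∨ (y : Matrix (Fin 2) (Fin 2) E) = -1}
  one_mem' := Or.inl rfl
  mul_mem' := by
    rintro x y (hx | hx) (hy | hy)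
    · left; rw [Units.val_mul, hx, hy, mul_one]
    · right; rw [Units.val_mul, hx, hy, one_mul]
    · right; rw [Units.val_mul, hx, hy, mul_one]
    · left; rw [Units.val_mul, hx, hy, neg_mul_neg, mul_one]
  inv_mem' := by
    rintro x (hx | hx)
    · left
      have h1 : x = 1 := Units.ext hx
      rw [h1, inv_one]; rfl
    · right
      have h1 : ((x⁻¹ : GL (Fin 2) E) : Matrix (Fin 2) (Fin 2) E) *
          (x : Matrix (Fin 2) (Fin 2) E) = 1 := Units.inv_mul x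
      rw [hx, mul_neg, mul_one] at h1
      exact neg_eq_iff_eq_neg.mp h1

theorem mem_pmOne {y : GL (Fin 2) E} : y ∈ pmOne E ↔
    (y : Matrix (Fin 2) (Fin 2) E) = 1 ∨ (y : Matrix (Fin 2) (Fin 2) E) = -1 := Iff.rfl

theorem pmOne_comm {s : GL (Fin 2) E} (hs : s ∈ pmOne E) (g : GL (Fin 2) E) : s * g = g * s := by
  apply Units.ext
  rw [Units.val_mul, Units.val_mul]
  rcases mem_pmOne.mp hs with h | h
  · rw [h, one_mul, mul_one]
  · rw [h, neg_mul, mul_neg, one_mul, mul_one]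

theorem two_ne (p : ℕ) [Fact p.Prime] [CharP E p] (hp : p ≠ 2) : (2 : E) ≠ 0 := by
  intro h
  have h3 : ((2 : ℕ) : E) = 0 := by exact_mod_cast h
  rw [CharP.cast_eq_zero_iff E p] at h3
  exact hp ((Nat.prime_dvd_prime_iff_eq (Fact.out : p.Prime) Nat.prime_two).mp h3)

theorem tU_mem_coprime (p : ℕ) [Fact p.Prime] [CharP E p] (Q : Subgroup (GL (Fin 2) E))
    (hcop : (Nat.card Q).Coprime p) (s : E) (hs : tU s ∈ Q) : s = 0 := by
  have h1 : (tU s) ^ Nat.card Q = 1 := by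
    have := pow_card_eq_one' (G := Q) (x := ⟨tU s, hs⟩)
    exact congrArg Subtype.val this
  rw [tU_pow] at h1
  have h1' := congrArg Units.val h1
  rw [tU_val, Units.val_one, Matrix.one_fin_two, mk2_eq_iff] at h1'
  have h2 : (Nat.card Q) • s = 0 := h1'.2.1
  rw [nsmul_eq_mul] at h2
  rcases mul_eq_zero.mp h2 with h3 | h3
  · exfalso
    rw [CharP.cast_eq_zero_iff E p] at h3
    exact (Nat.Prime.coprime_iff_not_dvd (Fact.out : p.Prime)).mp hcop.symm h3
  · exact h3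

/-- **Key lemma.** In a `p'`-subgroup `Q` of determinant one, an element commuting with its
conjugate under a nontrivial upper transvection normalizing it into `Q` is `±1`. -/
theorem key_comm (p : ℕ) [Fact p.Prime] [CharP E p] (hp : p ≠ 2) (Q : Subgroup (GL (Fin 2) E))
    (hdet : ∀ y ∈ Q, (y : Matrix (Fin 2) (Fin 2) E).det = 1)
    (hcop : (Nat.card Q).Coprime p) (t : E) (ht : t ≠ 0) (y : GL (Fin 2) E) (hy : y ∈ Q)
    (hy' : tU t * y * (tU t)⁻¹ ∈ Q)
    (hc : y * (tU t * y * (tU t)⁻¹) = tU t * y * (tU t)⁻¹ * y) : y ∈ pmOne E := by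
  have h2 : (2 : E) ≠ 0 := two_ne p hp
  obtain ⟨a, b, c, d, hyv⟩ : ∃ a b c d : E, (y : Matrix (Fin 2) (Fin 2) E) = !![a, b; c, d] :=
    ⟨_, _, _, _, Matrix.eta_fin_two _⟩
  have hd := hdet y hy
  rw [hyv, Matrix.det_fin_two_of] at hd
  have hcv := conj_tU_val t y a b c d hyv
  obtain ⟨y', hy'd⟩ : ∃ y' : GL (Fin 2) E, y' = tU t * y * (tU t)⁻¹ := ⟨_, rfl⟩
  rw [← hy'd] at hy' hc hcv
  have h10 : c = 0 := by
    have h := congrArg Units.val hc
    rw [Units.val_mul y y', Units.val_mul y' y, hcv, hyv, Matrix.mul_fin_two, Matrix.mul_fin_two,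
      mk2_eq_iff] at h
    have h3 := h.2.2.1
    have h4 : 2 * t * (c * c) = 0 := by linear_combination h3
    rcases mul_eq_zero.mp h4 with h5 | h5
    · exfalso
      rcases mul_eq_zero.mp h5 with h6 | h6
      · exact h2 h6
      · exact ht h6
    · exact mul_self_eq_zero.mp h5
  subst h10
  have had : a * d = 1 := by linear_combination hd
  have ha0 : a ≠ 0 := by
    intro h; rw [h, zero_mul] at had; exact zero_ne_one had
  have hinv : ((y⁻¹ : GL (Fin 2) E) : Matrix (Fin 2) (Fin 2) E) = !![d, -b; -0, a] :=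
    inv_val_of y a b 0 d hyv hd
  have hcomm : y' * y⁻¹ = tU (t * a * (d - a)) := by
    apply Units.ext
    rw [Units.val_mul, hcv, hinv, tU_val, Matrix.mul_fin_two, mk2_eq_iff]
    refine ⟨?_, ?_, ?_, ?_⟩
    · linear_combination had
    · ring
    · ring
    · linear_combination had
  have hmem : tU (t * a * (d - a)) ∈ Q := by
    rw [← hcomm]; exact Q.mul_mem hy' (Q.inv_mem hy)
  have h0 := tU_mem_coprime p Q hcop _ hmem
  have hda : d = a := by
    rcases mul_eq_zero.mp h0 with h5 | h5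
    · exfalso
      rcases mul_eq_zero.mp h5 with h6 | h6
      · exact ht h6
      · exact ha0 h6
    · exact sub_eq_zero.mp h5
  subst hda
  have hsq : y * y = tU (2 * d * b) := by
    apply Units.ext
    rw [Units.val_mul, hyv, tU_val, Matrix.mul_fin_two, mk2_eq_iff]
    refine ⟨?_, ?_, ?_, ?_⟩
    · linear_combination had
    · ring
    · ring
    · linear_combination had
  have hmem2 : tU (2 * d * b) ∈ Q := by rw [← hsq]; exact Q.mul_mem hy hy
  have h02 := tU_mem_coprime p Q hcop _ hmem2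
  have hb : b = 0 := by
    rcases mul_eq_zero.mp h02 with h5 | h5
    · exfalso
      rcases mul_eq_zero.mp h5 with h6 | h6
      · exact h2 h6
      · exact ha0 h6
    · exact h5
  subst hb
  have ha1 : d = 1 ∨ d = -1 := by
    have h7 : (d - 1) * (d + 1) = 0 := by linear_combination had
    rcases mul_eq_zero.mp h7 with h | h
    · left; exact sub_eq_zero.mp h
    · right; exact eq_neg_of_add_eq_zero_left h
  rw [mem_pmOne]
  rcases ha1 with h | h
  · left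
    rw [hyv, h, Matrix.one_fin_two]
  · right
    rw [hyv, h, Matrix.one_fin_two, neg_mk2, mk2_eq_iff]
    simp

/-- anticommuting with the conjugate under `[[1,1],[0,1]]` -/
theorem anti_comp (p : ℕ) [Fact p.Prime] [CharP E p] (hp : p ≠ 2) (x : GL (Fin 2) E)
    (a b c d : E) (hx : (x : Matrix (Fin 2) (Fin 2) E) = !![a, b; c, d])
    (hd : a * d - b * c = 1)
    (hanti : (x : Matrix (Fin 2) (Fin 2) E) *
        ((tU 1 * x * (tU 1)⁻¹ : GL (Fin 2) E) : Matrix (Fin 2) (Fin 2) E) =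
      -(((tU 1 * x * (tU 1)⁻¹ : GL (Fin 2) E) : Matrix (Fin 2) (Fin 2) E) *
        (x : Matrix (Fin 2) (Fin 2) E))) :
    a + d = 0 ∧ c * c = -2 := by
  have h2 : (2 : E) ≠ 0 := two_ne p hp
  rw [conj_tU_val 1 x a b c d hx, hx, Matrix.mul_fin_two, Matrix.mul_fin_two, neg_mk2,
    mk2_eq_iff] at hanti
  obtain ⟨h00, -, h10, -⟩ := hanti
  have hc1 : 2 * (c * (a + d)) = 0 := by linear_combination h10
  have hc2 : c * (a + d) = 0 := by
    rcases mul_eq_zero.mp hc1 with h | h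
    · exact absurd h h2
    · exact h
  have had : a + d = 0 := by
    rcases mul_eq_zero.mp hc2 with h | h
    · exfalso
      subst h
      have h3 : 2 * (a * a) = 0 := by linear_combination h00
      have h4 : a = 0 := by
        rcases mul_eq_zero.mp h3 with h | h
        · exact absurd h h2
        · exact mul_self_eq_zero.mp h
      rw [h4] at hd
      simp at hd
    · exact h
  refine ⟨had, ?_⟩
  have hd' : d = -a := by linear_combination had
  subst hd'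
  linear_combination (-1 : E) * h00 - 2 * hd

/-- an element of a `p'`-subgroup of determinant one, not `±1`, commuting up to sign with its
conjugate under `[[1,1],[0,1]]`, has trace zero and lower left entry a square root of `-2`. -/
theorem pcu (p : ℕ) [Fact p.Prime] [CharP E p] (hp : p ≠ 2) (Q : Subgroup (GL (Fin 2) E))
    (hdet : ∀ y ∈ Q, (y : Matrix (Fin 2) (Fin 2) E).det = 1) (hcop : (Nat.card Q).Coprime p)
    (hu : ∀ y ∈ Q, tU 1 * y * (tU 1)⁻¹ ∈ Q)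
    (x : GL (Fin 2) E) (hx : x ∈ Q) (hxn : x ∉ pmOne E)
    (hs : x * (tU 1 * x * (tU 1)⁻¹) * x⁻¹ * (tU 1 * x * (tU 1)⁻¹)⁻¹ ∈ pmOne E)
    (a b c d : E) (hxv : (x : Matrix (Fin 2) (Fin 2) E) = !![a, b; c, d]) :
    a + d = 0 ∧ c * c = -2 := by
  have hd := hdet x hx
  rw [hxv, Matrix.det_fin_two_of] at hd
  have hy := hu x hx
  obtain ⟨y, hyd⟩ : ∃ y : GL (Fin 2) E, y = tU 1 * x * (tU 1)⁻¹ := ⟨_, rfl⟩
  rw [← hyd] at hs hy
  have hxy : x * y = (x * y * x⁻¹ * y⁻¹) * (y * x) := by group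
  rcases mem_pmOne.mp hs with h1 | h1
  · exfalso
    have h2 : x * y * x⁻¹ * y⁻¹ = 1 := Units.ext h1
    rw [h2, one_mul] at hxy
    apply hxn
    apply key_comm p hp Q hdet hcop 1 one_ne_zero x hx
    · rw [← hyd]; exact hy
    · rw [← hyd]; exact hxy
  · have h3 := congrArg Units.val hxy
    rw [Units.val_mul x y, Units.val_mul (x * y * x⁻¹ * y⁻¹) (y * x), Units.val_mul y x, h1,
      neg_mul, one_mul] at h3
    rw [hyd] at h3
    exact anti_comp p hp x a b c d hxv hd h3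

theorem trace_of_pow (p : ℕ) [Fact p.Prime] [CharP E p] (hp : p ≠ 2) (g : GL (Fin 2) E) (m : ℕ)
    (h : g ^ p ^ m ∈ pmOne E) :
    (g : Matrix (Fin 2) (Fin 2) E) 0 0 + (g : Matrix (Fin 2) (Fin 2) E) 1 1 = 2 ∨
      (g : Matrix (Fin 2) (Fin 2) E) 0 0 + (g : Matrix (Fin 2) (Fin 2) E) 1 1 = -2 := by
  obtain ⟨M, hM⟩ : ∃ M : Matrix (Fin 2) (Fin 2) E, M = (g : Matrix (Fin 2) (Fin 2) E) :=
    ⟨_, rfl⟩
  have hpow : M ^ p ^ m = 1 ∨ M ^ p ^ m = -1 := by
    rw [hM, ← Units.val_pow_eq_pow_val]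
    exact mem_pmOne.mp h
  rw [← hM]
  have hodd : Odd (p ^ m) := (Nat.Prime.odd_of_ne_two (Fact.out : p.Prime) hp).pow
  have htr : ∀ N : Matrix (Fin 2) (Fin 2) E, N ^ p ^ m = 0 → N 0 0 + N 1 1 = 0 := by
    intro N hN
    have h1 : IsNilpotent N := ⟨p ^ m, hN⟩
    have h2 := (Matrix.isNilpotent_trace_of_isNilpotent h1).eq_zero
    rw [Matrix.trace_fin_two] at h2
    exact h2
  rcases hpow with h1 | h1
  · left
    have h3 : (M - 1) ^ p ^ m = 0 := by
      rw [sub_pow_char_pow_of_commute p m (Commute.one_right M), h1, one_pow, sub_self]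
    have h4 := htr _ h3
    rw [Matrix.sub_apply, Matrix.sub_apply, Matrix.one_apply_eq, Matrix.one_apply_eq] at h4
    linear_combination h4
  · right
    have h3 : (M - (-1)) ^ p ^ m = 0 := by
      rw [sub_pow_char_pow_of_commute p m ((Commute.one_right M).neg_right), h1,
        hodd.neg_one_pow, sub_self]
    have h4 := htr _ h3
    rw [Matrix.sub_apply, Matrix.sub_apply, Matrix.neg_apply, Matrix.neg_apply,
      Matrix.one_apply_eq, Matrix.one_apply_eq] at h4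
    linear_combination h4

theorem ap_lemma (h2 : (2 : E) ≠ 0) (τ c : E) (h0 : τ = 2 ∨ τ = -2)
    (h1 : τ + c = 2 ∨ τ + c = -2) (h2' : τ + 2 * c = 2 ∨ τ + 2 * c = -2) : c = 0 := by
  have hh : ∀ x : E, 2 * x = 0 → x = 0 := fun x hx => (mul_eq_zero.mp hx).resolve_left h2
  rcases h0 with h0 | h0 <;> rcases h1 with h1 | h1 <;> rcases h2' with h3 | h3
  · linear_combination h1 - h0
  · linear_combination h1 - h0
  · exact hh c (by linear_combination h3 - h0)
  · linear_combination h3 - h1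
  · linear_combination h3 - h1
  · exact hh c (by linear_combination h3 - h0)
  · linear_combination h1 - h0
  · linear_combination h1 - h0

theorem det_closure (γ : E) :
    ∀ y ∈ Subgroup.closure ({tU (1 : E), tV γ} : Set (GL (Fin 2) E)),
      (y : Matrix (Fin 2) (Fin 2) E).det = 1 := by
  intro y hy
  induction hy using Subgroup.closure_induction with
  | mem x hx =>
    rcases hx with rfl | rfl
    · rw [tU_val, Matrix.det_fin_two_of]; ring
    · rw [tV_val, Matrix.det_fin_two_of]; ring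
  | one => rw [Units.val_one, Matrix.det_one]
  | mul x y _ _ hx hy => rw [Units.val_mul, Matrix.det_mul, hx, hy, one_mul]
  | inv x _ hx =>
    have h1 := congrArg Matrix.det (Units.inv_mul x)
    rw [Matrix.det_mul, hx, mul_one, Matrix.det_one] at h1
    exact h1

end basic

section main

variable {E : Type u} [Field E] [Finite E]

/-- the `p'`-core of a `p`-solvable group containing two opposite transvections is not
contained in `{±1}` -/
theorem core_not_pm (p : ℕ) [Fact p.Prime] [CharP E p] (hp : p ≠ 2) (γ : E) (hγ : γ ≠ 0)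
    (L : Subgroup (GL (Fin 2) E)) (hdet : ∀ y ∈ L, (y : Matrix (Fin 2) (Fin 2) E).det = 1)
    (huL : tU (1 : E) ∈ L) (hwL : tV γ ∈ L) (hsep : IsPSolvable p ↥L) :
    ∃ z : ↥L, z ∈ pPrimeCore p ↥L ∧ (z : GL (Fin 2) E) ∉ pmOne E := by
  by_contra hcon
  push_neg at hcon
  have h2 : (2 : E) ≠ 0 := two_ne p hp
  have hsepQ : IsPSolvable p (↥L ⧸ pPrimeCore p ↥L) :=
    Cfsg.Agent.Lib.Helper4.PSolv.isPSolvable_of_surjective (QuotientGroup.mk' (pPrimeCore p ↥L))
      (QuotientGroup.mk'_surjective _) hsep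
  have hbot : pPrimeCore p (↥L ⧸ pPrimeCore p ↥L) = ⊥ :=
    Cfsg.Agent.Lib.Helper9.pPrimeCore_quotient_eq_bot p ↥L
  have hhh := Cfsg.Agent.Lib.Helper12.PSolvable.hall_higman hsepQ hbot
  have hPp : IsPGroup p ↥(pCore p (↥L ⧸ pPrimeCore p ↥L)) :=
    Cfsg.Agent.Lib.Helper9.pCore_isPGroup p _
  obtain ⟨π, hπ⟩ : ∃ π : ↥L →* ↥L ⧸ pPrimeCore p ↥L,
      π = QuotientGroup.mk' (pPrimeCore p ↥L) := ⟨_, rfl⟩
  have hker : ∀ x : ↥L, π x = 1 → (x : GL (Fin 2) E) ∈ pmOne E := by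
    intro x hx
    apply hcon
    rw [hπ] at hx
    exact (QuotientGroup.eq_one_iff x).mp hx
  have hpow : ∀ e : ↥L, e ^ p = 1 → ∀ y : ↥L, π y ∈ pCore p (↥L ⧸ pPrimeCore p ↥L) →
      ∀ j : ℕ, ∃ m : ℕ, ((e : GL (Fin 2) E) ^ j * (y : GL (Fin 2) E)) ^ p ^ m ∈ pmOne E := by
    intro e he y hy j
    have h1 : IsPGroup p ↥(Subgroup.zpowers (π e)) := by
      apply isPGroup_zpowers p (π e) 1
      rw [pow_one, ← map_pow, he, map_one]
    have hsup : IsPGroup p ↥(Subgroup.zpowers (π e) ⊔ pCore p (↥L ⧸ pPrimeCore p ↥L)) :=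
      IsPGroup.to_sup_of_normal_right h1 hPp
    have hmem : π (e ^ j * y) ∈ Subgroup.zpowers (π e) ⊔ pCore p (↥L ⧸ pPrimeCore p ↥L) := by
      rw [map_mul, map_pow]
      exact Subgroup.mul_mem _
        (Subgroup.mem_sup_left (Subgroup.pow_mem _ (Subgroup.mem_zpowers _) j))
        (Subgroup.mem_sup_right hy)
    obtain ⟨m, hm⟩ := hsup ⟨π (e ^ j * y), hmem⟩
    refine ⟨m, ?_⟩
    have hm' : π (e ^ j * y) ^ p ^ m = 1 := congrArg Subtype.val hm
    rw [← map_pow] at hm'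
    exact hker _ hm'
  have hup : (⟨tU 1, huL⟩ : ↥L) ^ p = 1 := Subtype.ext (tU_pow_char p 1)
  have hwp : (⟨tV γ, hwL⟩ : ↥L) ^ p = 1 := Subtype.ext (tV_pow_char p γ)
  have hD : ∀ y : ↥L, π y ∈ pCore p (↥L ⧸ pPrimeCore p ↥L) →
      (y : GL (Fin 2) E) ∈ pmOne E := by
    intro y hy
    obtain ⟨a, b, c, d, hyv⟩ : ∃ a b c d : E,
        ((y : GL (Fin 2) E) : Matrix (Fin 2) (Fin 2) E) = !![a, b; c, d] :=
      ⟨_, _, _, _, Matrix.eta_fin_two _⟩
    have hd := hdet y y.2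
    rw [hyv, Matrix.det_fin_two_of] at hd
    have htrU : ∀ j : ℕ, a + d + (j : E) * c = 2 ∨ a + d + (j : E) * c = -2 := by
      intro j
      obtain ⟨m, hm⟩ := hpow ⟨tU 1, huL⟩ hup y hy j
      have hm' : (tU (1 : E) ^ j * (y : GL (Fin 2) E)) ^ p ^ m ∈ pmOne E := hm
      have h3 : (tU (1 : E)) ^ j = tU (j : E) := by rw [tU_pow, nsmul_one]
      have h4 := trace_of_pow p hp _ m hm'
      rw [h3, tU_mul_val (j : E) (y : GL (Fin 2) E) a b c d hyv] at h4
      rcases h4 with h5 | h5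
      · left
        have h6 : (a + (j : E) * c) + d = 2 := h5
        linear_combination h6
      · right
        have h6 : (a + (j : E) * c) + d = -2 := h5
        linear_combination h6
    have htrV : ∀ j : ℕ, a + d + (j : E) * (γ * b) = 2 ∨ a + d + (j : E) * (γ * b) = -2 := by
      intro j
      obtain ⟨m, hm⟩ := hpow ⟨tV γ, hwL⟩ hwp y hy j
      have hm' : (tV γ ^ j * (y : GL (Fin 2) E)) ^ p ^ m ∈ pmOne E := hm
      have h3 : (tV γ) ^ j = tV ((j : E) * γ) := by rw [tV_pow, nsmul_eq_mul]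
      have h4 := trace_of_pow p hp _ m hm'
      rw [h3, tV_mul_val ((j : E) * γ) (y : GL (Fin 2) E) a b c d hyv] at h4
      rcases h4 with h5 | h5
      · left
        have h6 : a + ((j : E) * γ * b + d) = 2 := h5
        linear_combination h6
      · right
        have h6 : a + ((j : E) * γ * b + d) = -2 := h5
        linear_combination h6
    have hc0 : c = 0 := by
      have t0 := htrU 0
      have t1 := htrU 1
      have t2 := htrU 2
      rw [Nat.cast_zero, zero_mul, add_zero] at t0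
      rw [Nat.cast_one, one_mul] at t1
      rw [Nat.cast_ofNat] at t2
      exact ap_lemma h2 (a + d) c t0 t1 t2
    have hb0 : b = 0 := by
      have t0 := htrV 0
      have t1 := htrV 1
      have t2 := htrV 2
      rw [Nat.cast_zero, zero_mul, add_zero] at t0
      rw [Nat.cast_one, one_mul] at t1
      rw [Nat.cast_ofNat] at t2
      have h7 := ap_lemma h2 (a + d) (γ * b) t0 t1 t2
      exact (mul_eq_zero.mp h7).resolve_left hγ
    have t0 := htrU 0
    rw [Nat.cast_zero, zero_mul, add_zero] at t0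
    subst hc0
    subst hb0
    rw [mem_pmOne]
    rcases t0 with t0 | t0
    · left
      have ha : a = 1 := by
        have h7 : (a - 1) * (a - 1) = 0 := by linear_combination a * t0 - hd
        exact sub_eq_zero.mp (mul_self_eq_zero.mp h7)
      have hd1 : d = 1 := by linear_combination t0 - ha
      rw [hyv, ha, hd1, Matrix.one_fin_two]
    · right
      have ha : a = -1 := by
        have h7 : (a + 1) * (a + 1) = 0 := by linear_combination a * t0 - hd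
        exact eq_neg_of_add_eq_zero_left (mul_self_eq_zero.mp h7)
      have hd1 : d = -1 := by linear_combination t0 - ha
      rw [hyv, ha, hd1, Matrix.one_fin_two, neg_mk2, mk2_eq_iff]
      simp
  have hcent : ∀ g : ↥L ⧸ pPrimeCore p ↥L, g ∈ pCore p (↥L ⧸ pPrimeCore p ↥L) := by
    intro g
    apply hhh
    rw [Subgroup.mem_centralizer_iff]
    intro h hh
    obtain ⟨y, rfl⟩ : ∃ y, π y = h := by rw [hπ]; exact QuotientGroup.mk'_surjective _ h
    obtain ⟨x, rfl⟩ : ∃ x, π x = g := by rw [hπ]; exact QuotientGroup.mk'_surjective _ g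
    have hy := hD y hh
    rw [← map_mul, ← map_mul]
    congr 1
    exact Subtype.ext (pmOne_comm hy (x : GL (Fin 2) E))
  have hu := hD ⟨tU 1, huL⟩ (hcent _)
  rcases mem_pmOne.mp hu with h | h
  · have h' : (tU (1 : E) : Matrix (Fin 2) (Fin 2) E) = 1 := h
    rw [tU_val, Matrix.one_fin_two, mk2_eq_iff] at h'
    exact one_ne_zero h'.2.1
  · have h' : (tU (1 : E) : Matrix (Fin 2) (Fin 2) E) = -1 := h
    rw [tU_val, Matrix.one_fin_two, neg_mk2, mk2_eq_iff] at h'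
    have h8 : (1 : E) = 0 := by rw [h'.2.1, neg_zero]
    exact one_ne_zero h8

/-- a `u`-invariant `q`-subgroup not inside `{±1}` -/
theorem exists_inv_qsub (p : ℕ) [Fact p.Prime] [CharP E p] (hp : p ≠ 2) (γ : E) (hγ : γ ≠ 0)
    (L : Subgroup (GL (Fin 2) E)) (hdet : ∀ y ∈ L, (y : Matrix (Fin 2) (Fin 2) E).det = 1)
    (huL : tU (1 : E) ∈ L) (hwL : tV γ ∈ L) (hsep : IsPSolvable p ↥L) :
    ∃ (q : ℕ) (_ : q.Prime) (Q₁ : Subgroup (GL (Fin 2) E)), Q₁ ≤ L ∧ IsPGroup q ↥Q₁ ∧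
      (Nat.card Q₁).Coprime p ∧ tU (1 : E) ∈ Subgroup.normalizer (Q₁ : Set (GL (Fin 2) E)) ∧
      ∃ x ∈ Q₁, x ∉ pmOne E := by
  obtain ⟨z, hzN, hzC⟩ := core_not_pm p hp γ hγ L hdet huL hwL hsep
  have hcopN : (Nat.card ↥(pPrimeCore p ↥L)).Coprime p :=
    Cfsg.Agent.Lib.Helper9.pPrimeCore_coprime p ↥L
  obtain ⟨NG, hNG⟩ : ∃ NG : Subgroup (GL (Fin 2) E), NG = (pPrimeCore p ↥L).map L.subtype :=
    ⟨_, rfl⟩
  have hNGL : NG ≤ L := by
    rw [hNG]
    rintro _ ⟨x, _, rfl⟩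
    exact x.2
  have hcopNG : (Nat.card NG).Coprime p := by
    rw [hNG, Subgroup.card_map_of_injective L.subtype_injective]
    exact hcopN
  have hNn : (pPrimeCore p ↥L).Normal := inferInstance
  have hconj : ∀ l ∈ L, ∀ n ∈ NG, l * n * l⁻¹ ∈ NG := by
    intro l hl n hn
    rw [hNG] at hn ⊢
    obtain ⟨x, hx, rfl⟩ := hn
    have h1 := hNn.conj_mem x hx ⟨l, hl⟩
    refine ⟨_, h1, ?_⟩
    simp
  have hzNG : (z : GL (Fin 2) E) ∈ NG := by
    rw [hNG]; exact ⟨z, hzN, rfl⟩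
  obtain ⟨q, hq, z', k, hz'N, hz'C, hz'k⟩ :=
    exists_prime_pow_elt (pmOne E) NG _ (z : GL (Fin 2) E) rfl hzNG hzC
  haveI : Fact q.Prime := ⟨hq⟩
  have huN : tU (1 : E) ∈ Subgroup.normalizer (NG : Set (GL (Fin 2) E)) := by
    rw [Subgroup.mem_normalizer_iff]
    intro n
    constructor
    · intro hn; exact hconj _ huL n hn
    · intro hn
      have h1 := hconj _ (L.inv_mem huL) _ hn
      have h2 : (tU (1 : E))⁻¹ * (tU 1 * n * (tU 1)⁻¹) * (tU (1 : E))⁻¹⁻¹ = n := by group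
      rw [h2] at h1
      exact h1
  have hAK : Subgroup.zpowers (tU (1 : E)) ≤ Subgroup.normalizer (NG : Set (GL (Fin 2) E)) :=
    (Subgroup.zpowers_le).mpr huN
  have hcardA : Nat.card ↥(Subgroup.zpowers (tU (1 : E))) ∣ p := by
    rw [Nat.card_zpowers]
    exact orderOf_dvd_of_pow_eq_one (tU_pow_char p 1)
  have hcop : (Nat.card ↥(Subgroup.zpowers (tU (1 : E)))).Coprime (Nat.card NG) :=
    Nat.Coprime.coprime_dvd_left hcardA hcopNG.symm
  have hAs : Group.IsSolvable ↥(Subgroup.zpowers (tU (1 : E))) := by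
    apply Group.isSolvable_of_comm
    rintro ⟨x, hx⟩ ⟨y, hy⟩
    obtain ⟨i, rfl⟩ := Subgroup.mem_zpowers_iff.mp hx
    obtain ⟨j, rfl⟩ := Subgroup.mem_zpowers_iff.mp hy
    exact Subtype.ext (zpow_mul_comm _ i j)
  obtain ⟨P, hP⟩ := Cfsg.Agent.S0023.result (Subgroup.zpowers (tU (1 : E))) NG hAK hcop
    (Or.inl hAs) q
  have hzq : IsPGroup q ↥(Subgroup.zpowers (⟨z', hz'N⟩ : ↥NG)) := by
    apply isPGroup_zpowers q _ k
    exact Subtype.ext hz'k
  obtain ⟨P', hP'⟩ := hzq.exists_le_sylow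
  obtain ⟨g, hg⟩ := MulAction.exists_smul_eq ↥NG P P'
  have hmem : g⁻¹ * (⟨z', hz'N⟩ : ↥NG) * g ∈ P := by
    rw [← Cfsg.Agent.Lib.Helper21.BaerSuzuki.mem_smul_sylow, hg]
    exact hP' (Subgroup.mem_zpowers _)
  refine ⟨q, hq, (P : Subgroup ↥NG).map NG.subtype, ?_, ?_, ?_, ?_, ?_⟩
  · rintro _ ⟨x, _, rfl⟩
    exact hNGL x.2
  · exact P.isPGroup'.map _
  · have hle : (P : Subgroup ↥NG).map NG.subtype ≤ NG := by
      rintro _ ⟨x, _, rfl⟩
      exact x.2
    exact Nat.Coprime.coprime_dvd_left (Subgroup.card_dvd_of_le hle) hcopNG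
  · exact hP (Subgroup.mem_zpowers _)
  · have hmem' : (g : GL (Fin 2) E)⁻¹ * z' * (g : GL (Fin 2) E) ∈
        (P : Subgroup ↥NG).map NG.subtype := by
      refine ⟨g⁻¹ * (⟨z', hz'N⟩ : ↥NG) * g, hmem, ?_⟩
      simp
    refine ⟨(g : GL (Fin 2) E)⁻¹ * z' * (g : GL (Fin 2) E), hmem', ?_⟩
    intro hC
    apply hz'C
    have h1 : z' = (g : GL (Fin 2) E) * ((g : GL (Fin 2) E)⁻¹ * z' * (g : GL (Fin 2) E)) *
        (g : GL (Fin 2) E)⁻¹ := by group
    rw [h1, ← pmOne_comm hC (g : GL (Fin 2) E), mul_inv_cancel_right]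
    exact hC

/-- **Main matrix theorem.** -/
theorem matrix_main (p : ℕ) [Fact p.Prime] [CharP E p] (hp : p ≠ 2) (γ : E) (hγ : γ ≠ 0)
    (L : Subgroup (GL (Fin 2) E)) (hdet : ∀ y ∈ L, (y : Matrix (Fin 2) (Fin 2) E).det = 1)
    (huL : tU (1 : E) ∈ L) (hwL : tV γ ∈ L) (hsep : IsPSolvable p ↥L) :
    p = 3 ∧ ∃ x ∈ L, (x : Matrix (Fin 2) (Fin 2) E) 0 0 + (x : Matrix (Fin 2) (Fin 2) E) 1 1 = 0 ∧
      (x : Matrix (Fin 2) (Fin 2) E) 1 0 = 1 ∧ (x : Matrix (Fin 2) (Fin 2) E).det = 1 := by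
  obtain ⟨q, hq, Q₁, hQL, hQq, hQcop, huQ, x₀, hx₀Q, hx₀C⟩ :=
    exists_inv_qsub p hp γ hγ L hdet huL hwL hsep
  haveI : Fact q.Prime := ⟨hq⟩
  have hdetQ : ∀ y ∈ Q₁, (y : Matrix (Fin 2) (Fin 2) E).det = 1 := fun y hy => hdet y (hQL hy)
  have huc : ∀ y ∈ Q₁, tU (1 : E) * y * (tU 1)⁻¹ ∈ Q₁ := fun y hy =>
    (Subgroup.mem_normalizer_iff.mp huQ y).mp hy
  have huc' : ∀ y ∈ Q₁, (tU (1 : E))⁻¹ * y * tU 1 ∈ Q₁ := by
    intro y hy
    apply (Subgroup.mem_normalizer_iff.mp huQ _).mpr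
    have h1 : tU (1 : E) * ((tU (1 : E))⁻¹ * y * tU 1) * (tU (1 : E))⁻¹ = y := by group
    rw [h1]; exact hy
  have hZ : ∀ z : ↥Q₁, z ∈ Subgroup.center ↥Q₁ → (z : GL (Fin 2) E) ∈ pmOne E := by
    intro z hz
    apply key_comm p hp Q₁ hdetQ hQcop 1 one_ne_zero (z : GL (Fin 2) E) z.2 (huc _ z.2)
    have h1 := (Subgroup.mem_center_iff.mp hz) ⟨_, huc _ z.2⟩
    exact (congrArg Subtype.val h1).symm
  have hx₀Z : (⟨x₀, hx₀Q⟩ : ↥Q₁) ∉ Subgroup.center ↥Q₁ := fun h => hx₀C (hZ _ h)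
  haveI hnt : Nontrivial (↥Q₁ ⧸ Subgroup.center ↥Q₁) := by
    refine ⟨⟨QuotientGroup.mk (⟨x₀, hx₀Q⟩ : ↥Q₁), 1, ?_⟩⟩
    intro h
    exact hx₀Z ((QuotientGroup.eq_one_iff _).mp h)
  have hQb : IsPGroup q (↥Q₁ ⧸ Subgroup.center ↥Q₁) := hQq.to_quotient _
  haveI := hQb.center_nontrivial
  obtain ⟨⟨mb, hmb⟩, hne⟩ := exists_ne (1 : ↥(Subgroup.center (↥Q₁ ⧸ Subgroup.center ↥Q₁)))
  obtain ⟨m, rfl⟩ := QuotientGroup.mk_surjective mb
  have hmZ : m ∉ Subgroup.center ↥Q₁ := by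
    intro h
    apply hne
    apply Subtype.ext
    exact (QuotientGroup.eq_one_iff m).mpr h
  have hmC : (m : GL (Fin 2) E) ∉ pmOne E := by
    intro h
    apply hmZ
    rw [Subgroup.mem_center_iff]
    intro g
    exact Subtype.ext (pmOne_comm h (g : GL (Fin 2) E)).symm
  have hPC : ∀ r ∈ Q₁, (m : GL (Fin 2) E) * r * (m : GL (Fin 2) E)⁻¹ * r⁻¹ ∈ pmOne E := by
    intro r hr
    have h1 := (Subgroup.mem_center_iff.mp hmb) (QuotientGroup.mk (⟨r, hr⟩ : ↥Q₁))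
    have h2 : (QuotientGroup.mk (m * ⟨r, hr⟩ * m⁻¹ * (⟨r, hr⟩ : ↥Q₁)⁻¹) :
        ↥Q₁ ⧸ Subgroup.center ↥Q₁) = 1 := by
      simp only [QuotientGroup.mk_mul, QuotientGroup.mk_inv]
      rw [← h1]
      group
    exact hZ _ ((QuotientGroup.eq_one_iff _).mp h2)
  obtain ⟨x, hxd⟩ : ∃ x : GL (Fin 2) E, x = (m : GL (Fin 2) E) := ⟨_, rfl⟩
  have hxQ : x ∈ Q₁ := by rw [hxd]; exact m.2
  rw [← hxd] at hmC hPC
  have hPCu : ∀ w : GL (Fin 2) E, (∀ r ∈ Q₁, w * r * w⁻¹ * r⁻¹ ∈ pmOne E) →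
      ∀ r ∈ Q₁, (tU (1 : E) * w * (tU 1)⁻¹) * r * (tU (1 : E) * w * (tU 1)⁻¹)⁻¹ * r⁻¹ ∈
        pmOne E := by
    intro w hw r hr
    have h1 := hw _ (huc' r hr)
    have h2 : (tU (1 : E) * w * (tU 1)⁻¹) * r * (tU (1 : E) * w * (tU 1)⁻¹)⁻¹ * r⁻¹ =
        tU (1 : E) * (w * ((tU (1 : E))⁻¹ * r * tU 1) * w⁻¹ * ((tU (1 : E))⁻¹ * r * tU 1)⁻¹) *
          (tU (1 : E))⁻¹ := by
      group
    rw [h2, ← pmOne_comm h1 (tU (1 : E)), mul_inv_cancel_right]
    exact h1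
  have hPCm : ∀ w₁ w₂ : GL (Fin 2) E, (∀ r ∈ Q₁, w₁ * r * w₁⁻¹ * r⁻¹ ∈ pmOne E) →
      (∀ r ∈ Q₁, w₂ * r * w₂⁻¹ * r⁻¹ ∈ pmOne E) →
      ∀ r ∈ Q₁, (w₁ * w₂) * r * (w₁ * w₂)⁻¹ * r⁻¹ ∈ pmOne E := by
    intro w₁ w₂ h₁ h₂ r hr
    have h3 : (w₁ * w₂) * r * (w₁ * w₂)⁻¹ * r⁻¹ =
        w₁ * (w₂ * r * w₂⁻¹ * r⁻¹) * w₁⁻¹ * (w₁ * r * w₁⁻¹ * r⁻¹) := by group
    rw [h3, ← pmOne_comm (h₂ r hr) w₁, mul_inv_cancel_right]
    exact (pmOne E).mul_mem (h₂ r hr) (h₁ r hr)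
  obtain ⟨a, b, c, d, hxv⟩ : ∃ a b c d : E, (x : Matrix (Fin 2) (Fin 2) E) = !![a, b; c, d] :=
    ⟨_, _, _, _, Matrix.eta_fin_two _⟩
  have hd := hdetQ x hxQ
  rw [hxv, Matrix.det_fin_two_of] at hd
  obtain ⟨y, hyd⟩ : ∃ y : GL (Fin 2) E, y = tU 1 * x * (tU 1)⁻¹ := ⟨_, rfl⟩
  have hyQ : y ∈ Q₁ := by rw [hyd]; exact huc x hxQ
  have hyv : (y : Matrix (Fin 2) (Fin 2) E) =
      !![a + 1 * c, b + 1 * (d - a) - 1 * 1 * c; c, d - 1 * c] := by
    rw [hyd]; exact conj_tU_val 1 x a b c d hxv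
  have hPCy : ∀ r ∈ Q₁, y * r * y⁻¹ * r⁻¹ ∈ pmOne E := by
    rw [hyd]; exact hPCu x hPC
  have hs1 : x * (tU 1 * x * (tU 1)⁻¹) * x⁻¹ * (tU 1 * x * (tU 1)⁻¹)⁻¹ ∈ pmOne E := by
    rw [← hyd]; exact hPC y hyQ
  obtain ⟨had, hcc⟩ := pcu p hp Q₁ hdetQ hQcop huc x hxQ hmC hs1 a b c d hxv
  have hxyQ : x * y ∈ Q₁ := Q₁.mul_mem hxQ hyQ
  have hxyC : x * y ∉ pmOne E := by
    intro h
    apply hmC
    apply key_comm p hp Q₁ hdetQ hQcop 1 one_ne_zero x hxQ (huc x hxQ)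
    rw [← hyd]
    have h1 := pmOne_comm h x
    have h2 : x * (y * x) = x * (x * y) := (mul_assoc x y x).symm.trans h1
    exact (mul_left_cancel h2).symm
  have hPCxy := hPCm x y hPC hPCy
  have hs2 : (x * y) * (tU 1 * (x * y) * (tU 1)⁻¹) * (x * y)⁻¹ *
      (tU 1 * (x * y) * (tU 1)⁻¹)⁻¹ ∈ pmOne E := hPCxy _ (huc _ hxyQ)
  obtain ⟨a₂, b₂, c₂, d₂, hxyv, hc₂⟩ : ∃ a₂ b₂ c₂ d₂ : E,
      ((x * y : GL (Fin 2) E) : Matrix (Fin 2) (Fin 2) E) = !![a₂, b₂; c₂, d₂] ∧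
        c₂ = c * (a + 1 * c) + d * c :=
    ⟨_, _, _, _, by rw [Units.val_mul, hxv, hyv, Matrix.mul_fin_two], rfl⟩
  obtain ⟨-, hcc2⟩ := pcu p hp Q₁ hdetQ hQcop huc (x * y) hxyQ hxyC hs2 a₂ b₂ c₂ d₂ hxyv
  have hc2 : c₂ = -2 := by rw [hc₂]; linear_combination c * had + hcc
  rw [hc2] at hcc2
  have h6 : (6 : E) = 0 := by linear_combination hcc2
  have hp3 : p = 3 := by
    have h6' : ((6 : ℕ) : E) = 0 := by exact_mod_cast h6
    rw [CharP.cast_eq_zero_iff E p] at h6'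
    have hpp := (Fact.out : p.Prime)
    have h23 : p ∣ 2 * 3 := h6'
    rcases (Nat.Prime.dvd_mul hpp).mp h23 with h | h
    · exact absurd ((Nat.prime_dvd_prime_iff_eq hpp Nat.prime_two).mp h) hp
    · exact (Nat.prime_dvd_prime_iff_eq hpp Nat.prime_three).mp h
  refine ⟨hp3, ?_⟩
  have h3 : (3 : E) = 0 := by
    have h7 := CharP.cast_eq_zero E p
    rw [hp3] at h7
    exact_mod_cast h7
  have hc1 : c = 1 ∨ c = -1 := by
    have h7 : (c - 1) * (c + 1) = 0 := by linear_combination hcc - h3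
    rcases mul_eq_zero.mp h7 with h | h
    · left; exact sub_eq_zero.mp h
    · right; exact eq_neg_of_add_eq_zero_left h
  rcases hc1 with hc1 | hc1
  · refine ⟨x, hQL hxQ, ?_, ?_, hdetQ x hxQ⟩
    · rw [hxv]; exact had
    · rw [hxv]; exact hc1
  · have hinv := inv_val_of x a b c d hxv hd
    refine ⟨x⁻¹, L.inv_mem (hQL hxQ), ?_, ?_, hdet _ (L.inv_mem (hQL hxQ))⟩
    · rw [hinv]
      show d + a = 0
      linear_combination had
    · rw [hinv]
      show -c = 1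
      rw [hc1, neg_neg]

end main

end Cfsg.Agent.Lib.Helper4.QuadMat
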