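import Mathlib
import Cfsg.Prelude.Def_SolvableStructure
import Cfsg.Agent.S0046
import Cfsg.Agent.S0534
import Cfsg.Agent.S0557
import Cfsg.Agent.S0567
import Cfsg.Agent.Lib.Helper4.Conj
import Cfsg.Agent.Lib.Helper4.Card
import Cfsg.Agent.Lib.Helper9.Cores

set_option autoImplicit false

open scoped Pointwise commutatorElement

namespace Cfsg.Agent.Lib.Helper4.Schmidt

universe u

open Cfsg.Agent.Lib.Helper4.Conj Cfsg.Agent.Lib.Helper4.Card

variable {G : Type u} [Group G]

/-- in a nilpotent subgroup, a `p`-element and a `q`-element commute (`p ≠ q`) -/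
theorem commute_of_nilpotent [Finite G] (L : Subgroup G)
    (hL : Group.IsNilpotent L) {p q : ℕ} [Fact p.Prime] [Fact q.Prime] (hpq : p ≠ q)
    {x y : G} (hxL : x ∈ L) (hyL : y ∈ L) (hx : IsPGroup p (Subgroup.zpowers x))
    (hy : IsPGroup q (Subgroup.zpowers y)) : x * y = y * x := by
  have hnorm := ((Group.isNilpotent_of_finite_tfae (G := L)).out 0 3).mp hL
  have hx' : IsPGroup p (Subgroup.zpowers (⟨x, hxL⟩ : L)) := by
    have h1 : Subgroup.zpowers (⟨x, hxL⟩ : L) ≤ (Subgroup.zpowers x).subgroupOf L := by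
      rw [Subgroup.zpowers_le, Subgroup.mem_subgroupOf]; exact Subgroup.mem_zpowers x
    exact (hx.comap_subtype).to_le h1
  have hy' : IsPGroup q (Subgroup.zpowers (⟨y, hyL⟩ : L)) := by
    have h1 : Subgroup.zpowers (⟨y, hyL⟩ : L) ≤ (Subgroup.zpowers y).subgroupOf L := by
      rw [Subgroup.zpowers_le, Subgroup.mem_subgroupOf]; exact Subgroup.mem_zpowers y
    exact (hy.comap_subtype).to_le h1
  obtain ⟨S, hS⟩ := hx'.exists_le_sylow
  obtain ⟨T, hT⟩ := hy'.exists_le_sylow
  have hSn := hnorm p inferInstance S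
  have hTn := hnorm q inferInstance T
  have hdisj : Disjoint (S : Subgroup L) (T : Subgroup L) :=
    IsPGroup.disjoint_of_ne p q hpq _ _ S.isPGroup' T.isPGroup'
  have h1 := Subgroup.commute_of_normal_of_disjoint _ _ hSn hTn hdisj ⟨x, hxL⟩ ⟨y, hyL⟩
    (hS (Subgroup.mem_zpowers _)) (hT (Subgroup.mem_zpowers _))
  exact congrArg Subtype.val h1.eq

/-- a nontrivial finite solvable group has a normal subgroup of prime index -/
theorem exists_normal_prime_index [Finite G] [Group.IsSolvable G] [Nontrivial G] :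
    ∃ M : Subgroup G, M.Normal ∧ M.index.Prime := by
  have hlt : commutator G < ⊤ := Group.IsSolvable.commutator_lt_top_of_nontrivial G
  haveI : Finite (Abelianization G) := inferInstanceAs (Finite (G ⧸ commutator G))
  have hcard : Nat.card (Abelianization G) ≠ 1 := by
    intro h
    have h1 : (commutator G).index = 1 := h
    exact hlt.ne (Subgroup.index_eq_one.mp h1)
  obtain ⟨p, hp, hpd⟩ := Nat.exists_prime_and_dvd hcard
  obtain ⟨B, hB⟩ := Cfsg.Agent.S0534.comm_clt (Abelianization G)
    (Nat.card (Abelianization G) / p) (Nat.div_dvd_of_dvd hpd)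
  have hBidx : B.index = p := by
    have h1 : B.index * Nat.card B = Nat.card (Abelianization G) := Subgroup.index_mul_card B
    rw [hB] at h1
    have h2 : p * (Nat.card (Abelianization G) / p) = Nat.card (Abelianization G) :=
      Nat.mul_div_cancel' hpd
    have hpos : 0 < Nat.card (Abelianization G) / p :=
      Nat.div_pos (Nat.le_of_dvd Nat.card_pos hpd) hp.pos
    exact Nat.eq_of_mul_eq_mul_right hpos (h1.trans h2.symm)
  refine ⟨B.comap Abelianization.of, Subgroup.Normal.comap inferInstance _, ?_⟩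
  have hs : Function.Surjective (Abelianization.of : G →* Abelianization G) :=
    QuotientGroup.mk_surjective
  rw [Subgroup.index_comap_of_surjective B hs, hBidx]
  exact hp

theorem isPGroup_zpowers_of_mem {p : ℕ} {P : Subgroup G} (hP : IsPGroup p P) {x : G}
    (hx : x ∈ P) : IsPGroup p (Subgroup.zpowers x) :=
  hP.to_le (Subgroup.zpowers_le.mpr hx)

/-- structure of minimal non-nilpotent groups -/
theorem schmidt_structure [Finite G] (hG : Cfsg.IsMinimalNonNilpotent G) :
    ∃ p q : ℕ, p.Prime ∧ q.Prime ∧ p ≠ q ∧ ∃ (P : Sylow p G) (Q : Sylow q G),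
      IsCyclic P ∧ (Q : Subgroup G).Normal ∧ (P : Subgroup G) ⊔ Q = ⊤ ∧
      ¬ (P : Subgroup G).Normal := by
  classical
  obtain ⟨hnn, hprop⟩ := hG
  haveI hsolv : Group.IsSolvable G := Cfsg.Agent.S0046.result (fun M hM => hprop M hM.1)
  haveI : Nontrivial G := by
    by_contra h
    rw [not_nontrivial_iff_subsingleton] at h
    exact hnn inferInstance
  obtain ⟨M, hMn, hMp⟩ := exists_normal_prime_index (G := G)
  obtain ⟨p, hp⟩ : ∃ p, p = M.index := ⟨_, rfl⟩
  rw [← hp] at hMp
  haveI : Fact p.Prime := ⟨hMp⟩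
  have hMtop : M ≠ ⊤ := by
    intro h
    rw [h, Subgroup.index_top] at hp
    rw [hp] at hMp
    exact Nat.not_prime_one hMp
  have hMnil : Group.IsNilpotent M := hprop M hMtop
  have hMsyl := ((Group.isNilpotent_of_finite_tfae (G := M)).out 0 3).mp hMnil
  have hnormal : ∀ (r : ℕ) [Fact r.Prime], r ≠ p → ∀ R : Sylow r G, (R : Subgroup G).Normal := by
    intro r hr hrp R
    have hRM : (R : Subgroup G) ≤ M := by
      haveI := hMn
      apply Cfsg.Agent.S0557.le_of_coprime_index
      rw [R.card_eq_multiplicity, ← hp]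
      exact Nat.Coprime.pow_left _ ((Nat.coprime_primes hr.out hMp).mpr hrp)
    obtain ⟨S⟩ : Nonempty (Sylow r M) := inferInstance
    have hSn : (S : Subgroup M).Normal := hMsyl r inferInstance S
    obtain ⟨SG, hSG⟩ : ∃ SG, SG = (S : Subgroup M).map M.subtype := ⟨_, rfl⟩
    have hle : ∀ T : Subgroup G, IsPGroup r T → T ≤ M → T ≤ SG := by
      intro T hT hTM
      have hT' : IsPGroup r (T.subgroupOf M) := hT.comap_subtype
      obtain ⟨S', hS'⟩ := hT'.exists_le_sylow
      haveI := Sylow.unique_of_normal S hSn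
      have hSS : S' = S := Subsingleton.elim _ _
      rw [hSS] at hS'
      intro t ht
      rw [hSG]
      exact ⟨⟨t, hTM ht⟩, hS' (Subgroup.mem_subgroupOf.mpr ht), rfl⟩
    have hSGp : IsPGroup r SG := by rw [hSG]; exact S.isPGroup'.map _
    have hSGM : SG ≤ M := by rw [hSG]; exact Subgroup.map_subtype_le _
    have hRSG : (R : Subgroup G) = SG := (R.3 hSGp (hle R R.isPGroup' hRM)).symm
    rw [hRSG]
    constructor
    intro x hx g
    have h2 : MulAut.conj g • SG ≤ SG := by
      apply hle
      · rw [conj_smul_eq_map]; exact hSGp.map _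
      · intro y hy
        rw [mem_conj_smul] at hy
        have h3 := hSGM hy
        have e : y = g * (g⁻¹ * y * g) * g⁻¹ := by group
        rw [e]; exact hMn.conj_mem _ h3 g
    exact h2 (conj_mem_conj_smul hx)
  obtain ⟨P⟩ : Nonempty (Sylow p G) := inferInstance
  have hPnn : ¬ (P : Subgroup G).Normal := by
    intro hPn
    apply hnn
    apply ((Group.isNilpotent_of_finite_tfae (G := G)).out 0 3).mpr
    intro r hr R
    by_cases hrp : r = p
    · subst hrp
      haveI := Sylow.unique_of_normal P hPn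
      have hRP : R = P := Subsingleton.elim _ _
      rw [hRP]; exact hPn
    · exact hnormal r hrp R
  have hex : ∃ (q : ℕ) (_ : Fact q.Prime), q ≠ p ∧ ∃ Q : Sylow q G,
      ¬ (∀ x ∈ (P : Subgroup G), ∀ y ∈ (Q : Subgroup G), x * y = y * x) := by
    by_contra hcon
    apply hPnn
    rw [← Subgroup.normalizer_eq_top_iff]
    apply Cfsg.Agent.Lib.Helper9.eq_top_of_forall_exists_sylow_le
    intro r hr
    by_cases hrp : r = p
    · subst hrp
      exact ⟨P, Subgroup.le_normalizer⟩
    · obtain ⟨R⟩ : Nonempty (Sylow r G) := inferInstance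
      refine ⟨R, ?_⟩
      have hc : ∀ x ∈ (P : Subgroup G), ∀ y ∈ (R : Subgroup G), x * y = y * x := by
        by_contra h
        exact hcon ⟨r, hr, hrp, R, h⟩
      apply Cfsg.Agent.S0567.le_normalizer_of_conj_mem
      intro a ha x hx
      have h1 := hc x hx a ha
      have e : a * x * a⁻¹ = x := by rw [← h1]; group
      rw [e]; exact hx
  obtain ⟨q, hqf, hqp, Q, hQc⟩ := hex
  haveI := hqf
  have hQn : (Q : Subgroup G).Normal := hnormal q hqp Q
  haveI := hQn
  have hPQ : (P : Subgroup G) ⊔ Q = ⊤ := by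
    by_contra hne
    have hnil := hprop _ hne
    apply hQc
    intro x hx y hy
    exact commute_of_nilpotent _ hnil (Ne.symm hqp) (Subgroup.mem_sup_left hx)
      (Subgroup.mem_sup_right hy) (isPGroup_zpowers_of_mem P.isPGroup' hx)
      (isPGroup_zpowers_of_mem Q.isPGroup' hy)
  have hcyc : IsCyclic P := by
    by_contra hnc
    apply hQc
    intro x hx y hy
    have hne : Subgroup.zpowers x ⊔ (Q : Subgroup G) ≠ ⊤ := by
      intro htop
      apply hnc
      have h1 := card_mul_card_le (P : Subgroup G) (Q : Subgroup G)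
      have hPQd : (P : Subgroup G) ⊓ Q = ⊥ :=
        disjoint_iff.mp (IsPGroup.disjoint_of_ne p q (Ne.symm hqp) _ _ P.isPGroup' Q.isPGroup')
      rw [hPQd, Subgroup.card_bot, mul_one] at h1
      have h2 : Nat.card ↥((P : Subgroup G) ⊔ Q) ≤ Nat.card G := Subgroup.card_le_card_group _
      have h3 := card_mul_set (Subgroup.zpowers x) (Q : Subgroup G)
      rw [← Subgroup.mul_normal (Subgroup.zpowers x) (Q : Subgroup G)] at h3
      have h5 : Nat.card ↥(Subgroup.zpowers x ⊔ (Q : Subgroup G)) =
          Nat.card ((↑(Subgroup.zpowers x ⊔ (Q : Subgroup G)) : Set G)) := rfl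
      rw [← h5, htop, Subgroup.card_top] at h3
      have h6 : Nat.card G ≤ Nat.card (Subgroup.zpowers x) * Nat.card (Q : Subgroup G) := by
        rw [← h3]
        exact Nat.le_mul_of_pos_right _ Nat.card_pos
      have h7 : Nat.card (P : Subgroup G) ≤ Nat.card (Subgroup.zpowers x) := by
        have hQpos : 0 < Nat.card (Q : Subgroup G) := Nat.card_pos
        exact Nat.le_of_mul_le_mul_right ((h1.trans h2).trans h6) hQpos
      have h8 : Subgroup.zpowers x = (P : Subgroup G) :=
        Subgroup.eq_of_le_of_card_ge (Subgroup.zpowers_le.mpr hx) h7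
      exact h8 ▸ (inferInstance : IsCyclic (Subgroup.zpowers x))
    have hnil := hprop _ hne
    exact commute_of_nilpotent _ hnil (Ne.symm hqp)
      (Subgroup.mem_sup_left (Subgroup.mem_zpowers x)) (Subgroup.mem_sup_right hy)
      (isPGroup_zpowers_of_mem P.isPGroup' hx) (isPGroup_zpowers_of_mem Q.isPGroup' hy)
  exact ⟨p, q, hMp, hqf.out, Ne.symm hqp, P, Q, hcyc, hQn, hPQ, hPnn⟩

end Cfsg.Agent.Lib.Helper4.Schmidt
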