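import Mathlib
import Cfsg.Prelude.Def_SolvableStructure
import Cfsg.Agent.S0557
import Cfsg.Agent.Lib.Helper4.Conj
import Cfsg.Agent.Lib.Helper4.Schmidt
import Cfsg.Agent.Lib.Helper4.HallSys
import Cfsg.Agent.Lib.Helper16.Basic
import Cfsg.Agent.Lib.Helper10.Coprime

set_option autoImplicit false

namespace Cfsg.Agent.Lib.Helper4.Wielandt

open scoped Pointwise
open Cfsg.Agent.Lib.Helper4.Conj Cfsg.Agent.Lib.Helper4.Schmidt Cfsg.Agent.Lib.Helper4.HallSys

universe u
variable {G : Type u} [Group G]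

theorem nil_of_le {M N : Subgroup G} (h : M ≤ N) (hN : Group.IsNilpotent N) :
    Group.IsNilpotent M := by
  haveI := hN
  exact (Group.isNilpotent_congr (Subgroup.subgroupOfEquivOfLe h)).mp inferInstance

theorem nil_subgroupOf (H C : Subgroup G) (hH : Group.IsNilpotent H) :
    Group.IsNilpotent (H.subgroupOf C) := by
  have h1 : Group.IsNilpotent ↥(H ⊓ C) := nil_of_le inf_le_left hH
  have h2 := (Group.isNilpotent_congr
    (Subgroup.subgroupOfEquivOfLe (inf_le_right : H ⊓ C ≤ C))).mpr h1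
  rwa [Subgroup.inf_subgroupOf_right] at h2

theorem nil_map {G' : Type*} [Group G'] (f : G →* G') (hf : Function.Injective f)
    (M : Subgroup G) (hM : Group.IsNilpotent M) : Group.IsNilpotent (M.map f) :=
  (Group.isNilpotent_congr (M.equivMapOfInjective f hf)).mp hM

theorem nil_conj (g : G) (H : Subgroup G) (hH : Group.IsNilpotent H) :
    Group.IsNilpotent ↥(MulAut.conj g • H) :=
  nil_map (MulAut.conj g).toMonoidHom (MulAut.conj g).injective H hH

theorem exists_sylow_le [Finite G] (H : Subgroup G) (p : ℕ) [Fact p.Prime] (h : ¬ p ∣ H.index) :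
    ∃ S : Sylow p G, (S : Subgroup G) ≤ H := by
  obtain ⟨T⟩ : Nonempty (Sylow p H) := inferInstance
  have hp : IsPGroup p ((T : Subgroup H).map H.subtype) := T.isPGroup'.map _
  have hidx : ¬ p ∣ ((T : Subgroup H).map H.subtype).index := by
    rw [Subgroup.index_map_subtype]
    exact Nat.Prime.not_dvd_mul Fact.out T.not_dvd_index h
  refine ⟨hp.toSylow hidx, ?_⟩
  rw [IsPGroup.toSylow_coe]
  exact Subgroup.map_subtype_le _

theorem le_centralizer_sylow {K : Type u} [Group K] [Finite K] (hK : Group.IsNilpotent K) (p : ℕ)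
    [Fact p.Prime] (P : Sylow p K) (L : Subgroup K) (hL : (Nat.card L).Coprime p) :
    L ≤ Subgroup.centralizer ((P : Subgroup K) : Set K) := by
  have hnorm := ((Group.isNilpotent_of_finite_tfae (G := K)).out 0 3).mp hK
  haveI hPn : (P : Subgroup K).Normal := hnorm p inferInstance P
  apply Cfsg.Agent.S0557.le_of_coprime_index
  apply Nat.coprime_of_dvd
  intro r hr hrL hrC
  haveI : Fact r.Prime := ⟨hr⟩
  have hrp : r ≠ p := by
    rintro rfl
    exact (Nat.Prime.coprime_iff_not_dvd hr).mp hL.symm hrL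
  obtain ⟨R⟩ : Nonempty (Sylow r K) := inferInstance
  have hRC : (R : Subgroup K) ≤ Subgroup.centralizer ((P : Subgroup K) : Set K) := by
    intro x hx
    rw [Subgroup.mem_centralizer_iff]
    intro y hy
    exact commute_of_nilpotent ⊤ (Group.isNilpotent_top.mpr hK) hrp.symm (Subgroup.mem_top y)
      (Subgroup.mem_top x) (isPGroup_zpowers_of_mem P.isPGroup' hy)
      (isPGroup_zpowers_of_mem R.isPGroup' hx)
  exact R.not_dvd_index (dvd_trans hrC (Subgroup.index_dvd_of_le hRC))

theorem nil_step [Finite G] (H K : Subgroup G) (hH : Group.IsNilpotent H)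
    (hdag : ∀ p : ℕ, p.Prime → p ∣ Nat.card K → ¬ p ∣ H.index)
    (hK : Group.IsNilpotent K) (p : ℕ) [Fact p.Prime] (hpK : p ∣ Nat.card K) (P : Sylow p K)
    (hPH : (P : Subgroup K).map K.subtype ≤ H)
    (ih : ∀ m < Nat.card K, ∀ (G' : Type u) [Group G'] [Finite G'] (H' K' : Subgroup G'),
      Group.IsNilpotent H' → (∀ p : ℕ, p.Prime → p ∣ Nat.card K' → ¬ p ∣ H'.index) →
      Nat.card K' = m → ∃ x : G', K' ≤ MulAut.conj x • H') :
    ∃ x : G, K ≤ MulAut.conj x • H := by
  classical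
  have hnorm := ((Group.isNilpotent_of_finite_tfae (G := K)).out 0 3).mp hK
  haveI hPn : (P : Subgroup K).Normal := hnorm p inferInstance P
  obtain ⟨L, hL⟩ := Subgroup.exists_right_complement'_of_coprime (N := (P : Subgroup K))
    P.card_coprime_index
  have hcardL : Nat.card (P : Subgroup K) * Nat.card L = Nat.card K := hL.card_mul_card
  have hLp : (Nat.card L).Coprime p := by
    have h1 : Nat.card L = (P : Subgroup K).index := by
      have h2 := (P : Subgroup K).card_mul_index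
      exact Nat.eq_of_mul_eq_mul_left Nat.card_pos (hcardL.trans h2.symm)
    rw [h1]
    exact ((Nat.Prime.coprime_iff_not_dvd Fact.out).mpr P.not_dvd_index).symm
  have hLC := le_centralizer_sylow hK p P L hLp
  obtain ⟨K₁, hK₁⟩ : ∃ K₁ : Subgroup G, K₁ = (P : Subgroup K).map K.subtype := ⟨_, rfl⟩
  obtain ⟨K₂, hK₂⟩ : ∃ K₂ : Subgroup G, K₂ = L.map K.subtype := ⟨_, rfl⟩
  obtain ⟨C, hC⟩ : ∃ C : Subgroup G, C = Subgroup.centralizer (K₁ : Set G) := ⟨_, rfl⟩
  rw [← hK₁] at hPH
  have hK₁p : IsPGroup p K₁ := by rw [hK₁]; exact P.isPGroup'.map _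
  have hK₂C : K₂ ≤ C := by
    rw [hK₂, hC]
    rintro _ ⟨l, hl, rfl⟩
    rw [Subgroup.mem_centralizer_iff]
    intro z hz
    rw [hK₁] at hz
    obtain ⟨y, hy, rfl⟩ := hz
    have := Subgroup.mem_centralizer_iff.mp (hLC hl) y hy
    exact congrArg Subtype.val this
  have hsup : K₁ ⊔ K₂ = K := by
    rw [hK₁, hK₂, ← Subgroup.map_sup, hL.sup_eq_top, ← MonoidHom.range_eq_map,
      Subgroup.range_subtype]
  have hcardK₂ : Nat.card K₂ = Nat.card L := by
    rw [hK₂, Subgroup.card_map_of_injective K.subtype_injective]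
  have hcardlt : Nat.card L < Nat.card K := by
    rw [← hcardL]
    have h1 : 1 < Nat.card (P : Subgroup K) := by
      rw [P.card_eq_multiplicity]
      apply Nat.one_lt_pow _ (Fact.out : p.Prime).one_lt
      exact (Nat.Prime.factorization_pos_of_dvd Fact.out Nat.card_pos.ne' hpK).ne'
    have h2 : 0 < Nat.card L := Nat.card_pos
    nlinarith
  have hH₂ : Group.IsNilpotent (H.subgroupOf C) := nil_subgroupOf H C hH
  have hcard₂ : Nat.card (K₂.subgroupOf C) = Nat.card L := by
    rw [Cfsg.Agent.Lib.Helper4.Card.card_subgroupOf_eq, inf_eq_left.mpr hK₂C, hcardK₂]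
  have hdag₂ : ∀ r : ℕ, r.Prime → r ∣ Nat.card (K₂.subgroupOf C) →
      ¬ r ∣ (H.subgroupOf C).index := by
    intro r hr hrK
    haveI : Fact r.Prime := ⟨hr⟩
    rw [hcard₂] at hrK
    have hrp : r ≠ p := by
      rintro rfl
      exact (Nat.Prime.coprime_iff_not_dvd hr).mp hLp.symm hrK
    have hrK' : r ∣ Nat.card K := by rw [← hcardL]; exact dvd_mul_of_dvd_right hrK _
    obtain ⟨S, hS⟩ := exists_sylow_le H r (hdag r hr hrK')
    have hSC : (S : Subgroup G) ≤ C := by
      rw [hC]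
      intro s hs
      rw [Subgroup.mem_centralizer_iff]
      intro y hy
      exact commute_of_nilpotent H hH hrp.symm (hPH hy) (hS hs)
        (isPGroup_zpowers_of_mem hK₁p hy) (isPGroup_zpowers_of_mem S.isPGroup' hs)
    show ¬ r ∣ H.relIndex C
    rw [← Subgroup.inf_relIndex_right]
    intro hdvd
    apply S.not_dvd_index
    exact dvd_trans hdvd (dvd_trans (Subgroup.relIndex_dvd_of_le_left C (le_inf hS hSC))
      (Subgroup.relIndex_dvd_index_of_le hSC))
  obtain ⟨c, hc⟩ := ih _ hcardlt ↥C (H.subgroupOf C) (K₂.subgroupOf C) hH₂ hdag₂ hcard₂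
  refine ⟨(c : G), ?_⟩
  rw [← hsup]
  apply sup_le
  · intro k hk
    rw [mem_conj_smul]
    have hcc : (c : G) ∈ Subgroup.centralizer (K₁ : Set G) := by rw [← hC]; exact c.2
    have := Subgroup.mem_centralizer_iff.mp hcc k hk
    have e : (c : G)⁻¹ * k * c = k := by rw [mul_assoc, this]; group
    rw [e]; exact hPH hk
  · intro k hk
    have h1 : (⟨k, hK₂C hk⟩ : C) ∈ MulAut.conj c • (H.subgroupOf C) :=
      hc (Subgroup.mem_subgroupOf.mpr hk)
    rw [mem_conj_smul, Subgroup.mem_subgroupOf] at h1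
    rw [mem_conj_smul]
    exact h1

theorem nonnil_step [Finite G] (H K : Subgroup G) (hH : Group.IsNilpotent H)
    (hdag : ∀ p : ℕ, p.Prime → p ∣ Nat.card K → ¬ p ∣ H.index)
    (hmin : Cfsg.IsMinimalNonNilpotent ↥K) : False := by
  classical
  obtain ⟨p, q, hp, hq, hpq, P, Q, -, hQn, hsup, hPn⟩ := schmidt_structure hmin
  haveI : Fact p.Prime := ⟨hp⟩
  haveI : Fact q.Prime := ⟨hq⟩
  have hex : ∃ x ∈ (P : Subgroup K), ∃ y ∈ (Q : Subgroup K), x * y ≠ y * x := by
    by_contra hcon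
    push Not at hcon
    apply hPn
    rw [← Subgroup.normalizer_eq_top_iff, eq_top_iff, ← hsup]
    apply sup_le Subgroup.le_normalizer
    refine le_trans ?_ (Subgroup.centralizer_le_normalizer _)
    intro y hy
    rw [Subgroup.mem_centralizer_iff]
    intro x hx
    exact hcon x hx y hy
  obtain ⟨x, hx, y, hy, hxy⟩ := hex
  have hp1 : p ∣ Nat.card K := by
    by_contra h
    have h1 : Nat.card (P : Subgroup K) = 1 := by
      rw [P.card_eq_multiplicity, Nat.factorization_eq_zero_of_not_dvd h, pow_zero]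
    have h2 : (P : Subgroup K) = ⊥ := Subgroup.card_eq_one.mp h1
    rw [h2, Subgroup.mem_bot] at hx
    subst hx
    exact hxy (by rw [one_mul, mul_one])
  have hq1 : q ∣ Nat.card K := by
    by_contra h
    have h1 : Nat.card (Q : Subgroup K) = 1 := by
      rw [Q.card_eq_multiplicity, Nat.factorization_eq_zero_of_not_dvd h, pow_zero]
    have h2 : (Q : Subgroup K) = ⊥ := Subgroup.card_eq_one.mp h1
    rw [h2, Subgroup.mem_bot] at hy
    subst hy
    exact hxy (by rw [one_mul, mul_one])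
  obtain ⟨Q', hQ'⟩ : ∃ Q' : Subgroup G, Q' = (Q : Subgroup K).map K.subtype := ⟨_, rfl⟩
  have hQ'p : IsPGroup q Q' := by rw [hQ']; exact Q.isPGroup'.map _
  obtain ⟨Sq, hSq⟩ := exists_sylow_le H q (hdag q hq hq1)
  obtain ⟨g, hg⟩ := Cfsg.Agent.Lib.Helper16.Basic.exists_conj_le_sylow hQ'p Sq
  obtain ⟨H', hH'⟩ : ∃ H' : Subgroup G, H' = MulAut.conj g⁻¹ • H := ⟨_, rfl⟩
  have hQ'H : Q' ≤ H' := by
    intro z hz
    rw [hH', mem_conj_smul, inv_inv]
    exact hSq (hg ⟨z, hz, rfl⟩)
  have hH'nil : Group.IsNilpotent H' := by rw [hH']; exact nil_conj _ H hH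
  have hH'idx : H'.index = H.index := by rw [hH']; exact index_conj_smul _ H
  obtain ⟨Sp, hSp⟩ := exists_sylow_le H' p (by rw [hH'idx]; exact hdag p hp hp1)
  have hSpC : (Sp : Subgroup G) ≤ Subgroup.centralizer (Q' : Set G) := by
    intro s hs
    rw [Subgroup.mem_centralizer_iff]
    intro z hz
    exact commute_of_nilpotent H' hH'nil hpq.symm (hQ'H hz) (hSp hs)
      (isPGroup_zpowers_of_mem hQ'p hz) (isPGroup_zpowers_of_mem Sp.isPGroup' hs)
  have hKN : K ≤ Subgroup.normalizer (Q' : Set G) := by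
    intro k hk
    apply Cfsg.Agent.Lib.Helper10.Coprime.mem_normalizer_of_conj_mem
    intro z hz
    rw [hQ'] at hz ⊢
    obtain ⟨z, hz, rfl⟩ := hz
    exact ⟨⟨k, hk⟩ * z * ⟨k, hk⟩⁻¹, hQn.conj_mem z hz ⟨k, hk⟩, rfl⟩
  have hxN : Subgroup.zpowers (x : G) ≤ Subgroup.normalizer (Q' : Set G) := by
    rw [Subgroup.zpowers_le]; exact hKN x.2
  have hxp : IsPGroup p (Subgroup.zpowers (x : G)) := by
    have : IsPGroup p ((P : Subgroup K).map K.subtype) := P.isPGroup'.map _
    exact isPGroup_zpowers_of_mem this ⟨x, hx, rfl⟩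
  obtain ⟨n, hn, hnx⟩ := Cfsg.Agent.Lib.Helper16.Basic.exists_conj_le_of_sylow_le Sp
    (hSpC.trans (Subgroup.centralizer_le_normalizer _)) hxN hxp
  have h1 : n * (x : G) * n⁻¹ ∈ Subgroup.centralizer (Q' : Set G) :=
    hSpC (hnx ⟨x, Subgroup.mem_zpowers _, rfl⟩)
  have hy' : (y : G) ∈ Q' := by rw [hQ']; exact ⟨y, hy, rfl⟩
  have h2 : n * (y : G) * n⁻¹ ∈ Q' := (Subgroup.mem_normalizer_iff.mp hn _).mp hy'
  have h3 := Subgroup.mem_centralizer_iff.mp h1 _ h2
  apply hxy
  apply Subtype.ext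
  have h4 : (x : G) * (y : G) = n⁻¹ * ((n * x * n⁻¹) * (n * y * n⁻¹)) * n := by group
  have h5 : (y : G) * (x : G) = n⁻¹ * ((n * y * n⁻¹) * (n * x * n⁻¹)) * n := by group
  show (x : G) * (y : G) = (y : G) * (x : G)
  rw [h4, h5, h3]

theorem wielandt_aux (n : ℕ) : ∀ (G : Type u) [Group G] [Finite G] (H K : Subgroup G),
    Group.IsNilpotent H → (∀ p : ℕ, p.Prime → p ∣ Nat.card K → ¬ p ∣ H.index) →
    Nat.card K = n → ∃ x : G, K ≤ MulAut.conj x • H := by
  induction n using Nat.strong_induction_on with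
  | _ n ih =>
    intro G _ _ H K hH hdag hn
    by_cases hKnil : Group.IsNilpotent K
    · by_cases hK1 : Nat.card K = 1
      · refine ⟨1, ?_⟩
        rw [Subgroup.card_eq_one.mp hK1]
        exact bot_le
      obtain ⟨p, hp, hpK⟩ := Nat.exists_prime_and_dvd hK1
      haveI : Fact p.Prime := ⟨hp⟩
      obtain ⟨P⟩ : Nonempty (Sylow p K) := inferInstance
      obtain ⟨S, hS⟩ := exists_sylow_le H p (hdag p hp hpK)
      have hK₁p : IsPGroup p ((P : Subgroup K).map K.subtype) := P.isPGroup'.map _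
      obtain ⟨g, hg⟩ := Cfsg.Agent.Lib.Helper16.Basic.exists_conj_le_sylow hK₁p S
      have hK₁H : (P : Subgroup K).map K.subtype ≤ MulAut.conj g⁻¹ • H := by
        intro x hx
        rw [mem_conj_smul, inv_inv]
        exact hS (hg ⟨x, hx, rfl⟩)
      have hdag' : ∀ p : ℕ, p.Prime → p ∣ Nat.card K → ¬ p ∣ (MulAut.conj g⁻¹ • H).index := by
        intro r hr hrK
        rw [index_conj_smul]
        exact hdag r hr hrK
      obtain ⟨x, hx⟩ := nil_step (MulAut.conj g⁻¹ • H) K (nil_conj _ H hH) hdag' hKnil p hpK P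
        hK₁H (by rw [hn]; exact ih)
      exact ⟨x * g⁻¹, by rw [← conj_smul_smul]; exact hx⟩
    · exfalso
      have hmin : Cfsg.IsMinimalNonNilpotent ↥K := by
        refine ⟨hKnil, ?_⟩
        intro M hM
        have hcard : Nat.card (M.map K.subtype) < n := by
          rw [Subgroup.card_map_of_injective K.subtype_injective, ← hn]
          exact lt_of_le_of_ne (Subgroup.card_le_card_group M)
            (fun h => hM ((Subgroup.card_eq_iff_eq_top M).mp h))
        have hdagM : ∀ p : ℕ, p.Prime → p ∣ Nat.card (M.map K.subtype) → ¬ p ∣ H.index := by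
          intro p hp hpM
          exact hdag p hp (dvd_trans hpM (Subgroup.card_dvd_of_le (Subgroup.map_subtype_le M)))
        obtain ⟨x, hx⟩ := ih _ hcard G H (M.map K.subtype) hH hdagM rfl
        have h1 : Group.IsNilpotent ↥(M.map K.subtype) := nil_of_le hx (nil_conj x H hH)
        exact (Group.isNilpotent_congr
          (M.equivMapOfInjective K.subtype K.subtype_injective)).mpr h1
      exact nonnil_step H K hH hdag hmin

end Cfsg.Agent.Lib.Helper4.Wielandt
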